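import Cfsg.Agent.Lib.Helper19.CoxMain

set_option autoImplicit false

namespace Cfsg.Agent.Lib.Helper19.Cox

namespace TG2

/-- Coxeter matrix table. -/
def tMM : ℕ := 0x1661
/-- indices -/
def tN : ℕ := 0x60002
/-- coset tables -/
def tT : ℕ := 0x400050005000300020004000300010000000200010000000000000000000000000000000000000000000000000001
/-- ranks -/
def tR : ℕ := 0x100020000000100010000000000010001000000000000000000000000000000000000000000000000000100000000
/-- codes -/
def tK : ℕ := 0x20400020200000202000001000000000000000000020000
/-- parents -/
def tP : ℕ := 0x400030002000100000000000000000000000000000000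
/-- tree generators -/
def tG : ℕ := 0x10001000100000000000000
/-- permutation action -/
def tPi : ℕ := 0x9000a000b000400070002000100080000000600050003000b0006000500080003000a000900010007000000040002
/-- base points -/
def tOm : ℕ := 0x80000
/-- orbit points -/
def tO : ℕ := 0xb00090005000100040008000000000000000000020000
/-- inverse orbit tables -/
def tI : ℕ := 0x500000004000000000000000300010000000000020000000000000000000000000000000000000000000100000000

/-- The certificate data for type G2. -/
def data : Data where
  n := 2
  mm := fun i j => tget tMM 4 (i * 2 + j)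
  N := fun k => tget tN 16 k
  τ := fun k c i => tget tT 16 ((k * 6 + c) * 2 + i)
  ρ := fun k c i => tget tR 16 ((k * 6 + c) * 2 + i)
  κ := fun k c i => tget tK 8 ((k * 6 + c) * 2 + i)
  par := fun k c => tget tP 16 (k * 6 + c)
  gen := fun k c => tget tG 8 (k * 6 + c)
  d := 12
  π := fun i x => tget tPi 16 (i * 12 + x)
  ω := fun k => tget tOm 16 k
  O := fun k c => tget tO 16 (k * 6 + c)
  Inv := fun k x => tget tI 16 (k * 12 + x)

theorem data_check : data.check = true := by decide +kernel

theorem data_mat : ∀ i j : Fin 2, (CoxeterMatrix.G₂ : CoxeterMatrix (Fin 2)) i j = data.mm i j :=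
  data.of_matCheck (CoxeterMatrix.G₂) (by decide +kernel)

theorem data_ord : data.ord data.n = 12 := by decide +kernel

theorem data_cox : data.coxCheck 6 0 = true := by decide +kernel

theorem card : Nat.card (CoxeterMatrix.G₂ : CoxeterMatrix (Fin 2)).Group = 12 := by
  rw [← data_ord]
  exact (data.card_group data_check (CoxeterMatrix.G₂) data_mat).2

theorem cox : orderOf ((List.finRange 2).map (CoxeterMatrix.G₂ : CoxeterMatrix (Fin 2)).simple).prod = 6 :=
  data.orderOf_cox data_check (CoxeterMatrix.G₂) data_mat 6 0 data_cox

end TG2

end Cfsg.Agent.Lib.Helper19.Cox
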