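import Mathlib

/-!
# A concrete field with four elements

`F4` has the elements `0, 1, ω, ω + 1` (`ω² = ω + 1`), with operations defined by cases, so that
everything about it can be decided by evaluation.
-/

set_option autoImplicit false

namespace Cfsg.Agent.Lib.Helper19

/-- the field with four elements `0, 1, ω, ω + 1` -/
inductive F4
  | z
  | o
  | w
  | v
  deriving DecidableEq

namespace F4

/-- addition -/
def add : F4 → F4 → F4
  | z, x => x
  | x, z => x
  | o, o => z
  | o, w => v
  | o, v => w
  | w, o => v
  | w, w => z
  | w, v => o
  | v, o => w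
  | v, w => o
  | v, v => z

/-- multiplication -/
def mul : F4 → F4 → F4
  | z, _ => z
  | _, z => z
  | o, x => x
  | x, o => x
  | w, w => v
  | w, v => o
  | v, w => o
  | v, v => w

/-- inverse -/
def inv : F4 → F4
  | z => z
  | o => o
  | w => v
  | v => w

instance : Fintype F4 := ⟨⟨[z, o, w, v], by decide⟩, fun x => by cases x <;> decide⟩

instance : Zero F4 := ⟨z⟩
instance : One F4 := ⟨o⟩
instance : Add F4 := ⟨add⟩
instance : Mul F4 := ⟨mul⟩
instance : Neg F4 := ⟨id⟩
instance : Inv F4 := ⟨inv⟩

instance : CommRing F4 where
  add_assoc := by decide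
  zero_add := by decide
  add_zero := by decide
  add_comm := by decide
  neg_add_cancel := by decide
  mul_assoc := by decide
  one_mul := by decide
  mul_one := by decide
  left_distrib := by decide
  right_distrib := by decide
  zero_mul := by decide
  mul_zero := by decide
  mul_comm := by decide
  nsmul := nsmulRec
  zsmul := zsmulRec

instance : Field F4 where
  exists_pair_ne := ⟨z, o, by decide⟩
  mul_inv_cancel := by decide
  inv_zero := rfl
  nnqsmul := _
  qsmul := _

theorem card : Fintype.card F4 = 4 := rfl

/-- the element with a given code `0, 1, 2, 3` -/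
def ofCode (n : ℕ) : F4 :=
  match n % 4 with
  | 0 => z
  | 1 => o
  | 2 => w
  | _ => v

/-- the code of an element -/
def code : F4 → ℕ
  | z => 0
  | o => 1
  | w => 2
  | v => 3

end F4

end Cfsg.Agent.Lib.Helper19
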