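import Cfsg.Prelude.Def_Spor_Fi22
import Cfsg.Agent.Lib.Helper19.Fi22MatD

/-!
# A homomorphism from the presented group `Fi₂₂` to `GL(78, 13)`

The nine generators are sent to the matrices `D 0, …, D 8` (the 78-dimensional constituent of the
permutation representation on the 142155 maximal sets of commuting transpositions, reduced
modulo 13); the relators are checked by multiplying out (`MatL.ewR`).
-/

set_option autoImplicit false
set_option maxRecDepth 100000

namespace Cfsg.Agent.Lib.Helper19.Fi22M

open Cfsg.Spor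
open Cfsg.Agent.Lib.Helper19.MatL

theorem hD : ∀ l, wf 78 (D l) = true
  | 0 => by decide +kernel
  | 1 => by decide +kernel
  | 2 => by decide +kernel
  | 3 => by decide +kernel
  | 4 => by decide +kernel
  | 5 => by decide +kernel
  | 6 => by decide +kernel
  | 7 => by decide +kernel
  | 8 => by decide +kernel
  | (_ + 9) => wf_idL 78

theorem hb : ∀ l, bd (13 - 1) (D l) = true
  | 0 => by decide +kernel
  | 1 => by decide +kernel
  | 2 => by decide +kernel
  | 3 => by decide +kernel
  | 4 => by decide +kernel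
  | 5 => by decide +kernel
  | 6 => by decide +kernel
  | 7 => by decide +kernel
  | 8 => by decide +kernel
  | (_ + 9) => bd_idL _ 78 (by norm_num)

theorem hDP : ∀ l, DP l = (D l).map pack
  | 0 => by decide +kernel
  | 1 => by decide +kernel
  | 2 => by decide +kernel
  | 3 => by decide +kernel
  | 4 => by decide +kernel
  | 5 => by decide +kernel
  | 6 => by decide +kernel
  | 7 => by decide +kernel
  | 8 => by decide +kernel
  | (_ + 9) => rfl

/-- the matrices over `ZMod 13` -/
noncomputable def T (l : ℕ) : Matrix (Fin 78) (Fin 78) (ZMod 13) := toMat 13 78 (D l)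

theorem toMat_word (w : List ℕ) : toMat 13 78 (ewR 13 78 DP w) = (w.map T).prod :=
  toMat_ewR 13 78 (by norm_num) (by norm_num) D DP hD hb hDP w

theorem relM (w : List ℕ) (h : ewR 13 78 DP w = idL 78) : (w.map T).prod = 1 := by
  have h1 := toMat_word w
  rw [h, toMat_idL] at h1
  exact h1.symm

/-- the index of a generator -/
def gi : Fi22.Gen → ℕ
  | .a => 0
  | .b => 1
  | .c => 2
  | .d => 3
  | .e => 4
  | .f => 5
  | .g => 6
  | .h => 7
  | .i => 8

/-- the generator of an index -/
def gen : ℕ → Fi22.Gen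
  | 0 => .a
  | 1 => .b
  | 2 => .c
  | 3 => .d
  | 4 => .e
  | 5 => .f
  | 6 => .g
  | 7 => .h
  | _ => .i

theorem gen_gi (x : Fi22.Gen) : gen (gi x) = x := by cases x <;> rfl

theorem gi_lt (x : Fi22.Gen) : gi x < 9 := by cases x <;> decide

set_option maxHeartbeats 0 in
theorem c_0_0 :
    ewR 13 78 DP (List.replicate (coxLabel Fi22.edges (gen 0) (gen 0)) [0, 0]).flatten = idL 78 := by
  decide +kernel

set_option maxHeartbeats 0 in
theorem c_0_1 :
    ewR 13 78 DP (List.replicate (coxLabel Fi22.edges (gen 0) (gen 1)) [0, 1]).flatten = idL 78 := by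
  decide +kernel

set_option maxHeartbeats 0 in
theorem c_0_2 :
    ewR 13 78 DP (List.replicate (coxLabel Fi22.edges (gen 0) (gen 2)) [0, 2]).flatten = idL 78 := by
  decide +kernel

set_option maxHeartbeats 0 in
theorem c_0_3 :
    ewR 13 78 DP (List.replicate (coxLabel Fi22.edges (gen 0) (gen 3)) [0, 3]).flatten = idL 78 := by
  decide +kernel

set_option maxHeartbeats 0 in
theorem c_0_4 :
    ewR 13 78 DP (List.replicate (coxLabel Fi22.edges (gen 0) (gen 4)) [0, 4]).flatten = idL 78 := by
  decide +kernel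

set_option maxHeartbeats 0 in
theorem c_0_5 :
    ewR 13 78 DP (List.replicate (coxLabel Fi22.edges (gen 0) (gen 5)) [0, 5]).flatten = idL 78 := by
  decide +kernel

set_option maxHeartbeats 0 in
theorem c_0_6 :
    ewR 13 78 DP (List.replicate (coxLabel Fi22.edges (gen 0) (gen 6)) [0, 6]).flatten = idL 78 := by
  decide +kernel

set_option maxHeartbeats 0 in
theorem c_0_7 :
    ewR 13 78 DP (List.replicate (coxLabel Fi22.edges (gen 0) (gen 7)) [0, 7]).flatten = idL 78 := by
  decide +kernel

set_option maxHeartbeats 0 in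
theorem c_0_8 :
    ewR 13 78 DP (List.replicate (coxLabel Fi22.edges (gen 0) (gen 8)) [0, 8]).flatten = idL 78 := by
  decide +kernel

set_option maxHeartbeats 0 in
theorem c_1_0 :
    ewR 13 78 DP (List.replicate (coxLabel Fi22.edges (gen 1) (gen 0)) [1, 0]).flatten = idL 78 := by
  decide +kernel

set_option maxHeartbeats 0 in
theorem c_1_1 :
    ewR 13 78 DP (List.replicate (coxLabel Fi22.edges (gen 1) (gen 1)) [1, 1]).flatten = idL 78 := by
  decide +kernel

set_option maxHeartbeats 0 in
theorem c_1_2 :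
    ewR 13 78 DP (List.replicate (coxLabel Fi22.edges (gen 1) (gen 2)) [1, 2]).flatten = idL 78 := by
  decide +kernel

set_option maxHeartbeats 0 in
theorem c_1_3 :
    ewR 13 78 DP (List.replicate (coxLabel Fi22.edges (gen 1) (gen 3)) [1, 3]).flatten = idL 78 := by
  decide +kernel

set_option maxHeartbeats 0 in
theorem c_1_4 :
    ewR 13 78 DP (List.replicate (coxLabel Fi22.edges (gen 1) (gen 4)) [1, 4]).flatten = idL 78 := by
  decide +kernel

set_option maxHeartbeats 0 in
theorem c_1_5 :
    ewR 13 78 DP (List.replicate (coxLabel Fi22.edges (gen 1) (gen 5)) [1, 5]).flatten = idL 78 := by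
  decide +kernel

set_option maxHeartbeats 0 in
theorem c_1_6 :
    ewR 13 78 DP (List.replicate (coxLabel Fi22.edges (gen 1) (gen 6)) [1, 6]).flatten = idL 78 := by
  decide +kernel

set_option maxHeartbeats 0 in
theorem c_1_7 :
    ewR 13 78 DP (List.replicate (coxLabel Fi22.edges (gen 1) (gen 7)) [1, 7]).flatten = idL 78 := by
  decide +kernel

set_option maxHeartbeats 0 in
theorem c_1_8 :
    ewR 13 78 DP (List.replicate (coxLabel Fi22.edges (gen 1) (gen 8)) [1, 8]).flatten = idL 78 := by
  decide +kernel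

set_option maxHeartbeats 0 in
theorem c_2_0 :
    ewR 13 78 DP (List.replicate (coxLabel Fi22.edges (gen 2) (gen 0)) [2, 0]).flatten = idL 78 := by
  decide +kernel

set_option maxHeartbeats 0 in
theorem c_2_1 :
    ewR 13 78 DP (List.replicate (coxLabel Fi22.edges (gen 2) (gen 1)) [2, 1]).flatten = idL 78 := by
  decide +kernel

set_option maxHeartbeats 0 in
theorem c_2_2 :
    ewR 13 78 DP (List.replicate (coxLabel Fi22.edges (gen 2) (gen 2)) [2, 2]).flatten = idL 78 := by
  decide +kernel

set_option maxHeartbeats 0 in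
theorem c_2_3 :
    ewR 13 78 DP (List.replicate (coxLabel Fi22.edges (gen 2) (gen 3)) [2, 3]).flatten = idL 78 := by
  decide +kernel

set_option maxHeartbeats 0 in
theorem c_2_4 :
    ewR 13 78 DP (List.replicate (coxLabel Fi22.edges (gen 2) (gen 4)) [2, 4]).flatten = idL 78 := by
  decide +kernel

set_option maxHeartbeats 0 in
theorem c_2_5 :
    ewR 13 78 DP (List.replicate (coxLabel Fi22.edges (gen 2) (gen 5)) [2, 5]).flatten = idL 78 := by
  decide +kernel

set_option maxHeartbeats 0 in
theorem c_2_6 :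
    ewR 13 78 DP (List.replicate (coxLabel Fi22.edges (gen 2) (gen 6)) [2, 6]).flatten = idL 78 := by
  decide +kernel

set_option maxHeartbeats 0 in
theorem c_2_7 :
    ewR 13 78 DP (List.replicate (coxLabel Fi22.edges (gen 2) (gen 7)) [2, 7]).flatten = idL 78 := by
  decide +kernel

set_option maxHeartbeats 0 in
theorem c_2_8 :
    ewR 13 78 DP (List.replicate (coxLabel Fi22.edges (gen 2) (gen 8)) [2, 8]).flatten = idL 78 := by
  decide +kernel

set_option maxHeartbeats 0 in
theorem c_3_0 :
    ewR 13 78 DP (List.replicate (coxLabel Fi22.edges (gen 3) (gen 0)) [3, 0]).flatten = idL 78 := by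
  decide +kernel

set_option maxHeartbeats 0 in
theorem c_3_1 :
    ewR 13 78 DP (List.replicate (coxLabel Fi22.edges (gen 3) (gen 1)) [3, 1]).flatten = idL 78 := by
  decide +kernel

set_option maxHeartbeats 0 in
theorem c_3_2 :
    ewR 13 78 DP (List.replicate (coxLabel Fi22.edges (gen 3) (gen 2)) [3, 2]).flatten = idL 78 := by
  decide +kernel

set_option maxHeartbeats 0 in
theorem c_3_3 :
    ewR 13 78 DP (List.replicate (coxLabel Fi22.edges (gen 3) (gen 3)) [3, 3]).flatten = idL 78 := by
  decide +kernel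

set_option maxHeartbeats 0 in
theorem c_3_4 :
    ewR 13 78 DP (List.replicate (coxLabel Fi22.edges (gen 3) (gen 4)) [3, 4]).flatten = idL 78 := by
  decide +kernel

set_option maxHeartbeats 0 in
theorem c_3_5 :
    ewR 13 78 DP (List.replicate (coxLabel Fi22.edges (gen 3) (gen 5)) [3, 5]).flatten = idL 78 := by
  decide +kernel

set_option maxHeartbeats 0 in
theorem c_3_6 :
    ewR 13 78 DP (List.replicate (coxLabel Fi22.edges (gen 3) (gen 6)) [3, 6]).flatten = idL 78 := by
  decide +kernel

set_option maxHeartbeats 0 in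
theorem c_3_7 :
    ewR 13 78 DP (List.replicate (coxLabel Fi22.edges (gen 3) (gen 7)) [3, 7]).flatten = idL 78 := by
  decide +kernel

set_option maxHeartbeats 0 in
theorem c_3_8 :
    ewR 13 78 DP (List.replicate (coxLabel Fi22.edges (gen 3) (gen 8)) [3, 8]).flatten = idL 78 := by
  decide +kernel

set_option maxHeartbeats 0 in
theorem c_4_0 :
    ewR 13 78 DP (List.replicate (coxLabel Fi22.edges (gen 4) (gen 0)) [4, 0]).flatten = idL 78 := by
  decide +kernel

set_option maxHeartbeats 0 in
theorem c_4_1 :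
    ewR 13 78 DP (List.replicate (coxLabel Fi22.edges (gen 4) (gen 1)) [4, 1]).flatten = idL 78 := by
  decide +kernel

set_option maxHeartbeats 0 in
theorem c_4_2 :
    ewR 13 78 DP (List.replicate (coxLabel Fi22.edges (gen 4) (gen 2)) [4, 2]).flatten = idL 78 := by
  decide +kernel

set_option maxHeartbeats 0 in
theorem c_4_3 :
    ewR 13 78 DP (List.replicate (coxLabel Fi22.edges (gen 4) (gen 3)) [4, 3]).flatten = idL 78 := by
  decide +kernel

set_option maxHeartbeats 0 in
theorem c_4_4 :
    ewR 13 78 DP (List.replicate (coxLabel Fi22.edges (gen 4) (gen 4)) [4, 4]).flatten = idL 78 := by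
  decide +kernel

set_option maxHeartbeats 0 in
theorem c_4_5 :
    ewR 13 78 DP (List.replicate (coxLabel Fi22.edges (gen 4) (gen 5)) [4, 5]).flatten = idL 78 := by
  decide +kernel

set_option maxHeartbeats 0 in
theorem c_4_6 :
    ewR 13 78 DP (List.replicate (coxLabel Fi22.edges (gen 4) (gen 6)) [4, 6]).flatten = idL 78 := by
  decide +kernel

set_option maxHeartbeats 0 in
theorem c_4_7 :
    ewR 13 78 DP (List.replicate (coxLabel Fi22.edges (gen 4) (gen 7)) [4, 7]).flatten = idL 78 := by
  decide +kernel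

set_option maxHeartbeats 0 in
theorem c_4_8 :
    ewR 13 78 DP (List.replicate (coxLabel Fi22.edges (gen 4) (gen 8)) [4, 8]).flatten = idL 78 := by
  decide +kernel

set_option maxHeartbeats 0 in
theorem c_5_0 :
    ewR 13 78 DP (List.replicate (coxLabel Fi22.edges (gen 5) (gen 0)) [5, 0]).flatten = idL 78 := by
  decide +kernel

set_option maxHeartbeats 0 in
theorem c_5_1 :
    ewR 13 78 DP (List.replicate (coxLabel Fi22.edges (gen 5) (gen 1)) [5, 1]).flatten = idL 78 := by
  decide +kernel

set_option maxHeartbeats 0 in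
theorem c_5_2 :
    ewR 13 78 DP (List.replicate (coxLabel Fi22.edges (gen 5) (gen 2)) [5, 2]).flatten = idL 78 := by
  decide +kernel

set_option maxHeartbeats 0 in
theorem c_5_3 :
    ewR 13 78 DP (List.replicate (coxLabel Fi22.edges (gen 5) (gen 3)) [5, 3]).flatten = idL 78 := by
  decide +kernel

set_option maxHeartbeats 0 in
theorem c_5_4 :
    ewR 13 78 DP (List.replicate (coxLabel Fi22.edges (gen 5) (gen 4)) [5, 4]).flatten = idL 78 := by
  decide +kernel

set_option maxHeartbeats 0 in
theorem c_5_5 :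
    ewR 13 78 DP (List.replicate (coxLabel Fi22.edges (gen 5) (gen 5)) [5, 5]).flatten = idL 78 := by
  decide +kernel

set_option maxHeartbeats 0 in
theorem c_5_6 :
    ewR 13 78 DP (List.replicate (coxLabel Fi22.edges (gen 5) (gen 6)) [5, 6]).flatten = idL 78 := by
  decide +kernel

set_option maxHeartbeats 0 in
theorem c_5_7 :
    ewR 13 78 DP (List.replicate (coxLabel Fi22.edges (gen 5) (gen 7)) [5, 7]).flatten = idL 78 := by
  decide +kernel

set_option maxHeartbeats 0 in
theorem c_5_8 :
    ewR 13 78 DP (List.replicate (coxLabel Fi22.edges (gen 5) (gen 8)) [5, 8]).flatten = idL 78 := by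
  decide +kernel

set_option maxHeartbeats 0 in
theorem c_6_0 :
    ewR 13 78 DP (List.replicate (coxLabel Fi22.edges (gen 6) (gen 0)) [6, 0]).flatten = idL 78 := by
  decide +kernel

set_option maxHeartbeats 0 in
theorem c_6_1 :
    ewR 13 78 DP (List.replicate (coxLabel Fi22.edges (gen 6) (gen 1)) [6, 1]).flatten = idL 78 := by
  decide +kernel

set_option maxHeartbeats 0 in
theorem c_6_2 :
    ewR 13 78 DP (List.replicate (coxLabel Fi22.edges (gen 6) (gen 2)) [6, 2]).flatten = idL 78 := by
  decide +kernel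

set_option maxHeartbeats 0 in
theorem c_6_3 :
    ewR 13 78 DP (List.replicate (coxLabel Fi22.edges (gen 6) (gen 3)) [6, 3]).flatten = idL 78 := by
  decide +kernel

set_option maxHeartbeats 0 in
theorem c_6_4 :
    ewR 13 78 DP (List.replicate (coxLabel Fi22.edges (gen 6) (gen 4)) [6, 4]).flatten = idL 78 := by
  decide +kernel

set_option maxHeartbeats 0 in
theorem c_6_5 :
    ewR 13 78 DP (List.replicate (coxLabel Fi22.edges (gen 6) (gen 5)) [6, 5]).flatten = idL 78 := by
  decide +kernel

set_option maxHeartbeats 0 in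
theorem c_6_6 :
    ewR 13 78 DP (List.replicate (coxLabel Fi22.edges (gen 6) (gen 6)) [6, 6]).flatten = idL 78 := by
  decide +kernel

set_option maxHeartbeats 0 in
theorem c_6_7 :
    ewR 13 78 DP (List.replicate (coxLabel Fi22.edges (gen 6) (gen 7)) [6, 7]).flatten = idL 78 := by
  decide +kernel

set_option maxHeartbeats 0 in
theorem c_6_8 :
    ewR 13 78 DP (List.replicate (coxLabel Fi22.edges (gen 6) (gen 8)) [6, 8]).flatten = idL 78 := by
  decide +kernel

set_option maxHeartbeats 0 in
theorem c_7_0 :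
    ewR 13 78 DP (List.replicate (coxLabel Fi22.edges (gen 7) (gen 0)) [7, 0]).flatten = idL 78 := by
  decide +kernel

set_option maxHeartbeats 0 in
theorem c_7_1 :
    ewR 13 78 DP (List.replicate (coxLabel Fi22.edges (gen 7) (gen 1)) [7, 1]).flatten = idL 78 := by
  decide +kernel

set_option maxHeartbeats 0 in
theorem c_7_2 :
    ewR 13 78 DP (List.replicate (coxLabel Fi22.edges (gen 7) (gen 2)) [7, 2]).flatten = idL 78 := by
  decide +kernel

set_option maxHeartbeats 0 in
theorem c_7_3 :
    ewR 13 78 DP (List.replicate (coxLabel Fi22.edges (gen 7) (gen 3)) [7, 3]).flatten = idL 78 := by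
  decide +kernel

set_option maxHeartbeats 0 in
theorem c_7_4 :
    ewR 13 78 DP (List.replicate (coxLabel Fi22.edges (gen 7) (gen 4)) [7, 4]).flatten = idL 78 := by
  decide +kernel

set_option maxHeartbeats 0 in
theorem c_7_5 :
    ewR 13 78 DP (List.replicate (coxLabel Fi22.edges (gen 7) (gen 5)) [7, 5]).flatten = idL 78 := by
  decide +kernel

set_option maxHeartbeats 0 in
theorem c_7_6 :
    ewR 13 78 DP (List.replicate (coxLabel Fi22.edges (gen 7) (gen 6)) [7, 6]).flatten = idL 78 := by
  decide +kernel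

set_option maxHeartbeats 0 in
theorem c_7_7 :
    ewR 13 78 DP (List.replicate (coxLabel Fi22.edges (gen 7) (gen 7)) [7, 7]).flatten = idL 78 := by
  decide +kernel

set_option maxHeartbeats 0 in
theorem c_7_8 :
    ewR 13 78 DP (List.replicate (coxLabel Fi22.edges (gen 7) (gen 8)) [7, 8]).flatten = idL 78 := by
  decide +kernel

set_option maxHeartbeats 0 in
theorem c_8_0 :
    ewR 13 78 DP (List.replicate (coxLabel Fi22.edges (gen 8) (gen 0)) [8, 0]).flatten = idL 78 := by
  decide +kernel

set_option maxHeartbeats 0 in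
theorem c_8_1 :
    ewR 13 78 DP (List.replicate (coxLabel Fi22.edges (gen 8) (gen 1)) [8, 1]).flatten = idL 78 := by
  decide +kernel

set_option maxHeartbeats 0 in
theorem c_8_2 :
    ewR 13 78 DP (List.replicate (coxLabel Fi22.edges (gen 8) (gen 2)) [8, 2]).flatten = idL 78 := by
  decide +kernel

set_option maxHeartbeats 0 in
theorem c_8_3 :
    ewR 13 78 DP (List.replicate (coxLabel Fi22.edges (gen 8) (gen 3)) [8, 3]).flatten = idL 78 := by
  decide +kernel

set_option maxHeartbeats 0 in
theorem c_8_4 :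
    ewR 13 78 DP (List.replicate (coxLabel Fi22.edges (gen 8) (gen 4)) [8, 4]).flatten = idL 78 := by
  decide +kernel

set_option maxHeartbeats 0 in
theorem c_8_5 :
    ewR 13 78 DP (List.replicate (coxLabel Fi22.edges (gen 8) (gen 5)) [8, 5]).flatten = idL 78 := by
  decide +kernel

set_option maxHeartbeats 0 in
theorem c_8_6 :
    ewR 13 78 DP (List.replicate (coxLabel Fi22.edges (gen 8) (gen 6)) [8, 6]).flatten = idL 78 := by
  decide +kernel

set_option maxHeartbeats 0 in
theorem c_8_7 :
    ewR 13 78 DP (List.replicate (coxLabel Fi22.edges (gen 8) (gen 7)) [8, 7]).flatten = idL 78 := by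
  decide +kernel

set_option maxHeartbeats 0 in
theorem c_8_8 :
    ewR 13 78 DP (List.replicate (coxLabel Fi22.edges (gen 8) (gen 8)) [8, 8]).flatten = idL 78 := by
  decide +kernel


theorem chkCox : ∀ i < 9, ∀ j < 9,
    ewR 13 78 DP (List.replicate (coxLabel Fi22.edges (gen i) (gen j)) [i, j]).flatten = idL 78 := by
  intro i hi j hj
  interval_cases i <;> interval_cases j
  · exact c_0_0
  · exact c_0_1
  · exact c_0_2
  · exact c_0_3
  · exact c_0_4
  · exact c_0_5
  · exact c_0_6
  · exact c_0_7
  · exact c_0_8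
  · exact c_1_0
  · exact c_1_1
  · exact c_1_2
  · exact c_1_3
  · exact c_1_4
  · exact c_1_5
  · exact c_1_6
  · exact c_1_7
  · exact c_1_8
  · exact c_2_0
  · exact c_2_1
  · exact c_2_2
  · exact c_2_3
  · exact c_2_4
  · exact c_2_5
  · exact c_2_6
  · exact c_2_7
  · exact c_2_8
  · exact c_3_0
  · exact c_3_1
  · exact c_3_2
  · exact c_3_3
  · exact c_3_4
  · exact c_3_5
  · exact c_3_6
  · exact c_3_7
  · exact c_3_8
  · exact c_4_0
  · exact c_4_1
  · exact c_4_2
  · exact c_4_3
  · exact c_4_4
  · exact c_4_5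
  · exact c_4_6
  · exact c_4_7
  · exact c_4_8
  · exact c_5_0
  · exact c_5_1
  · exact c_5_2
  · exact c_5_3
  · exact c_5_4
  · exact c_5_5
  · exact c_5_6
  · exact c_5_7
  · exact c_5_8
  · exact c_6_0
  · exact c_6_1
  · exact c_6_2
  · exact c_6_3
  · exact c_6_4
  · exact c_6_5
  · exact c_6_6
  · exact c_6_7
  · exact c_6_8
  · exact c_7_0
  · exact c_7_1
  · exact c_7_2
  · exact c_7_3
  · exact c_7_4
  · exact c_7_5
  · exact c_7_6
  · exact c_7_7
  · exact c_7_8
  · exact c_8_0
  · exact c_8_1
  · exact c_8_2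
  · exact c_8_3
  · exact c_8_4
  · exact c_8_5
  · exact c_8_6
  · exact c_8_7
  · exact c_8_8

theorem chkSq (l : ℕ) (hl : l < 9) : ewR 13 78 DP [l, l] = idL 78 := by
  have h := chkCox l hl l hl
  have h1 : coxLabel Fi22.edges (gen l) (gen l) = 1 := by
    unfold coxLabel
    rw [if_pos rfl]
  rw [h1] at h
  exact h

theorem sqM (l : ℕ) (hl : l < 9) : T l * T l = 1 := by
  have := relM [l, l] (chkSq l hl)
  simpa using this

/-- the generators in `GL(78, 13)` -/
noncomputable def UG (l : ℕ) : GL (Fin 78) (ZMod 13) :=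
  if h : l < 9 then ⟨T l, T l, sqM l h, sqM l h⟩ else 1

theorem val_UG (l : ℕ) (hl : l < 9) :
    ((UG l : GL (Fin 78) (ZMod 13)) : Matrix (Fin 78) (Fin 78) (ZMod 13)) = T l := by
  unfold UG
  rw [dif_pos hl]

theorem val_prod (w : List ℕ) (hw : ∀ l ∈ w, l < 9) :
    (((w.map UG).prod : GL (Fin 78) (ZMod 13)) : Matrix (Fin 78) (Fin 78) (ZMod 13)) =
      (w.map T).prod := by
  induction w with
  | nil => rfl
  | cons a t ih =>
    rw [List.map_cons, List.prod_cons, Units.val_mul, List.map_cons, List.prod_cons,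
      val_UG a (hw a (by simp)), ih (fun l hl => hw l (by simp [hl]))]

theorem relG (w : List ℕ) (hw : ∀ l ∈ w, l < 9) (h : ewR 13 78 DP w = idL 78) :
    (w.map UG).prod = 1 := by
  apply Units.ext
  rw [val_prod w hw, relM w h]
  rfl

theorem prod_rep {M : Type*} [Monoid M] (g : ℕ → M) (u : List ℕ) (m : ℕ) :
    ((List.replicate m u).flatten.map g).prod = ((u.map g).prod) ^ m := by
  induction m with
  | zero => simp
  | succ m ih =>
    rw [List.replicate_succ, List.flatten_cons, List.map_append, List.prod_append, ih, pow_succ']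

theorem lt_rep (u : List ℕ) (m : ℕ) (hu : ∀ l ∈ u, l < 9) :
    ∀ l ∈ (List.replicate m u).flatten, l < 9 := by
  intro l hl
  obtain ⟨v, hv, hlv⟩ := List.mem_flatten.mp hl
  rw [List.eq_of_mem_replicate hv] at hlv
  exact hu l hlv

/-! ### The further relators: `(u.map T).prod ^ m = 1` -/

/-- the word of the first further relator is `u1 ^ 10` -/
def u1 : List ℕ := [3, 2, 1, 3, 4, 5, 3, 7, 8]

/-- the word of the second further relator is `u2 ^ 9` -/
def u2 : List ℕ := [0, 1, 2, 3, 4, 5, 7]

/-- the word of the third further relator is `u3 ^ 9` -/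
def u3 : List ℕ := [1, 2, 3, 4, 5, 6, 7]

/-- the check of a power: the matrix of the word `u` to the power `m` is the identity -/
def chkPow (u : List ℕ) (m : ℕ) : Prop :=
  wf 78 (ewR 13 78 DP u) = true ∧ bd (13 - 1) (ewR 13 78 DP u) = true ∧
    ewR 13 78 (fun _ => (ewR 13 78 DP u).map pack) (List.replicate m 0) = idL 78

theorem powM (u : List ℕ) (m : ℕ) (h : chkPow u m) : ((u.map T).prod) ^ m = 1 := by
  obtain ⟨h1, h2, h3⟩ := h
  have h4 := toMat_ewR 13 78 (by norm_num) (by norm_num) (fun _ => ewR 13 78 DP u)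
    (fun _ => (ewR 13 78 DP u).map pack) (fun _ => h1) (fun _ => h2) (fun _ => rfl)
    (List.replicate m 0)
  rw [h3, toMat_idL, List.map_replicate, List.prod_replicate, toMat_word] at h4
  exact h4.symm

theorem powG (u : List ℕ) (m : ℕ) (hu : ∀ l ∈ u, l < 9) (h : chkPow u m) :
    ((u.map UG).prod) ^ m = 1 := by
  apply Units.ext
  rw [Units.val_pow_eq_pow_val, val_prod u hu, powM u m h]
  rfl

set_option maxHeartbeats 0 in
theorem chk1a : wf 78 (ewR 13 78 DP u1) = true := by decide +kernel

set_option maxHeartbeats 0 in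
theorem chk1b : bd (13 - 1) (ewR 13 78 DP u1) = true := by decide +kernel

set_option maxHeartbeats 0 in
theorem chk1c : ewR 13 78 (fun _ => (ewR 13 78 DP u1).map pack) (List.replicate 10 0) = idL 78 := by
  decide +kernel

set_option maxHeartbeats 0 in
theorem chk2a : wf 78 (ewR 13 78 DP u2) = true := by decide +kernel

set_option maxHeartbeats 0 in
theorem chk2b : bd (13 - 1) (ewR 13 78 DP u2) = true := by decide +kernel

set_option maxHeartbeats 0 in
theorem chk2c : ewR 13 78 (fun _ => (ewR 13 78 DP u2).map pack) (List.replicate 9 0) = idL 78 := by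
  decide +kernel

set_option maxHeartbeats 0 in
theorem chk3a : wf 78 (ewR 13 78 DP u3) = true := by decide +kernel

set_option maxHeartbeats 0 in
theorem chk3b : bd (13 - 1) (ewR 13 78 DP u3) = true := by decide +kernel

set_option maxHeartbeats 0 in
theorem chk3c : ewR 13 78 (fun _ => (ewR 13 78 DP u3).map pack) (List.replicate 9 0) = idL 78 := by
  decide +kernel

/-- the images of the generators -/
noncomputable def fG (x : Fi22.Gen) : GL (Fin 78) (ZMod 13) := UG (gi x)

theorem hrel : ∀ r ∈ coxRelators Fi22.edges ∪ {r | r ∈ Fi22.extra}, FreeGroup.lift fG r = 1 := by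
  rintro r (⟨x, _, y, _, rfl⟩ | hr)
  · rw [map_pow, map_mul, FreeGroup.lift_apply_of, FreeGroup.lift_apply_of]
    have h := relG _ (lt_rep [gi x, gi y] (coxLabel Fi22.edges (gen (gi x)) (gen (gi y)))
      (by
        intro l hl
        simp only [List.mem_cons, List.not_mem_nil, or_false] at hl
        rcases hl with rfl | rfl
        · exact gi_lt x
        · exact gi_lt y))
      (chkCox (gi x) (gi_lt x) (gi y) (gi_lt y))
    rw [prod_rep, gen_gi, gen_gi] at h
    simpa [fG] using h
  · have hr' : r ∈ Fi22.extra := hr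
    simp only [Fi22.extra, List.mem_cons, List.not_mem_nil, or_false] at hr'
    rcases hr' with rfl | rfl | rfl
    · have h := powG u1 10 (by decide) ⟨chk1a, chk1b, chk1c⟩
      simp only [map_pow, map_mul, FreeGroup.lift_apply_of]
      simpa [fG, gi, u1, mul_assoc] using h
    · have h := powG u2 9 (by decide) ⟨chk2a, chk2b, chk2c⟩
      simp only [map_pow, map_mul, FreeGroup.lift_apply_of]
      simpa [fG, gi, u2, mul_assoc] using h
    · have h := powG u3 9 (by decide) ⟨chk3a, chk3b, chk3c⟩
      simp only [map_pow, map_mul, FreeGroup.lift_apply_of]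
      simpa [fG, gi, u3, mul_assoc] using h

/-- the homomorphism -/
noncomputable def φ : Fi22 →* GL (Fin 78) (ZMod 13) := PresentedGroup.toGroup hrel

theorem φ_of (x : Fi22.Gen) : φ (PresentedGroup.of x) = fG x := PresentedGroup.toGroup.of hrel

theorem ent00 : ent (D 0) 0 0 = 11 := by decide +kernel

theorem φ_ne : φ (PresentedGroup.of Fi22.Gen.a) ≠ 1 := by
  rw [φ_of]
  intro h
  have h1 : T 0 = 1 := by
    have := congrArg (fun u : GL (Fin 78) (ZMod 13) => (u : Matrix (Fin 78) (Fin 78) (ZMod 13))) h
    simpa [fG, gi, val_UG 0 (by norm_num)] using this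
  have h2 := congrFun (congrFun h1 ⟨0, by norm_num⟩) ⟨0, by norm_num⟩
  unfold T toMat at h2
  simp only [ent00, Matrix.one_apply_eq] at h2
  revert h2
  decide

theorem φ_injective (hs : IsSimpleGroup Fi22) : Function.Injective φ := by
  rw [← MonoidHom.ker_eq_bot_iff]
  rcases hs.eq_bot_or_eq_top_of_normal φ.ker inferInstance with h | h
  · exact h
  · exfalso
    apply φ_ne
    rw [← MonoidHom.mem_ker, h]
    exact Subgroup.mem_top _

end Cfsg.Agent.Lib.Helper19.Fi22M
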