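import Cfsg.Agent.Lib.Helper19.J1A.Cert
import Cfsg.Agent.Lib.Helper19.J1Data

/-!
# The group `J1` from the presentation on its standard generators

`x² = y³ = (xy)⁷ = (xy(xyxy⁻¹)³)⁵ = (xy(xyxy⁻¹)⁶xyxy(xy⁻¹)²)² = 1` (letters `0 = x`, `1 = y`,
`2 = y⁻¹`).
* `J1A.T`: coset enumeration over `⟨xy⟩`, index 25080, so the presented group `PG TA` has at most
  `175560` elements;
* `J1B.T`: the permutation representation on the 266 cosets of a subgroup `L₂(11)`; the group `M`
  it generates has at least `175560` elements (stabiliser chain `266 · 132 · 5`), is primitive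
  (suborbits `1, 132, 110, 12, 11`) and simple;
* `models`: every nontrivial quotient of `PG TA` is simple of order `175560`.
-/

set_option autoImplicit false

namespace Cfsg.Agent.Lib.Helper19.J1M

open Cfsg.Agent.Lib.Helper56.TC Cfsg.Agent.Lib.Helper56.TC.Tabs
open Cfsg.Agent.Lib.Helper19.Cox (L L_mono mem_L)
open Cfsg.Agent.Lib.Helper19.TCO Cfsg.Agent.Lib.Helper19.PM
open Equiv MulAction

/-- the table of the coset enumeration over `⟨xy⟩` -/
noncomputable abbrev TA : Tabs := Cfsg.Agent.Lib.Helper19.J1A.T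

/-- the table of the permutation representation on 266 points -/
noncomputable abbrev TB : Tabs := Cfsg.Agent.Lib.Helper19.J1B.T

theorem hP : TB.P1 := Cfsg.Agent.Lib.Helper19.J1B.cert.p1

theorem hO : ∀ v < TB.N, TB.chkO v = true := fun v hv => by
  have h := Cfsg.Agent.Lib.Helper19.J1B.cert.hV v hv
  unfold chkV at h
  simp only [Bool.and_eq_true] at h
  exact h.2.2

theorem N_eq : TB.N = 266 := rfl

theorem K_eq : TB.K = 3 := rfl

theorem rels_eq : TA.rels1 = TB.rels1 := rfl

/-- the generators: `σ 0 = x`, `σ 1 = y`, `σ 2 = y⁻¹` -/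
noncomputable def σ (l : ℕ) : Perm (Fin TB.N) := sigma hP l

/-- the model of `J1` on 266 points -/
noncomputable def M : Subgroup (Perm (Fin TB.N)) := L σ 3

theorem σ_mem (l : ℕ) : σ l ∈ M := by
  by_cases hl : l < 3
  · exact mem_L σ hl
  · have : σ l = 1 := sigma_of_ge hP l (by rw [K_eq]; omega)
    rw [this]
    exact one_mem _

/-! ### The order -/

theorem card_ge : 175560 ≤ Nat.card M := by
  have h0 := chain_step hP [] R0 0 (by decide +kernel) ((allLt_iff _ _).mp R0_ok) R0_hg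
  have e0 : R0.m = 266 := rfl
  rw [e0] at h0
  have h1 := chain_step hP [0] R1 1 (by decide +kernel) ((allLt_iff _ _).mp R1_ok) R1_hg
  have e1 : R1.m = 132 := rfl
  rw [e1] at h1
  have h2 := chain_step hP [1, 0] R2 2 (by decide +kernel) ((allLt_iff _ _).mp R2_ok) R2_hg
  have e2 : R2.m = 5 := rfl
  rw [e2] at h2
  have hlast : 0 < Nat.card (stabs hP [2, 1, 0]) := Nat.card_pos
  have hfirst : Nat.card (stabs hP []) = Nat.card M := rfl
  rw [← hfirst]
  omega

theorem card_PG : Finite (PG TA) ∧ Nat.card (PG TA) ≤ 175560 :=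
  card_le TA Cfsg.Agent.Lib.Helper19.J1A.certU [0, 1] rfl 7 (by norm_num) (by decide +kernel)

theorem hom_ex : ∃ φ : PG TA →* Perm (Fin TB.N), (∀ l < 3, φ (pg TA l) = σ l) ∧ φ.range = M := by
  obtain ⟨hN, hNN, hinvK, hrelK, hsubK⟩ := Cfsg.Agent.Lib.Helper19.J1A.certU.parts
  obtain ⟨φ, h1, h2⟩ := lift_ex TA hrelK hinvK σ
    (by
      intro l hl
      have h := sigma_inv hP l hl
      show sigma hP l * sigma hP (TB.inv l) = 1
      rw [h]
      exact mul_inv_cancel _)
    (by
      intro w hw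
      rw [rels_eq] at hw
      exact sigma_rel hP w hw)
  refine ⟨φ, h1, ?_⟩
  rw [h2]
  unfold M L
  congr 1
  ext y
  constructor
  · rintro ⟨l, hl, rfl⟩
    exact ⟨l, hl, rfl⟩
  · rintro ⟨l, hl, rfl⟩
    exact ⟨l, hl, rfl⟩

theorem card_M : Nat.card M = 175560 := by
  apply le_antisymm _ card_ge
  obtain ⟨φ, -, h2⟩ := hom_ex
  have hfin := card_PG.1
  rw [← h2]
  exact le_trans (Nat.card_le_card_of_surjective _ φ.rangeRestrict_surjective) card_PG.2

/-! ### Primitivity -/

theorem ol_lt : ∀ v < TB.N, TB.ol v < 5 := fun v hv =>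
  blt_true ((allLt_iff (fun v => Nat.blt (TB.ol v) 5) 266).mp (by decide +kernel) v hv)

instance prim : IsPreprimitive M (Fin TB.N) := by
  apply prim_of_labels hP hO 5 (by norm_num) ol_lt (by decide +kernel) rfl (by decide +kernel)
    (![1, 132, 110, 12, 11] : Fin 5 → ℕ) ?_ (fun S => S = {0, 1}) ?_ ?_
  · intro t
    fin_cases t
    · exact Cfsg.Agent.Lib.Helper19.J1B.cnt_0
    · exact Cfsg.Agent.Lib.Helper19.J1B.cnt_1
    · exact Cfsg.Agent.Lib.Helper19.J1B.cnt_2
    · exact Cfsg.Agent.Lib.Helper19.J1B.cnt_3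
    · exact Cfsg.Agent.Lib.Helper19.J1B.cnt_4
  · rintro S rfl
    refine ⟨[1], by decide, 3, by decide +kernel, ⟨1, by decide, by decide +kernel⟩,
      ⟨1, by decide, by decide +kernel⟩, ?_⟩
    have e : TB.ol (TB.followT [1] 3) = 2 := by decide +kernel
    rw [e]
    decide
  · show ∀ S : Finset (Fin 5), (0 : Fin 5) ∈ S →
      (∑ t ∈ S, (![1, 132, 110, 12, 11] : Fin 5 → ℕ) t) ∣ 266 →
        S = {0} ∨ S = Finset.univ ∨ S = {0, 1}
    decide

/-! ### Simplicity -/

/-- the generators as elements of `M` -/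
noncomputable def S (l : ℕ) : M := ⟨σ l, σ_mem l⟩

theorem S_sq : S 0 * S 0 = 1 := by
  apply Subtype.ext
  have h := sigma_inv hP 0 (by decide +kernel)
  have hinv : TB.inv 0 = 0 := rfl
  rw [hinv] at h
  show sigma hP 0 * sigma hP 0 = 1
  nth_rewrite 1 [h]
  exact inv_mul_cancel _

theorem S_cube : S 1 * S 1 * S 1 = 1 := by
  apply Subtype.ext
  have h : ew σ [1, 1, 1] = 1 := sigma_rel hP [1, 1, 1] (by decide +kernel)
  show σ 1 * σ 1 * σ 1 = 1
  simpa [ew, mul_assoc] using h

theorem S_seven : (S 0 * S 1) ^ 7 = 1 := by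
  apply Subtype.ext
  have h : ew σ [0, 1, 0, 1, 0, 1, 0, 1, 0, 1, 0, 1, 0, 1] = 1 :=
    sigma_rel hP [0, 1, 0, 1, 0, 1, 0, 1, 0, 1, 0, 1, 0, 1] (by decide +kernel)
  rw [Subgroup.coe_pow, Subgroup.coe_mul, Subgroup.coe_one]
  show (σ 0 * σ 1) ^ 7 = 1
  simpa [ew, pow_succ, mul_assoc] using h

theorem S_two : S 1 * S 2 = 1 := by
  apply Subtype.ext
  have h := sigma_inv hP 1 (by decide +kernel)
  have hinv : TB.inv 1 = 2 := rfl
  rw [hinv] at h
  show sigma hP 1 * sigma hP 2 = 1
  rw [h]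
  exact mul_inv_cancel _

theorem ncl : ∀ N : Subgroup M, N.Normal → (∀ x : M, x ^ 7 = 1 → x ∈ N) → N = ⊤ := by
  intro N hN h7
  let q : M →* M ⧸ N := QuotientGroup.mk' N
  have hq : ∀ x : M, q x = 1 → x ∈ N := fun x hx => (QuotientGroup.eq_one_iff x).mp hx
  have h01 : q (S 0) * q (S 1) = 1 := by
    rw [← map_mul]
    exact (QuotientGroup.eq_one_iff _).mpr (h7 _ S_seven)
  have h00 : q (S 0) * q (S 0) = 1 := by rw [← map_mul, S_sq, map_one]
  have h111 : q (S 1) * q (S 1) * q (S 1) = 1 := by rw [← map_mul, ← map_mul, S_cube, map_one]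
  have h12 : q (S 1) * q (S 2) = 1 := by rw [← map_mul, S_two, map_one]
  have e1 : q (S 1) = q (S 0) := mul_left_cancel (h01.trans h00.symm)
  rw [e1] at h111 h12
  have k0 : q (S 0) = 1 := by
    rw [h00, one_mul] at h111
    exact h111
  have k1 : q (S 1) = 1 := e1.trans k0
  have k2 : q (S 2) = 1 := by
    rw [k0, one_mul] at h12
    exact h12
  apply top_of_gens σ 3 N
  intro l hl
  interval_cases l
  · exact hq (S 0) k0
  · exact hq (S 1) k1
  · exact hq (S 2) k2

theorem simple_M : IsSimpleGroup M := by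
  apply simple_of_primitive_pow M 7 1 (by norm_num)
  · rw [Nat.card_eq_fintype_card, Fintype.card_fin]
    show 7 ^ 1 ∣ 266
    norm_num
  · rw [card_M]; norm_num
  · exact ncl
  · rw [← Finite.one_lt_card_iff_nontrivial, card_M]
    norm_num

/-- Every nontrivial quotient of the presented group is simple of order `175560`. -/
theorem models {K : Type*} [Group K] (g : PG TA →* K) (hg : Function.Surjective g)
    (hK : Nontrivial K) : IsSimpleGroup K ∧ Nat.card K = 175560 := by
  obtain ⟨φ, -, h2⟩ := hom_ex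
  have hfin := card_PG.1
  have hmem : ∀ x, φ x ∈ M := fun x => by rw [← h2]; exact ⟨x, rfl⟩
  have hf : Function.Surjective (φ.codRestrict M hmem) := by
    rintro ⟨y, hy⟩
    rw [← h2] at hy
    obtain ⟨x, rfl⟩ := hy
    exact ⟨x, rfl⟩
  exact simple_card_of_models 175560 card_PG.2 (φ.codRestrict M hmem) hf card_ge simple_M g hg hK

end Cfsg.Agent.Lib.Helper19.J1M
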