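import Cfsg.Agent.Lib.Helper19.L37U1
import Cfsg.Agent.Lib.Helper19.L37U2
import Cfsg.Agent.Lib.Helper19.L37U3
import Cfsg.Agent.Lib.Helper19.L37U4
import Cfsg.Agent.Lib.Helper19.L37U5
import Cfsg.Agent.Lib.Helper19.L37Data

/-!
# The group `L₃(7)` from a presentation on five involutions

The presentation is the one of the even subgroup of `⟨a, …, f⟩ = L₃(7):2` (the subgroup of the
presented O'Nan group), on the involutions `u₁ = ae`, `u₂ = be`, `u₃ = ce`, `u₄ = af`,
`u₅ = ad` (letters `0, …, 4`), obtained from the Coxeter relations and `af = (cd)⁴`.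
* `L37U1.T, …, L37U5.T`: coset enumerations along the chain `⟨u₁⟩ < ⟨u₁, u₂⟩ < …` (indices
  `2, 3, 4, 3, 26068`), so the presented group `PG TA` has at most `1876896` elements;
* `L37B.T`: the permutation representation on 57 points; the group `M` it generates has at least
  `1876896` elements (stabiliser chain `57 · 56 · 49 · 12`), is primitive and simple;
* `models`: every nontrivial quotient of `PG TA` is simple of order `1876896`.
-/

set_option autoImplicit false

namespace Cfsg.Agent.Lib.Helper19.L37M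

open Cfsg.Agent.Lib.Helper56.TC Cfsg.Agent.Lib.Helper56.TC.Tabs
open Cfsg.Agent.Lib.Helper19.Cox (L L_mono mem_L L_zero)
open Cfsg.Agent.Lib.Helper19.TCO Cfsg.Agent.Lib.Helper19.PM
open Cfsg.Agent.Lib.Helper19.TCU (tc_step_upper)
open Equiv MulAction

/-- the table of the last step of the chain: five letters, all the relators -/
noncomputable abbrev TA : Tabs := Cfsg.Agent.Lib.Helper19.L37U5.T

/-- the table of the permutation representation on 57 points -/
noncomputable abbrev TB : Tabs := Cfsg.Agent.Lib.Helper19.L37B.T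

theorem hP : TB.P1 := Cfsg.Agent.Lib.Helper19.L37B.cert.p1

theorem hO : ∀ v < TB.N, TB.chkO v = true := fun v hv => by
  have h := Cfsg.Agent.Lib.Helper19.L37B.cert.hV v hv
  unfold chkV at h
  simp only [Bool.and_eq_true] at h
  exact h.2.2

theorem N_eq : TB.N = 57 := rfl

theorem K_eq : TB.K = 5 := rfl

theorem rels_eq : TA.rels1 = TB.rels1 := rfl

theorem invB : ∀ l < TB.K, TB.inv l = l := by
  intro l hl
  have hl' : l < 5 := hl
  interval_cases l <;> rfl

/-- the generators `σ 0, …, σ 4` -/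
noncomputable def σ (l : ℕ) : Perm (Fin TB.N) := sigma hP l

/-- the model of `L₃(7)` on 57 points -/
noncomputable def M : Subgroup (Perm (Fin TB.N)) := L σ 5

theorem σ_mem (l : ℕ) : σ l ∈ M := by
  by_cases hl : l < 5
  · exact mem_L σ hl
  · have : σ l = 1 := sigma_of_ge hP l (by rw [K_eq]; omega)
    rw [this]
    exact one_mem _

/-! ### The order -/

theorem card_ge : 1876896 ≤ Nat.card M := by
  have h0 := chain_step hP [] R0 0 (by decide +kernel) ((allLt_iff _ _).mp R0_ok) R0_hg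
  have e0 : R0.m = 57 := rfl
  rw [e0] at h0
  have h1 := chain_step hP [0] R1 1 (by decide +kernel) ((allLt_iff _ _).mp R1_ok) R1_hg
  have e1 : R1.m = 56 := rfl
  rw [e1] at h1
  have h2 := chain_step hP [1, 0] R2 2 (by decide +kernel) ((allLt_iff _ _).mp R2_ok) R2_hg
  have e2 : R2.m = 49 := rfl
  rw [e2] at h2
  have h3 := chain_step hP [2, 1, 0] R3 3 (by decide +kernel) ((allLt_iff _ _).mp R3_ok) R3_hg
  have e3 : R3.m = 12 := rfl
  rw [e3] at h3
  have hlast : 0 < Nat.card (stabs hP [3, 2, 1, 0]) := Nat.card_pos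
  have hfirst : Nat.card (stabs hP []) = Nat.card M := rfl
  rw [← hfirst]
  omega

theorem pg_sq (i : ℕ) : pg TA i * pg TA i = 1 := by
  by_cases hi : i < 5
  · have h : pg TA i = (pg TA i)⁻¹ := pg_inv TA i hi
    nth_rewrite 1 [h]
    exact inv_mul_cancel _
  · have h1 : pg TA i = 1 := by
      unfold pg fg
      rw [dif_neg (show ¬ i < TA.K from hi)]
      exact map_one _
    rw [h1, one_mul]

theorem subU1 : ∀ w ∈ Cfsg.Agent.Lib.Helper19.L37U1.T.rels1, w ∈ TA.rels1 := by decide +kernel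
theorem subU2 : ∀ w ∈ Cfsg.Agent.Lib.Helper19.L37U2.T.rels1, w ∈ TA.rels1 := by decide +kernel
theorem subU3 : ∀ w ∈ Cfsg.Agent.Lib.Helper19.L37U3.T.rels1, w ∈ TA.rels1 := by decide +kernel
theorem subU4 : ∀ w ∈ Cfsg.Agent.Lib.Helper19.L37U4.T.rels1, w ∈ TA.rels1 := by decide +kernel

theorem upper : Finite (L (pg TA) 5) ∧ Nat.card (L (pg TA) 5) ≤ 1876896 := by
  have : Finite (L (pg TA) 0) := by rw [L_zero]; infer_instance
  have h0 : Nat.card (L (pg TA) 0) = 1 := by rw [L_zero]; exact Subgroup.card_bot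
  obtain ⟨f1, h1⟩ : Finite (L (pg TA) 1) ∧
      Nat.card (L (pg TA) 1) ≤ Cfsg.Agent.Lib.Helper19.L37U1.T.N * Nat.card (L (pg TA) 0) :=
    tc_step_upper (pg TA) Cfsg.Agent.Lib.Helper19.L37U1.T 0 Cfsg.Agent.Lib.Helper19.L37U1.checked
      pg_sq (fun w hw => pg_rel TA w (subU1 w hw))
  have := f1
  obtain ⟨f2, h2⟩ : Finite (L (pg TA) 2) ∧
      Nat.card (L (pg TA) 2) ≤ Cfsg.Agent.Lib.Helper19.L37U2.T.N * Nat.card (L (pg TA) 1) :=
    tc_step_upper (pg TA) Cfsg.Agent.Lib.Helper19.L37U2.T 1 Cfsg.Agent.Lib.Helper19.L37U2.checked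
      pg_sq (fun w hw => pg_rel TA w (subU2 w hw))
  have := f2
  obtain ⟨f3, h3⟩ : Finite (L (pg TA) 3) ∧
      Nat.card (L (pg TA) 3) ≤ Cfsg.Agent.Lib.Helper19.L37U3.T.N * Nat.card (L (pg TA) 2) :=
    tc_step_upper (pg TA) Cfsg.Agent.Lib.Helper19.L37U3.T 2 Cfsg.Agent.Lib.Helper19.L37U3.checked
      pg_sq (fun w hw => pg_rel TA w (subU3 w hw))
  have := f3
  obtain ⟨f4, h4⟩ : Finite (L (pg TA) 4) ∧
      Nat.card (L (pg TA) 4) ≤ Cfsg.Agent.Lib.Helper19.L37U4.T.N * Nat.card (L (pg TA) 3) :=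
    tc_step_upper (pg TA) Cfsg.Agent.Lib.Helper19.L37U4.T 3 Cfsg.Agent.Lib.Helper19.L37U4.checked
      pg_sq (fun w hw => pg_rel TA w (subU4 w hw))
  have := f4
  obtain ⟨f5, h5⟩ : Finite (L (pg TA) 5) ∧
      Nat.card (L (pg TA) 5) ≤ TA.N * Nat.card (L (pg TA) 4) :=
    tc_step_upper (pg TA) TA 4 Cfsg.Agent.Lib.Helper19.L37U5.checked pg_sq (pg_rel TA)
  have e1 : Cfsg.Agent.Lib.Helper19.L37U1.T.N = 2 := rfl
  have e2 : Cfsg.Agent.Lib.Helper19.L37U2.T.N = 3 := rfl
  have e3 : Cfsg.Agent.Lib.Helper19.L37U3.T.N = 4 := rfl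
  have e4 : Cfsg.Agent.Lib.Helper19.L37U4.T.N = 3 := rfl
  have e5 : TA.N = 26068 := rfl
  rw [e1, h0] at h1
  rw [e2] at h2
  rw [e3] at h3
  rw [e4] at h4
  rw [e5] at h5
  exact ⟨f5, by omega⟩

theorem L_top : L (pg TA) 5 = ⊤ := by
  rw [← pg_gen TA]
  unfold L
  congr 1
  ext y
  constructor
  · rintro ⟨l, hl, rfl⟩
    exact ⟨l, hl, rfl⟩
  · rintro ⟨l, hl, rfl⟩
    exact ⟨l, hl, rfl⟩

theorem card_PG : Finite (PG TA) ∧ Nat.card (PG TA) ≤ 1876896 := by
  obtain ⟨hf, hc⟩ := upper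
  rw [L_top] at hf hc
  have e : (⊤ : Subgroup (PG TA)) ≃* PG TA := Subgroup.topEquiv
  exact ⟨Finite.of_equiv _ e.toEquiv, by rw [← Nat.card_congr e.toEquiv]; exact hc⟩

theorem hom_ex : ∃ φ : PG TA →* Perm (Fin TB.N), (∀ l < 5, φ (pg TA l) = σ l) ∧ φ.range = M := by
  obtain ⟨φ, h1, h2⟩ := lift_ex TA Cfsg.Agent.Lib.Helper19.L37U5.checked.hrelK (fun l hl => hl) σ
    (by
      intro l hl
      exact sigma_sq hP invB l)
    (by
      intro w hw
      rw [rels_eq] at hw
      exact sigma_rel hP w hw)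
  refine ⟨φ, h1, ?_⟩
  rw [h2]
  unfold M L
  congr 1
  ext y
  constructor
  · rintro ⟨l, hl, rfl⟩
    exact ⟨l, hl, rfl⟩
  · rintro ⟨l, hl, rfl⟩
    exact ⟨l, hl, rfl⟩

theorem card_M : Nat.card M = 1876896 := by
  apply le_antisymm _ card_ge
  obtain ⟨φ, -, h2⟩ := hom_ex
  have hfin := card_PG.1
  rw [← h2]
  exact le_trans (Nat.card_le_card_of_surjective _ φ.rangeRestrict_surjective) card_PG.2

/-! ### Primitivity -/

theorem ol_lt : ∀ v < TB.N, TB.ol v < 2 := fun v hv =>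
  blt_true ((allLt_iff (fun v => Nat.blt (TB.ol v) 2) 57).mp (by decide +kernel) v hv)

instance prim : IsPreprimitive M (Fin TB.N) := by
  apply prim_of_labels hP hO 2 (by norm_num) ol_lt (by decide +kernel) rfl (by decide +kernel)
    (![1, 56] : Fin 2 → ℕ) ?_ (fun _ => False) ?_ ?_
  · intro t
    fin_cases t
    · exact Cfsg.Agent.Lib.Helper19.L37B.cnt_0
    · exact Cfsg.Agent.Lib.Helper19.L37B.cnt_1
  · intro S h
    exact h.elim
  · show ∀ S : Finset (Fin 2), (0 : Fin 2) ∈ S →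
      (∑ t ∈ S, (![1, 56] : Fin 2 → ℕ) t) ∣ 57 → S = {0} ∨ S = Finset.univ ∨ False
    decide

/-! ### Simplicity -/

/-- the generators as elements of `M` -/
noncomputable def S (l : ℕ) : M := ⟨σ l, σ_mem l⟩

theorem val_ew_S (w : List ℕ) : ((ew S w : M) : Perm (Fin TB.N)) = ew σ w := by
  induction w with
  | nil => rfl
  | cons a t ih => rw [ew_cons, ew_cons, Subgroup.coe_mul, ih]; rfl

theorem mem_of_pow (N : Subgroup M) (h19 : ∀ x : M, x ^ 19 = 1 → x ∈ N) (w : List ℕ)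
    (hw : ∀ a ∈ w, a < TB.K) (h : ∀ v < TB.N, chkPow TB w 19 v = true) : ew S w ∈ N := by
  apply h19
  apply Subtype.ext
  rw [Subgroup.coe_pow, val_ew_S]
  exact sigma_pow hP w hw 19 h

/-- if `w` and `w * u_i` have order dividing 19, then `u_i` is in `N` -/
theorem gen_mem (N : Subgroup M) (h19 : ∀ x : M, x ^ 19 = 1 → x ∈ N) (i : ℕ) (w : List ℕ)
    (hw : ∀ a ∈ w ++ [i], a < TB.K) (h1 : ∀ v < TB.N, chkPow TB w 19 v = true)
    (h2 : ∀ v < TB.N, chkPow TB (w ++ [i]) 19 v = true) : S i ∈ N := by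
  have a := mem_of_pow N h19 w (fun x hx => hw x (List.mem_append_left _ hx)) h1
  have b := mem_of_pow N h19 (w ++ [i]) hw h2
  rw [ew_append, ew_cons, ew_nil, mul_one] at b
  exact (Subgroup.mul_mem_cancel_left N a).mp b

theorem ncl : ∀ N : Subgroup M, N.Normal → (∀ x : M, x ^ 19 = 1 → x ∈ N) → N = ⊤ := by
  intro N _ h19
  apply top_of_gens σ 5 N
  intro l hl
  interval_cases l
  · exact gen_mem N h19 0 [1, 3, 4, 2, 4, 1, 2, 4] (by decide) ((allLt_iff _ _).mp (by decide +kernel))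
      ((allLt_iff _ _).mp (by decide +kernel))
  · exact gen_mem N h19 1 [2, 3, 1, 4, 2, 4, 2] (by decide) ((allLt_iff _ _).mp (by decide +kernel))
      ((allLt_iff _ _).mp (by decide +kernel))
  · exact gen_mem N h19 2 [1, 0, 4, 2, 4, 1, 3] (by decide) ((allLt_iff _ _).mp (by decide +kernel))
      ((allLt_iff _ _).mp (by decide +kernel))
  · exact gen_mem N h19 3 [0, 4, 2, 1, 3, 4, 2, 4, 1] (by decide) ((allLt_iff _ _).mp (by decide +kernel))
      ((allLt_iff _ _).mp (by decide +kernel))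
  · exact gen_mem N h19 4 [0, 1, 2, 3, 1, 4, 2] (by decide) ((allLt_iff _ _).mp (by decide +kernel))
      ((allLt_iff _ _).mp (by decide +kernel))

theorem simple_M : IsSimpleGroup M := by
  apply simple_of_primitive_pow M 19 1 (by norm_num)
  · rw [Nat.card_eq_fintype_card, Fintype.card_fin]
    show 19 ^ 1 ∣ 57
    norm_num
  · rw [card_M]; norm_num
  · exact ncl
  · rw [← Finite.one_lt_card_iff_nontrivial, card_M]
    norm_num

/-- Every nontrivial quotient of the presented group is simple of order `1876896`. -/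
theorem models {K : Type*} [Group K] (g : PG TA →* K) (hg : Function.Surjective g)
    (hK : Nontrivial K) : IsSimpleGroup K ∧ Nat.card K = 1876896 := by
  obtain ⟨φ, -, h2⟩ := hom_ex
  have hfin := card_PG.1
  have hmem : ∀ x, φ x ∈ M := fun x => by rw [← h2]; exact ⟨x, rfl⟩
  have hf : Function.Surjective (φ.codRestrict M hmem) := by
    rintro ⟨y, hy⟩
    rw [← h2] at hy
    obtain ⟨x, rfl⟩ := hy
    exact ⟨x, rfl⟩
  exact simple_card_of_models 1876896 card_PG.2 (φ.codRestrict M hmem) hf card_ge simple_M g hg hK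

end Cfsg.Agent.Lib.Helper19.L37M
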