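import Mathlib
import Cfsg.Agent.Lib.Helper19.L37Model

/-!
# `PSL(3, 7)` as a quotient of the presented group on five involutions

* `M3`: 3 × 3 matrices with natural number entries, multiplied modulo 7;
* `US l`: the five generators as elements of `SL(3, 7)`;
* `theta_ex`: the homomorphism `PG TA →* PSL(3, 7)`, which is not trivial;
* `card_PSL`: `|PSL(3, 7)| = 1876896`.
-/

set_option autoImplicit false

namespace Cfsg.Agent.Lib.Helper19.L37Mat

open Cfsg.Agent.Lib.Helper56.TC Cfsg.Agent.Lib.Helper56.TC.Tabs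
open Cfsg.Agent.Lib.Helper19.PM

/-- a 3 × 3 matrix with natural number entries -/
structure M3 where
  a : ℕ
  b : ℕ
  c : ℕ
  d : ℕ
  e : ℕ
  f : ℕ
  g : ℕ
  h : ℕ
  i : ℕ
deriving DecidableEq

/-- product modulo 7 -/
def M3.mul (x y : M3) : M3 :=
  ⟨(x.a * y.a + x.b * y.d + x.c * y.g) % 7, (x.a * y.b + x.b * y.e + x.c * y.h) % 7,
    (x.a * y.c + x.b * y.f + x.c * y.i) % 7,
   (x.d * y.a + x.e * y.d + x.f * y.g) % 7, (x.d * y.b + x.e * y.e + x.f * y.h) % 7,
    (x.d * y.c + x.e * y.f + x.f * y.i) % 7,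
   (x.g * y.a + x.h * y.d + x.i * y.g) % 7, (x.g * y.b + x.h * y.e + x.i * y.h) % 7,
    (x.g * y.c + x.h * y.f + x.i * y.i) % 7⟩

/-- the matrix over `ZMod 7` -/
def M3.toMat (x : M3) : Matrix (Fin 3) (Fin 3) (ZMod 7) :=
  !![(x.a : ZMod 7), (x.b : ZMod 7), (x.c : ZMod 7);
     (x.d : ZMod 7), (x.e : ZMod 7), (x.f : ZMod 7);
     (x.g : ZMod 7), (x.h : ZMod 7), (x.i : ZMod 7)]

theorem toMat_mul (x y : M3) : (x.mul y).toMat = x.toMat * y.toMat := by
  ext i j
  fin_cases i <;> fin_cases j <;>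
    simp [M3.mul, M3.toMat, Matrix.mul_apply, Fin.sum_univ_three, ZMod.natCast_mod]

/-- the identity -/
def one3 : M3 := ⟨1, 0, 0, 0, 1, 0, 0, 0, 1⟩

theorem toMat_one3 : one3.toMat = 1 := by
  ext i j
  fin_cases i <;> fin_cases j <;> simp [one3, M3.toMat]

/-- the determinant modulo 7 -/
def detN (x : M3) : ℕ :=
  (x.a * x.e * x.i + 6 * (x.a * x.f * x.h) + 6 * (x.b * x.d * x.i) + x.b * x.f * x.g
    + x.c * x.d * x.h + 6 * (x.c * x.e * x.g)) % 7

theorem det_toMat (x : M3) : x.toMat.det = ((detN x : ℕ) : ZMod 7) := by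
  have h6 : (6 : ZMod 7) = -1 := by decide
  rw [Matrix.det_fin_three]
  simp only [M3.toMat, detN, ZMod.natCast_mod, Matrix.of_apply, Matrix.cons_val', Matrix.cons_val_zero,
    Matrix.cons_val_one, Matrix.cons_val_two, Matrix.empty_val', Matrix.cons_val_fin_one,
    Matrix.head_cons, Matrix.tail_cons, Matrix.head_fin_const]
  push_cast
  rw [h6]
  ring

/-- the five generators -/
def Ud : ℕ → M3
  | 0 => ⟨3, 0, 0, 0, 0, 4, 0, 4, 0⟩
  | 1 => ⟨3, 5, 4, 3, 1, 1, 2, 2, 1⟩
  | 2 => ⟨1, 5, 2, 5, 1, 2, 2, 2, 1⟩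
  | 3 => ⟨6, 6, 4, 6, 6, 3, 4, 3, 0⟩
  | 4 => ⟨0, 1, 0, 1, 0, 0, 0, 0, 6⟩
  | _ => one3

theorem det_Ud : ∀ l, detN (Ud l) = 1
  | 0 => rfl
  | 1 => rfl
  | 2 => rfl
  | 3 => rfl
  | 4 => rfl
  | (_ + 5) => rfl

/-- the generators in `SL(3, 7)` -/
noncomputable def US (l : ℕ) : Matrix.SpecialLinearGroup (Fin 3) (ZMod 7) :=
  ⟨(Ud l).toMat, by rw [det_toMat, det_Ud, Nat.cast_one]⟩

/-- the product of a word of generators -/
def ewM (w : List ℕ) : M3 := w.foldr (fun l acc => (Ud l).mul acc) one3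

theorem val_ew_US (w : List ℕ) :
    ((ew US w : Matrix.SpecialLinearGroup (Fin 3) (ZMod 7)) : Matrix (Fin 3) (Fin 3) (ZMod 7)) =
      (ewM w).toMat := by
  induction w with
  | nil => rw [ew_nil]; exact toMat_one3.symm
  | cons a t ih =>
    rw [ew_cons, Matrix.SpecialLinearGroup.coe_mul, ih]
    show (Ud a).toMat * (ewM t).toMat = ((Ud a).mul (ewM t)).toMat
    rw [toMat_mul]

/-- the matrix is a scalar of order dividing 3 -/
def chkScal (m : M3) : Bool :=
  decide (m.b = 0) && decide (m.c = 0) && decide (m.d = 0) && decide (m.f = 0) &&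
  decide (m.g = 0) && decide (m.h = 0) && decide (m.a = m.e) && decide (m.e = m.i) &&
  decide (m.a ^ 3 % 7 = 1)

theorem mem_center_of_chk (w : List ℕ) (h : chkScal (ewM w) = true) :
    ew US w ∈ Subgroup.center (Matrix.SpecialLinearGroup (Fin 3) (ZMod 7)) := by
  rw [Matrix.SpecialLinearGroup.mem_center_iff]
  unfold chkScal at h
  simp only [Bool.and_eq_true, decide_eq_true_eq] at h
  obtain ⟨⟨⟨⟨⟨⟨⟨⟨hb, hc⟩, hd⟩, hf⟩, hg⟩, hh⟩, hae⟩, hei⟩, h3⟩ := h
  refine ⟨((ewM w).a : ZMod 7), ?_, ?_⟩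
  · rw [Fintype.card_fin, ← Nat.cast_pow, ← ZMod.natCast_mod, h3, Nat.cast_one]
  · rw [val_ew_US]
    ext i j
    rw [Matrix.scalar_apply, Matrix.diagonal_apply]
    fin_cases i <;> fin_cases j <;>
      simp [M3.toMat, hb, hc, hd, hf, hg, hh, ← hei, ← hae]

theorem chk_rels : ∀ w ∈ L37M.TA.rels1, chkScal (ewM w) = true := by decide +kernel

theorem chk_sq : ∀ l < 5, chkScal (ewM [l, l]) = true := by decide +kernel

/-- the generators in `PSL(3, 7)` -/
noncomputable def UP (l : ℕ) : Matrix.ProjectiveSpecialLinearGroup (Fin 3) (ZMod 7) :=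
  QuotientGroup.mk (US l)

theorem ew_UP (w : List ℕ) : ew UP w = QuotientGroup.mk (ew US w) := by
  induction w with
  | nil => rfl
  | cons a t ih => rw [ew_cons, ew_cons, ih]; rfl

theorem UP_rel (w : List ℕ) (h : chkScal (ewM w) = true) : ew UP w = 1 := by
  rw [ew_UP]
  exact (QuotientGroup.eq_one_iff _).mpr (mem_center_of_chk w h)

theorem UP_ne : UP 0 ≠ 1 := by
  intro h
  have h1 : US 0 ∈ Subgroup.center (Matrix.SpecialLinearGroup (Fin 3) (ZMod 7)) :=
    (QuotientGroup.eq_one_iff _).mp h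
  rw [Matrix.SpecialLinearGroup.mem_center_iff] at h1
  obtain ⟨r, -, hr⟩ := h1
  have h2 := congrFun (congrFun hr 1) 2
  revert h2
  simp [US, Ud, M3.toMat, Matrix.scalar_apply, Matrix.diagonal]
  decide

theorem K_eq : L37M.TA.K = 5 := rfl

theorem invA : ∀ l < L37M.TA.K, L37M.TA.inv l = l := by decide +kernel

/-- the homomorphism onto a nontrivial subgroup of `PSL(3, 7)` -/
theorem theta_ex : ∃ θ : PG L37M.TA →* Matrix.ProjectiveSpecialLinearGroup (Fin 3) (ZMod 7),
    θ (pg L37M.TA 0) ≠ 1 := by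
  obtain ⟨θ, h1, -⟩ := lift_ex L37M.TA Cfsg.Agent.Lib.Helper19.L37U5.checked.hrelK
    (fun l hl => by rw [invA l hl]; exact hl) UP
    (fun l hl => by
      rw [invA l hl]
      have := UP_rel [l, l] (chk_sq l (by rw [K_eq] at hl; exact hl))
      rwa [ew_cons, ew_cons, ew_nil, mul_one] at this)
    (fun w hw => UP_rel w (chk_rels w hw))
  refine ⟨θ, ?_⟩
  rw [h1 0 (by rw [K_eq]; norm_num)]
  exact UP_ne

instance fact7 : Fact (Nat.Prime 7) := ⟨by norm_num⟩

theorem card_GL_SL : Nat.card (Matrix.GeneralLinearGroup (Fin 3) (ZMod 7)) =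
    Nat.card (Matrix.SpecialLinearGroup (Fin 3) (ZMod 7)) * 6 := by
  classical
  have hsurj := Matrix.GeneralLinearGroup.det_surjective (n := Fin 3) (R := ZMod 7)
  have h1 := Subgroup.card_eq_card_quotient_mul_card_subgroup
    (Matrix.GeneralLinearGroup.det (n := Fin 3) (R := ZMod 7)).ker
  have h2 : Nat.card (Matrix.GeneralLinearGroup (Fin 3) (ZMod 7) ⧸
      (Matrix.GeneralLinearGroup.det (n := Fin 3) (R := ZMod 7)).ker) = 6 := by
    rw [Nat.card_congr (QuotientGroup.quotientKerEquivOfSurjective _ hsurj).toEquiv, Nat.card_units,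
      Nat.card_eq_fintype_card, ZMod.card]
  have h3 : Nat.card (Matrix.GeneralLinearGroup.det (n := Fin 3) (R := ZMod 7)).ker =
      Nat.card (Matrix.SpecialLinearGroup (Fin 3) (ZMod 7)) := by
    have hrange : (Matrix.SpecialLinearGroup.toGL (n := Fin 3) (R := ZMod 7)).range =
        (Matrix.GeneralLinearGroup.det (n := Fin 3) (R := ZMod 7)).ker := by
      ext A
      rw [MonoidHom.mem_range, MonoidHom.mem_ker]
      constructor
      · rintro ⟨g, rfl⟩
        apply Units.ext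
        simp [Matrix.GeneralLinearGroup.det]
      · intro hA
        have hdet : (A : Matrix (Fin 3) (Fin 3) (ZMod 7)).det = 1 := by
          have := congrArg (fun u : (ZMod 7)ˣ => (u : ZMod 7)) hA
          simpa [Matrix.GeneralLinearGroup.det] using this
        refine ⟨⟨(A : Matrix (Fin 3) (Fin 3) (ZMod 7)), hdet⟩, ?_⟩
        apply Units.ext
        rfl
    rw [← hrange]
    exact (Nat.card_congr
      (MonoidHom.ofInjective Matrix.SpecialLinearGroup.toGL_injective).toEquiv).symm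
  rw [h1, h2, h3, mul_comm]

theorem card_SL_PSL : Nat.card (Matrix.SpecialLinearGroup (Fin 3) (ZMod 7)) =
    Nat.card (Matrix.ProjectiveSpecialLinearGroup (Fin 3) (ZMod 7)) *
      Nat.card (rootsOfUnity 3 (ZMod 7)) := by
  classical
  have h1 := Subgroup.card_eq_card_quotient_mul_card_subgroup
    (Subgroup.center (Matrix.SpecialLinearGroup (Fin 3) (ZMod 7)))
  rw [h1]
  congr 1
  have e := Matrix.SpecialLinearGroup.center_equiv_rootsOfUnity (n := Fin 3) (R := ZMod 7)
  rw [Nat.card_congr e.toEquiv]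
  simp only [Fintype.card_fin]
  rfl

theorem card_roots : 3 ≤ Nat.card (rootsOfUnity 3 (ZMod 7)) := by
  have h24 : (2 : ZMod 7) * 4 = 1 := by decide
  have h42 : (4 : ZMod 7) * 2 = 1 := by decide
  let u : (ZMod 7)ˣ := ⟨2, 4, h24, h42⟩
  have hu3 : u ^ 3 = 1 := by
    apply Units.ext
    show (2 : ZMod 7) ^ 3 = 1
    decide
  have hu1 : u ≠ 1 := by
    intro h
    have := congrArg (fun x : (ZMod 7)ˣ => (x : ZMod 7)) h
    revert this
    show (2 : ZMod 7) = 1 → False
    decide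
  have hord : orderOf u = 3 := by
    have hd : orderOf u ∣ 3 := orderOf_dvd_of_pow_eq_one hu3
    rcases (Nat.dvd_prime (by norm_num : Nat.Prime 3)).mp hd with h | h
    · exact absurd (orderOf_eq_one_iff.mp h) hu1
    · exact h
  have hle : Subgroup.zpowers u ≤ rootsOfUnity 3 (ZMod 7) := by
    rw [Subgroup.zpowers_le]
    exact (mem_rootsOfUnity _ _).mpr hu3
  have hc := Subgroup.card_le_of_le hle
  rw [Nat.card_zpowers, hord] at hc
  exact hc

theorem card_PSL_le : Nat.card (Matrix.ProjectiveSpecialLinearGroup (Fin 3) (ZMod 7)) ≤ 1876896 := by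
  have h1 := card_GL_SL
  have h2 := card_SL_PSL
  have h3 := card_roots
  rw [Matrix.card_GL_field, ZMod.card] at h1
  have hprod : ∏ i : Fin 3, (7 ^ 3 - 7 ^ (i : ℕ)) = 33784128 := by
    simp [Fin.prod_univ_succ]
  rw [hprod] at h1
  nlinarith

end Cfsg.Agent.Lib.Helper19.L37Mat
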