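import Cfsg.Agent.Lib.Helper19.TCUp
import Cfsg.Agent.Lib.Helper19.L37U1C0

set_option autoImplicit false
set_option maxRecDepth 1000000

namespace Cfsg.Agent.Lib.Helper19.L37U1

open Cfsg.Agent.Lib.Helper56.TC Cfsg.Agent.Lib.Helper56.TC.Tabs

theorem uN_2 : Upto T.chkName 2 := upto_add (upto_zero T.chkName) rfl cN_0
theorem uF_2 : Upto T.chkFinName 2 := upto_add (upto_zero T.chkFinName) rfl cF_0

/-- The certificate is valid. -/
theorem checked : Cfsg.Agent.Lib.Helper19.TCU.Checked T 0 where
  hK := by decide +kernel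
  hN := by decide +kernel
  hNN := by decide +kernel
  hinv := fun _ _ => rfl
  hsubs := by decide +kernel
  hrelK := by decide +kernel
  hrx := by decide +kernel
  hchk := uN_2
  hfin := uF_2

end Cfsg.Agent.Lib.Helper19.L37U1
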