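import Cfsg.Agent.Lib.Helper56.TC

set_option autoImplicit false
set_option maxRecDepth 1000000

namespace Cfsg.Agent.Lib.Helper19.L37U1

open Cfsg.Agent.Lib.Helper56.TC Cfsg.Agent.Lib.Helper56.TC.Tabs

noncomputable def sA0 : List (List ℕ) := [
[0x85]]

noncomputable def sA : List (List (List ℕ)) := [sA0]

noncomputable def nA0 : List (List ℕ) := [
[0x230]]

noncomputable def nA : List (List (List ℕ)) := [nA0]

noncomputable def tA0 : List (List ℕ) := [
[0x1]]

noncomputable def tA : List (List (List ℕ)) := [tA0]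

/-- The certificate data. -/
noncomputable def T : Tabs where
  K := 1
  N := 2
  N' := 2
  INF := 1
  fuel := 1
  inv := fun l => l
  tg := slotFld sA 250 4 15 1 0 1 (fun _ => 0)
  rk := slotFld sA 250 4 15 1 1 1
    (fun x => Nat.rec (motive := fun _ => ℕ) 0 (fun _ _ => 1) x)
  jc := slotFld sA 250 4 15 1 2 3
    (fun x => Nat.rec (motive := fun _ => ℕ) 3 (fun _ _ => 0) x)
  dd := nameFld nA 200 5 31 0 1
  dl := nameFld nA 200 5 31 1 1
  qj := nameFld nA 200 5 31 2 1
  mp := nameFld nA 200 5 31 3 1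
  mt := nameFld nA 200 5 31 4 1
  tb := slotFld tA 1000 1 1 1 0 1 (fun _ => 0)
  rels1 := []
  subs := []
  rx := []
  RB := 2
  tpl := fun _ => 0
  tdep := fun _ => 0
  ol := fun _ => 0
  oc := fun _ => 0
  op := fun _ => 0
  odep := fun _ => 0
  orep := fun _ => 0

end Cfsg.Agent.Lib.Helper19.L37U1
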