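import Cfsg.Agent.Lib.Helper56.TC

set_option autoImplicit false
set_option maxRecDepth 1000000

namespace Cfsg.Agent.Lib.Helper19.L37U4

open Cfsg.Agent.Lib.Helper56.TC Cfsg.Agent.Lib.Helper56.TC.Tabs

noncomputable def sA0 : List (List ℕ) := [
[0x5d106742aa08104028690a4042020c031c90c84]]

noncomputable def sA : List (List (List ℕ)) := [sA0]

noncomputable def nA0 : List (List ℕ) := [
[0x90290d900]]

noncomputable def nA : List (List (List ℕ)) := [nA0]

noncomputable def tA0 : List (List ℕ) := [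
[0x952a40]]

noncomputable def tA : List (List (List ℕ)) := [tA0]

/-- The certificate data. -/
noncomputable def T : Tabs where
  K := 4
  N := 3
  N' := 3
  INF := 9
  fuel := 1
  inv := fun l => l
  tg := slotFld sA 76 13 8191 4 0 3 (fun _ => 0)
  rk := slotFld sA 76 13 8191 4 2 15
    (fun x => Nat.rec (motive := fun _ => ℕ) 0 (fun _ _ => 9) x)
  jc := slotFld sA 76 13 8191 4 6 127
    (fun x => Nat.rec (motive := fun _ => ℕ) 3 (fun _ _ => 0) x)
  dd := nameFld nA 83 12 4095 0 3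
  dl := nameFld nA 83 12 4095 2 7
  qj := nameFld nA 83 12 4095 5 1
  mp := nameFld nA 83 12 4095 6 3
  mt := nameFld nA 83 12 4095 8 15
  tb := slotFld tA 500 2 3 4 0 3 (fun _ => 0)
  rels1 := [[0, 1, 0, 1, 0, 1],
    [0, 2, 0, 2],
    [1, 2, 1, 2, 1, 2],
    [0, 1, 3, 0, 1, 3],
    [0, 2, 3, 0, 2, 3],
    [0, 3, 0, 3, 0, 3]]
  subs := [[0],
    [1],
    [2]]
  rx := [[0, 1, 0, 1, 0, 1],
    [0, 2, 0, 2],
    [1, 2, 1, 2, 1, 2],
    [0, 1, 3, 0, 1, 3],
    [0, 2, 3, 0, 2, 3],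
    [0, 3, 0, 3, 0, 3],
    [0, 4],
    [1, 5],
    [2, 6]]
  RB := 7
  tpl := fun _ => 0
  tdep := fun _ => 0
  ol := fun _ => 0
  oc := fun _ => 0
  op := fun _ => 0
  odep := fun _ => 0
  orep := fun _ => 0

end Cfsg.Agent.Lib.Helper19.L37U4
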