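import Cfsg.Agent.Lib.Helper19.L37U5D

set_option autoImplicit false
set_option maxRecDepth 1000000

namespace Cfsg.Agent.Lib.Helper19.L37U5

open Cfsg.Agent.Lib.Helper56.TC Cfsg.Agent.Lib.Helper56.TC.Tabs

theorem cN_19800 : allRange (fun x => forceN T.chkName x) 19800 300 = true := by decide +kernel
theorem cN_20100 : allRange (fun x => forceN T.chkName x) 20100 300 = true := by decide +kernel
theorem cN_20400 : allRange (fun x => forceN T.chkName x) 20400 300 = true := by decide +kernel
theorem cN_20700 : allRange (fun x => forceN T.chkName x) 20700 300 = true := by decide +kernel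
theorem cN_21000 : allRange (fun x => forceN T.chkName x) 21000 300 = true := by decide +kernel
theorem cN_21300 : allRange (fun x => forceN T.chkName x) 21300 300 = true := by decide +kernel

end Cfsg.Agent.Lib.Helper19.L37U5
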