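import Cfsg.Agent.Lib.Helper19.L37U5D

set_option autoImplicit false
set_option maxRecDepth 1000000

namespace Cfsg.Agent.Lib.Helper19.L37U5

open Cfsg.Agent.Lib.Helper56.TC Cfsg.Agent.Lib.Helper56.TC.Tabs

theorem cF_18000 : allRange (fun x => forceN T.chkFinName x) 18000 1200 = true := by decide +kernel
theorem cF_19200 : allRange (fun x => forceN T.chkFinName x) 19200 1200 = true := by decide +kernel
theorem cF_20400 : allRange (fun x => forceN T.chkFinName x) 20400 1200 = true := by decide +kernel
theorem cF_21600 : allRange (fun x => forceN T.chkFinName x) 21600 1200 = true := by decide +kernel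
theorem cF_22800 : allRange (fun x => forceN T.chkFinName x) 22800 1200 = true := by decide +kernel
theorem cF_24000 : allRange (fun x => forceN T.chkFinName x) 24000 1200 = true := by decide +kernel

end Cfsg.Agent.Lib.Helper19.L37U5
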