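import Cfsg.Agent.Lib.Helper19.L37U5D

set_option autoImplicit false
set_option maxRecDepth 1000000

namespace Cfsg.Agent.Lib.Helper19.L37U5

open Cfsg.Agent.Lib.Helper56.TC Cfsg.Agent.Lib.Helper56.TC.Tabs

theorem cN_9000 : allRange (fun x => forceN T.chkName x) 9000 300 = true := by decide +kernel
theorem cN_9300 : allRange (fun x => forceN T.chkName x) 9300 300 = true := by decide +kernel
theorem cN_9600 : allRange (fun x => forceN T.chkName x) 9600 300 = true := by decide +kernel
theorem cN_9900 : allRange (fun x => forceN T.chkName x) 9900 300 = true := by decide +kernel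
theorem cN_10200 : allRange (fun x => forceN T.chkName x) 10200 300 = true := by decide +kernel
theorem cN_10500 : allRange (fun x => forceN T.chkName x) 10500 300 = true := by decide +kernel

end Cfsg.Agent.Lib.Helper19.L37U5
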