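import Cfsg.Agent.Lib.Helper56.TCPerm
import Cfsg.Agent.Lib.Helper19.PrimClasses

/-!
# The permutation group on the final names of a coset enumeration certificate: suborbits

For a table `T` satisfying part 1 of helper56's certificate (`T.P1`) and the orbit checks `chkO`,
the subgroup `Hs` generated by the subgroup words fixes the name `0`, preserves the labels
`T.ol` and is transitive on each label class.  (The arguments are those of
`Cfsg.Agent.Lib.Helper56.TC.Tabs.orbit_ncard`, written for the permutations themselves.)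
Also: lower bounds for the order of a permutation group from a set of points in one orbit.
-/

set_option autoImplicit false

namespace Cfsg.Agent.Lib.Helper19.TCO

open Cfsg.Agent.Lib.Helper56.TC Cfsg.Agent.Lib.Helper56.TC.Tabs
open Cfsg.Agent.Lib.Helper19.Cox (L L_mono mem_L)
open Equiv MulAction

section

variable {T : Tabs} (hP : T.P1)

/-- the subgroup generated by the subgroup words, as permutations of the final names -/
noncomputable def Hs : Subgroup (Perm (Fin T.N)) :=
  Subgroup.closure {x | ∃ s ∈ T.subs, x = ew (sigma hP) s}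

theorem Hs_le : Hs hP ≤ L (sigma hP) T.K := by
  unfold Hs
  rw [Subgroup.closure_le]
  rintro _ ⟨s, hs, rfl⟩
  exact ew_mem_L _ s T.K (hP.hsubK s hs)

theorem Hs_fix : ∀ h ∈ Hs hP, h ⟨0, hP.hN⟩ = ⟨0, hP.hN⟩ := by
  intro h hh
  unfold Hs at hh
  induction hh using Subgroup.closure_induction with
  | mem x hx =>
    obtain ⟨s, hs, rfl⟩ := hx
    exact sigma_sub hP s hs
  | one => rfl
  | mul x y _ _ hx hy => rw [Perm.mul_apply, hy, hx]
  | inv x _ hx =>
    rw [Perm.inv_eq_iff_eq]
    exact hx.symm

theorem label_invar (hO : ∀ v < T.N, T.chkO v = true) :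
    ∀ h ∈ Hs hP, ∀ v : Fin T.N, T.ol (h v) = T.ol v := by
  intro h hh
  unfold Hs at hh
  induction hh using Subgroup.closure_induction with
  | mem x hx =>
    obtain ⟨s, hs, rfl⟩ := hx
    intro v
    rw [ew_sigma hP s (hP.hsubK s hs) v]
    have h1 := hO v v.2
    unfold chkO at h1
    simp only [Bool.and_eq_true] at h1
    exact beq_true ((allW_iff _ _).mp h1.1 s hs)
  | one => intro v; rfl
  | mul x y _ _ hx hy =>
    intro v
    rw [Perm.mul_apply, hx, hy]
  | inv x _ hx =>
    intro v
    have h1 := hx (x⁻¹ v)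
    rw [perm_apply_inv] at h1
    exact h1.symm

theorem label_reach (hO : ∀ v < T.N, T.chkO v = true) :
    ∀ n : ℕ, ∀ v : Fin T.N, T.odep v = n → ∀ r : Fin T.N,
      (r : ℕ) = T.orep (T.ol v) → ∃ h ∈ Hs hP, h r = v := by
  intro n
  induction n using Nat.strong_induction_on with
  | _ n ih =>
    intro v hn r hr
    have h1 := hO v v.2
    unfold chkO at h1
    simp only [Bool.and_eq_true, Bool.or_eq_true] at h1
    rcases h1.2 with h0 | ⟨h2, h3, h4⟩
    · refine ⟨1, (Hs hP).one_mem, ?_⟩
      apply Fin.ext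
      show (r : ℕ) = v
      rw [hr, ← beq_true h0]
    · have h2 := blt_true h2
      have h3 := blt_true h3
      have h4 := beq_true h4
      have hsmem : nthL T.subs (T.oc v) ∈ T.subs := by
        rw [nthL_eq]
        by_cases hlt : T.oc v < T.subs.length
        · rw [List.getD_eq_getElem _ _ hlt]; exact List.getElem_mem hlt
        · rw [nthL_eq, List.getD_eq_default _ _ (by omega)] at h4
          rw [followT_nil] at h4
          rw [h4] at h3
          omega
      set s := nthL T.subs (T.oc v) with hs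
      have hsH : ew (sigma hP) s ∈ Hs hP := Subgroup.subset_closure ⟨s, hsmem, rfl⟩
      have h5 : ((ew (sigma hP) s ⟨T.op v, h2⟩ : Fin T.N) : ℕ) = v := by
        rw [ew_sigma hP s (hP.hsubK s hsmem)]; exact h4
      have h6 : T.ol v = T.ol (T.op v) := by
        have := label_invar hP hO _ hsH ⟨T.op v, h2⟩
        rw [h5] at this
        exact this
      obtain ⟨h', hh', hr'⟩ := ih (T.odep (T.op v)) (by rw [← hn]; exact h3) ⟨T.op v, h2⟩ rfl r
        (by rw [hr, h6])
      refine ⟨ew (sigma hP) s * h', (Hs hP).mul_mem hsH hh', ?_⟩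
      rw [Perm.mul_apply, hr']
      exact Fin.ext h5

/-- names with the same label are conjugate under `Hs` -/
theorem label_trans (hO : ∀ v < T.N, T.chkO v = true) (hrep : ∀ v < T.N, T.orep (T.ol v) < T.N)
    (y z : Fin T.N) (hyz : T.ol y = T.ol z) : ∃ h ∈ Hs hP, h y = z := by
  obtain ⟨h1, hh1, e1⟩ := label_reach hP hO _ y rfl ⟨T.orep (T.ol y), hrep y y.2⟩ rfl
  obtain ⟨h2, hh2, e2⟩ := label_reach hP hO _ z rfl ⟨T.orep (T.ol y), hrep y y.2⟩
    (congrArg T.orep hyz)
  refine ⟨h2 * h1⁻¹, (Hs hP).mul_mem hh2 ((Hs hP).inv_mem hh1), ?_⟩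
  rw [Perm.mul_apply, ← e1, perm_inv_apply, e2]

/-- the group is transitive on the final names -/
theorem trans0 : ∀ v : Fin T.N, ∃ g ∈ L (sigma hP) T.K, g ⟨0, hP.hN⟩ = v := by
  intro v
  obtain ⟨w, hw, hf⟩ := sigma_trans hP v.val v.2
  refine ⟨ew (sigma hP) w, ew_mem_L _ w T.K hw, ?_⟩
  apply Fin.ext
  rw [ew_sigma hP w hw]
  exact hf

end

/-- Lower bound from a set of points in one orbit. -/
theorem orbit_lower_set {α : Type*} [Finite α] (K : Subgroup (Perm α)) (ω : α) (S : Set α)
    (hS : ∀ y ∈ S, ∃ g ∈ K, g ω = y) :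
    S.ncard * Nat.card (K ⊓ stabilizer (Perm α) ω : Subgroup (Perm α)) ≤ Nat.card K := by
  classical
  choose! w hwK hwO using hS
  let F : S × (K ⊓ stabilizer (Perm α) ω : Subgroup (Perm α)) → K :=
    fun p => ⟨w p.1 * p.2, mul_mem (hwK p.1 p.1.2) (Subgroup.mem_inf.mp p.2.2).1⟩
  have hfixed : ∀ p : (K ⊓ stabilizer (Perm α) ω : Subgroup (Perm α)),
      (p : Perm α) ω = ω := by
    intro p
    have := (Subgroup.mem_inf.mp p.2).2
    rwa [mem_stabilizer_iff, Perm.smul_def] at this
  have hF : Function.Injective F := by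
    rintro ⟨c, p⟩ ⟨c', p'⟩ heq
    have heq' : w c * (p : Perm α) = w c' * (p' : Perm α) := congrArg Subtype.val heq
    have h1 : (w c * (p : Perm α)) ω = c := by
      rw [Perm.mul_apply, hfixed p, hwO c c.2]
    have h2 : (w c' * (p' : Perm α)) ω = c' := by
      rw [Perm.mul_apply, hfixed p', hwO c' c'.2]
    rw [heq', h2] at h1
    have hcc' : c = c' := Subtype.ext h1.symm
    subst hcc'
    have := mul_left_cancel heq'
    rw [Subtype.ext this]
  have := Nat.card_le_card_of_injective F hF
  rwa [Nat.card_prod, Nat.card_coe_set_eq] at this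

end Cfsg.Agent.Lib.Helper19.TCO
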