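import Cfsg.Agent.Lib.Helper56.TCSimple
import Cfsg.Agent.Lib.Helper56.TCUpper
import Cfsg.Agent.Lib.Helper19.TCOrbP

/-!
# Small models of a finitely presented group

Tools for a group given by a presentation read off a table `T` of helper56's coset enumeration
certificates (letters `l < T.K`, inverse letters `T.inv`, relators `T.rels1`):
* `PG T`: the presented group; `card_le`: its order is at most `T.N * m` when the subgroup of
  the certificate is cyclic of order dividing `m`; `lift_ex`: homomorphisms out of it;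
* `preprimitive_of_classes_excl`, `prim_of_labels`: primitivity of the permutation group of a
  table from the labels of the suborbits, with explicit witnesses for the unions of suborbits
  whose size divides the degree;
* `simple_card_of_models`: a quotient `M` of `P` with `|P| ≤ n ≤ |M|` and `M` simple forces
  every nontrivial quotient of `P` to be simple of order `n`.
-/

set_option autoImplicit false

namespace Cfsg.Agent.Lib.Helper19.PM

open Cfsg.Agent.Lib.Helper56.TC Cfsg.Agent.Lib.Helper56.TC.Tabs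
open Cfsg.Agent.Lib.Helper19.Cox (L L_mono mem_L)
open Cfsg.Agent.Lib.Helper19.TCO
open Equiv MulAction
open scoped Pointwise

/-! ### Words -/

theorem ew_flatMap {M : Type*} [Monoid M] (s : ℕ → M) (sub : ℕ → List ℕ) (w : List ℕ) :
    ew (fun l => ew s (sub l)) w = ew s (w.flatMap sub) := by
  induction w with
  | nil => rfl
  | cons a t ih => rw [ew_cons, ih, List.flatMap_cons, ew_append]

theorem ew_replicate {M : Type*} [Monoid M] (s : ℕ → M) (w : List ℕ) (m : ℕ) :
    ew s (List.replicate m w).flatten = ew s w ^ m := by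
  induction m with
  | zero => rw [List.replicate_zero, List.flatten_nil, ew_nil, pow_zero]
  | succ k ih => rw [List.replicate_succ, List.flatten_cons, ew_append, ih, pow_succ']

/-- position of `y` in a list (its length if `y` does not occur) -/
noncomputable def posIn (l : List ℕ) (y : ℕ) : ℕ :=
  List.rec (motive := fun _ => ℕ → ℕ) (fun i => i)
    (fun a _ ih i => Bool.rec (motive := fun _ => ℕ) (ih (Nat.succ i)) i (Nat.beq a y)) l 0

/-! ### The presented group of a table -/

/-- the letters in the free group -/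
noncomputable def fg (K : ℕ) (l : ℕ) : FreeGroup (Fin K) :=
  if h : l < K then FreeGroup.of ⟨l, h⟩ else 1

/-- the relators: the listed words and `l * inv l` -/
def prel (T : Tabs) : Set (FreeGroup (Fin T.K)) :=
  {r | (∃ w ∈ T.rels1, r = ew (fg T.K) w) ∨ ∃ l < T.K, r = fg T.K l * fg T.K (T.inv l)}

/-- the presented group -/
abbrev PG (T : Tabs) : Type := PresentedGroup (prel T)

/-- its generators -/
noncomputable def pg (T : Tabs) (l : ℕ) : PG T := PresentedGroup.mk (prel T) (fg T.K l)

theorem pg_ew (T : Tabs) (w : List ℕ) :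
    ew (pg T) w = PresentedGroup.mk (prel T) (ew (fg T.K) w) := by
  induction w with
  | nil => exact (map_one _).symm
  | cons a t ih => rw [ew_cons, ew_cons, ih, map_mul]; rfl

theorem pg_rel (T : Tabs) : ∀ w ∈ T.rels1, ew (pg T) w = 1 := by
  intro w hw
  rw [pg_ew]
  exact PresentedGroup.one_of_mem (Or.inl ⟨w, hw, rfl⟩)

theorem pg_inv (T : Tabs) : ∀ l < T.K, pg T (T.inv l) = (pg T l)⁻¹ := by
  intro l hl
  symm
  apply inv_eq_of_mul_eq_one_right
  show PresentedGroup.mk _ (fg T.K l) * PresentedGroup.mk _ (fg T.K (T.inv l)) = 1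
  rw [← map_mul]
  exact PresentedGroup.one_of_mem (Or.inr ⟨l, hl, rfl⟩)

theorem pg_gen (T : Tabs) : Subgroup.closure {x | ∃ l < T.K, x = pg T l} = ⊤ := by
  rw [eq_top_iff, ← PresentedGroup.closure_range_of (prel T)]
  apply Subgroup.closure_mono
  rintro _ ⟨i, rfl⟩
  refine ⟨i.val, i.2, ?_⟩
  show PresentedGroup.of i = PresentedGroup.mk _ (fg T.K i.val)
  unfold fg
  rw [dif_pos i.2]
  rfl

/-- A certificate for the upper bound only: the names and the final checks of the final names
(no relator checks at the final names, no orbit labels). -/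
structure CertU (T : Tabs) : Prop where
  h0 : T.chk0 = true
  hrx : T.rx = T.relsX
  hname : ∀ x < T.N', T.chkName x = true
  hfin : ∀ v < T.N, T.chkFinName v = true

theorem CertU.parts {T : Tabs} (hC : CertU T) :
    0 < T.N ∧ T.N ≤ T.N' ∧ (∀ l < T.K, T.inv l < T.K) ∧
      (∀ w ∈ T.rels1, ∀ a ∈ w, a < T.K) ∧ (∀ s ∈ T.subs, ∀ a ∈ s, a < T.K) := by
  have h0 := hC.h0
  unfold chk0 at h0
  simp only [Bool.and_eq_true, decide_eq_true_eq, List.all_eq_true, List.mem_range] at h0
  obtain ⟨⟨⟨⟨hN, hNN⟩, hinv⟩, hrel⟩, hsub⟩ := h0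
  exact ⟨hN, hNN, fun l hl => (hinv l hl).1, hrel, hsub⟩

/-- In any group generated by `g l` (`l < K`) in which the relators hold, a subgroup containing
the subgroup words of the certificate has at most `N` cosets. -/
theorem CertU.index_le {T : Tabs} {G : Type*} [Group G] {H : Subgroup G} {g : ℕ → G}
    (hC : CertU T)
    (hgen : Subgroup.closure {x | ∃ l < T.K, x = g l} = ⊤)
    (hinv : ∀ l < T.K, g (T.inv l) = (g l)⁻¹)
    (hrel : ∀ w ∈ T.rels1, ew g w = 1)
    (hsub : ∀ s ∈ T.subs, ew g s ∈ H) :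
    Finite (G ⧸ H) ∧ Nat.card (G ⧸ H) ≤ T.N := by
  obtain ⟨hN, hNN, hinvK, hrelK, hsubK⟩ := hC.parts
  have hS : T.Sem H g :=
    { hNN := hNN
      hinvK := hinvK
      hinv := hinv
      hsubH := hsub
      hsubK := hsubK
      hrel := hrel
      hrelK := hrelK
      hrx := hC.hrx
      hchk := hC.hname
      hfin := hC.hfin }
  have hsurj : Function.Surjective (fun v : Fin T.N => T.val H g v) := by
    intro q
    obtain ⟨v, hv, rfl⟩ := cover hS hN hgen q
    exact ⟨⟨v, hv⟩, rfl⟩
  have hfin : Finite (G ⧸ H) := Finite.of_surjective _ hsurj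
  refine ⟨hfin, ?_⟩
  have h := Nat.card_le_card_of_surjective _ hsurj
  rwa [Nat.card_fin] at h

/-- The order of the presented group is at most `T.N * m` if the certificate is over a cyclic
subgroup whose generator has an `m`-th power among the relators. -/
theorem card_le (T : Tabs) (hC : CertU T) (s0 : List ℕ) (hs : T.subs = [s0]) (m : ℕ) (hm : 0 < m)
    (hr : (List.replicate m s0).flatten ∈ T.rels1) :
    Finite (PG T) ∧ Nat.card (PG T) ≤ T.N * m := by
  set x : PG T := ew (pg T) s0 with hx
  have hxm : x ^ m = 1 := by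
    rw [hx, ← ew_replicate]
    exact pg_rel T _ hr
  have hfo : IsOfFinOrder x := isOfFinOrder_iff_pow_eq_one.mpr ⟨m, hm, hxm⟩
  have hc0 : Nat.card (Subgroup.zpowers x) = orderOf x := Nat.card_zpowers x
  have : Finite (Subgroup.zpowers x) :=
    Nat.finite_of_card_ne_zero (by rw [hc0]; exact hfo.orderOf_pos.ne')
  have hcard : Nat.card (Subgroup.zpowers x) ≤ m := by
    rw [hc0]
    exact Nat.le_of_dvd hm (orderOf_dvd_of_pow_eq_one hxm)
  obtain ⟨hfin, hle⟩ := hC.index_le (H := Subgroup.zpowers x) (pg_gen T) (pg_inv T)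
    (pg_rel T) (by
      intro s hs'
      rw [hs, List.mem_singleton] at hs'
      rw [hs']
      exact Subgroup.mem_zpowers x)
  have hG : Finite (PG T) := by
    have e := Subgroup.groupEquivQuotientProdSubgroup (s := Subgroup.zpowers x)
    exact Finite.of_equiv _ e.symm
  refine ⟨hG, ?_⟩
  rw [← Subgroup.index_mul_card (Subgroup.zpowers x)]
  exact Nat.mul_le_mul hle hcard

/-- Homomorphisms from the presented group. -/
theorem lift_ex {M : Type*} [Group M] (T : Tabs) (hrelK : ∀ w ∈ T.rels1, ∀ a ∈ w, a < T.K)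
    (hinvK : ∀ l < T.K, T.inv l < T.K)
    (f : ℕ → M) (hinv : ∀ l < T.K, f l * f (T.inv l) = 1) (hrel : ∀ w ∈ T.rels1, ew f w = 1) :
    ∃ φ : PG T →* M, (∀ l < T.K, φ (pg T l) = f l) ∧
      φ.range = Subgroup.closure {x | ∃ l < T.K, x = f l} := by
  let f' : Fin T.K → M := fun i => f i.val
  have hfg : ∀ l < T.K, FreeGroup.lift f' (fg T.K l) = f l := by
    intro l hl
    unfold fg
    rw [dif_pos hl, FreeGroup.lift_apply_of]
  have hew : ∀ w : List ℕ, (∀ a ∈ w, a < T.K) →
      FreeGroup.lift f' (ew (fg T.K) w) = ew f w := by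
    intro w
    induction w with
    | nil => intro _; exact map_one _
    | cons a t ih =>
      intro h
      rw [ew_cons, ew_cons, map_mul, hfg a (h a List.mem_cons_self),
        ih (fun b hb => h b (List.mem_cons_of_mem _ hb))]
  have hr : ∀ r ∈ prel T, FreeGroup.lift f' r = 1 := by
    rintro r (⟨w, hw, rfl⟩ | ⟨l, hl, rfl⟩)
    · rw [hew w (hrelK w hw)]; exact hrel w hw
    · rw [map_mul, hfg l hl, hfg _ (hinvK l hl)]; exact hinv l hl
  let φ : PG T →* M := PresentedGroup.toGroup hr
  have hφ : ∀ l < T.K, φ (pg T l) = f l := by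
    intro l hl
    show PresentedGroup.toGroup hr (PresentedGroup.mk _ (fg T.K l)) = f l
    unfold fg
    rw [dif_pos hl]
    exact PresentedGroup.toGroup.of hr
  refine ⟨φ, hφ, ?_⟩
  rw [MonoidHom.range_eq_map, ← pg_gen T, MonoidHom.map_closure]
  congr 1
  ext y
  constructor
  · rintro ⟨_, ⟨l, hl, rfl⟩, rfl⟩
    exact ⟨l, hl, hφ l hl⟩
  · rintro ⟨l, hl, rfl⟩
    exact ⟨pg T l, ⟨l, hl, rfl⟩, hφ l hl⟩

/-! ### Comparison of models -/

/-- If `P` has at most `n` elements and maps onto a simple group `M` with at least `n`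
elements, then every nontrivial quotient of `P` is simple of order `n`. -/
theorem simple_card_of_models {P M K : Type*} [Group P] [Group M] [Group K] (n : ℕ)
    [Finite P] (hP : Nat.card P ≤ n)
    (f : P →* M) (hf : Function.Surjective f) (hM : n ≤ Nat.card M) (hMs : IsSimpleGroup M)
    (g : P →* K) (hg : Function.Surjective g) (hK : Nontrivial K) :
    IsSimpleGroup K ∧ Nat.card K = n := by
  have : Finite M := Finite.of_surjective f hf
  have h1 : Nat.card M ≤ Nat.card P := Nat.card_le_card_of_surjective f hf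
  have hcP : Nat.card P = n := le_antisymm hP (le_trans hM h1)
  have hcM : Nat.card M = Nat.card P := le_antisymm h1 (le_trans hP hM)
  have hbij : Function.Bijective f :=
    (Nat.bijective_iff_surjective_and_card f).mpr ⟨hf, hcM.symm⟩
  let e : P ≃* M := MulEquiv.ofBijective f hbij
  have : Nontrivial P := e.toEquiv.nontrivial
  have : IsSimpleGroup P := IsSimpleGroup.isSimpleGroup_of_surjective (e.symm : M →* P) e.symm.surjective
  have hKs : IsSimpleGroup K := IsSimpleGroup.isSimpleGroup_of_surjective g hg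
  refine ⟨hKs, ?_⟩
  have hker : g.ker = ⊥ := by
    rcases (MonoidHom.normal_ker g).eq_bot_or_eq_top with h | h
    · exact h
    · exfalso
      obtain ⟨a, b, hab⟩ := hK.exists_pair_ne
      obtain ⟨a', rfl⟩ := hg a
      obtain ⟨b', rfl⟩ := hg b
      have ha : g a' = 1 := (MonoidHom.mem_ker).mp (h ▸ Subgroup.mem_top a')
      have hb : g b' = 1 := (MonoidHom.mem_ker).mp (h ▸ Subgroup.mem_top b')
      exact hab (ha.trans hb.symm)
  have hinj : Function.Injective g := (MonoidHom.ker_eq_bot_iff g).mp hker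
  rw [← hcP]
  exact (Nat.card_congr (Equiv.ofBijective g ⟨hinj, hg⟩)).symm

/-! ### Normal subgroups containing the generators -/

theorem top_of_gens {α : Type*} (s : ℕ → Perm α) (k : ℕ) (N : Subgroup (L s k))
    (h : ∀ l (hl : l < k), (⟨s l, mem_L s hl⟩ : L s k) ∈ N) : N = ⊤ := by
  rw [eq_top_iff]
  rintro ⟨g, hg⟩ _
  have : ∀ g (hg : g ∈ L s k), (⟨g, hg⟩ : L s k) ∈ N := by
    intro g hg
    unfold L at hg
    induction hg using Subgroup.closure_induction with
    | mem y hy =>
      obtain ⟨i, hi, rfl⟩ := hy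
      exact h i hi
    | one => exact N.one_mem
    | mul a b ha hb iha ihb => exact N.mul_mem iha ihb
    | inv a ha iha => exact N.inv_mem iha
  exact this g hg

/-! ### Primitivity -/

/-- `BSGS.preprimitive_of_classes` with witnesses: a union of classes need not be excluded by
its cardinality if some element of the group maps the base point into it and some point of it
out of it. -/
theorem preprimitive_of_classes_excl {n m : ℕ} (G : Subgroup (Perm (Fin n))) (b : Fin n)
    (cls : Fin n → Fin m) (c : Fin m → ℕ) (excl : Finset (Fin m) → Prop)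
    (hc : ∀ t, (Finset.univ.filter (fun y => cls y = t)).card = c t)
    (hb : ∀ y, cls y = cls b → y = b)
    (htr : ∀ y, ∃ g ∈ G, g b = y)
    (hcl : ∀ y z, cls y = cls z → ∃ h ∈ G, h b = b ∧ h y = z)
    (hex : ∀ T : Finset (Fin m), excl T →
      ∃ g ∈ G, ∃ y, cls y ∈ T ∧ cls (g b) ∈ T ∧ cls (g y) ∉ T)
    (hnum : ∀ T : Finset (Fin m), cls b ∈ T → (∑ t ∈ T, c t) ∣ n →
      T = {cls b} ∨ T = Finset.univ ∨ excl T) :
    IsPreprimitive G (Fin n) := by
  classical
  have : IsPretransitive G (Fin n) := by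
    refine ⟨fun x y => ?_⟩
    obtain ⟨g1, hg1, hg1x⟩ := htr x
    obtain ⟨g2, hg2, hg2y⟩ := htr y
    refine ⟨⟨g2 * g1⁻¹, mul_mem hg2 (inv_mem hg1)⟩, ?_⟩
    show (g2 * g1⁻¹) x = y
    rw [Perm.mul_apply, ← hg1x, ← hg2y]
    congr 1
    rw [Perm.inv_eq_iff_eq]
  apply IsPreprimitive.of_isTrivialBlock_base b
  intro B hbB hB
  have key : ∀ y ∈ B, ∀ z, cls y = cls z → z ∈ B := by
    intro y hyB z hyz
    obtain ⟨h, hh, hhb, hhy⟩ := hcl y z hyz
    have hsm : (⟨h, hh⟩ : G) • B = B := by
      apply hB.smul_eq_of_mem hbB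
      show h b ∈ B
      rw [hhb]; exact hbB
    rw [← hsm]
    exact ⟨y, hyB, hhy⟩
  set T : Finset (Fin m) := Finset.univ.filter (fun t => ∃ y ∈ B, cls y = t) with hT
  have hBT : ∀ y, y ∈ B ↔ cls y ∈ T := by
    intro y
    constructor
    · intro hy
      rw [hT, Finset.mem_filter]
      exact ⟨Finset.mem_univ _, y, hy, rfl⟩
    · intro hy
      rw [hT, Finset.mem_filter] at hy
      obtain ⟨_, y', hy', hyy'⟩ := hy
      exact key y' hy' y hyy'
  have hbT : cls b ∈ T := (hBT b).mp hbB
  have hBfin : B = ((Finset.univ.filter (fun y => cls y ∈ T) : Finset (Fin n)) : Set (Fin n)) := by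
    ext y
    simp only [Finset.coe_filter, Finset.mem_univ, true_and, Set.mem_ofPred_eq]
    exact hBT y
  have hcard : B.ncard = ∑ t ∈ T, c t := by
    rw [hBfin, Set.ncard_coe_finset]
    have hfib := Finset.card_eq_sum_card_fiberwise
      (s := Finset.univ.filter (fun y => cls y ∈ T)) (f := cls) (t := T)
      (fun x hx => (Finset.mem_filter.mp hx).2)
    rw [hfib]
    apply Finset.sum_congr rfl
    intro t ht
    rw [← hc t]
    congr 1
    ext y
    simp only [Finset.mem_filter, Finset.mem_univ, true_and]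
    constructor
    · rintro ⟨_, h2⟩; exact h2
    · intro h2; exact ⟨by rw [h2]; exact ht, h2⟩
  have hdvd : (∑ t ∈ T, c t) ∣ n := by
    have h := hB.ncard_dvd_card ⟨b, hbB⟩
    rw [hcard, Nat.card_eq_fintype_card, Fintype.card_fin] at h
    exact h
  rcases hnum T hbT hdvd with h1 | h2 | h3
  · left
    have hsub : ∀ y ∈ B, y = b := by
      intro y hy
      have := (hBT y).mp hy
      rw [h1, Finset.mem_singleton] at this
      exact hb y this
    intro y hy z hz
    rw [hsub y hy, hsub z hz]
  · right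
    ext y
    simp only [Set.mem_univ, iff_true]
    rw [hBT y, h2]
    exact Finset.mem_univ _
  · exfalso
    obtain ⟨g, hg, y, hy, hgb, hgy⟩ := hex T h3
    have hsm : (⟨g, hg⟩ : G) • B = B := by
      apply hB.smul_eq_of_mem hbB
      show g b ∈ B
      exact (hBT _).mpr hgb
    apply hgy
    rw [← hBT, ← hsm]
    exact ⟨y, (hBT y).mpr hy, rfl⟩

/-- Primitivity of the permutation group of a table from the labels of the suborbits. -/
theorem prim_of_labels {T : Tabs} (hP : T.P1) (hO : ∀ v < T.N, T.chkO v = true) (m : ℕ)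
    (hm : 0 < m) (hol : ∀ v < T.N, T.ol v < m) (hol0 : T.ol 0 = 0) (horep0 : T.orep 0 = 0)
    (hrep : ∀ c < m, T.orep c < T.N)
    (c : Fin m → ℕ) (hc : ∀ t : Fin m, countLt (fun v => Nat.beq (T.ol v) t.val) T.N = c t)
    (excl : Finset (Fin m) → Prop)
    (hex : ∀ S : Finset (Fin m), excl S → ∃ w : List ℕ, (∀ a ∈ w, a < T.K) ∧ ∃ y < T.N,
      (∃ t ∈ S, t.val = T.ol y) ∧ (∃ t ∈ S, t.val = T.ol (T.followT w 0)) ∧
        ∀ t ∈ S, t.val ≠ T.ol (T.followT w y))
    (hnum : ∀ S : Finset (Fin m), (⟨0, hm⟩ : Fin m) ∈ S → (∑ t ∈ S, c t) ∣ T.N →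
      S = {⟨0, hm⟩} ∨ S = Finset.univ ∨ excl S) :
    IsPreprimitive (L (sigma hP) T.K) (Fin T.N) := by
  set p0 : Fin T.N := ⟨0, hP.hN⟩ with hp0
  let cls : Fin T.N → Fin m := fun y => ⟨T.ol y.val, hol y.val y.2⟩
  have cls_p0 : cls p0 = ⟨0, hm⟩ := Fin.ext hol0
  apply preprimitive_of_classes_excl (L (sigma hP) T.K) p0 cls c excl
  · intro t
    rw [← hc t, ← ncard_fin_eq_countLt, ← Set.ncard_coe_finset]
    congr 1
    ext y
    simp only [Finset.coe_filter, Finset.mem_univ, true_and, Set.mem_ofPred_eq]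
    constructor
    · intro h
      have h1 : T.ol y.val = t.val := congrArg Fin.val h
      rw [h1]
      exact Nat.beq_refl _
    · intro h
      exact Fin.ext (beq_true h)
  · intro y hy
    rw [cls_p0] at hy
    have hy' : T.ol y = 0 := congrArg Fin.val hy
    obtain ⟨h, hh, e⟩ := label_reach hP hO _ y rfl p0 (by rw [hy', horep0])
    rw [← e]
    exact Hs_fix hP h hh
  · intro y
    exact trans0 hP y
  · intro y z hyz
    have h1 : T.ol y = T.ol z := congrArg Fin.val hyz
    obtain ⟨h, hh, e⟩ := label_trans hP hO (fun v hv => hrep _ (hol v hv)) y z h1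
    exact ⟨h, Hs_le hP hh, Hs_fix hP h hh, e⟩
  · intro S hS
    obtain ⟨w, hw, y, hy, ⟨t1, ht1, e1⟩, ⟨t2, ht2, e2⟩, h3⟩ := hex S hS
    refine ⟨ew (sigma hP) w, ew_mem_L _ w T.K hw, ⟨y, hy⟩, ?_, ?_, ?_⟩
    · have : cls ⟨y, hy⟩ = t1 := Fin.ext e1.symm
      rw [this]
      exact ht1
    · have : cls (ew (sigma hP) w p0) = t2 := by
        apply Fin.ext
        show T.ol ((ew (sigma hP) w p0 : Fin T.N) : ℕ) = t2.val
        rw [ew_sigma hP w hw]
        exact e2.symm
      rw [this]
      exact ht2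
    · intro hmem
      apply h3 _ hmem
      show T.ol ((ew (sigma hP) w ⟨y, hy⟩ : Fin T.N) : ℕ) = T.ol (T.followT w y)
      rw [ew_sigma hP w hw]
  · rw [cls_p0]
    exact hnum

end Cfsg.Agent.Lib.Helper19.PM
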