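import Mathlib

/-!
# Matrices over `ZMod p` as lists of rows of natural numbers

`mulL p n A B` is the product modulo `p` of two `n × n` matrices given as lists of rows;
`toMat p n A` is the matrix over `ZMod p`, and `toMat_mulL` says that `toMat` is multiplicative
on well-shaped lists (`wf n A = true`).  `ewL p n D w` is the product of the matrices `D l` along
the word `w`.
-/

set_option autoImplicit false

namespace Cfsg.Agent.Lib.Helper19.MatL

/-- entry of a list matrix -/
def ent (A : List (List ℕ)) (i j : ℕ) : ℕ := (A.getD i []).getD j 0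

/-- `acc + Σ_k r[k] • B[k]` -/
def lin : List ℕ → List (List ℕ) → List ℕ → List ℕ
  | a :: r, b :: B, acc => lin r B (List.zipWith (fun x y => x + a * y) acc b)
  | [], _, acc => acc
  | _ :: _, [], acc => acc

/-- product modulo `p` of list matrices with `n` columns -/
def mulL (p n : ℕ) (A B : List (List ℕ)) : List (List ℕ) :=
  A.map fun r => (lin r B (List.replicate n 0)).map (· % p)

/-- shape check: `n` rows of length `n` -/
def wf (n : ℕ) (A : List (List ℕ)) : Bool := A.length == n && A.all (fun r => r.length == n)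

theorem wf_iff (n : ℕ) (A : List (List ℕ)) :
    wf n A = true ↔ A.length = n ∧ ∀ r ∈ A, r.length = n := by
  unfold wf
  simp

theorem lin_length (n : ℕ) : ∀ (r : List ℕ) (B : List (List ℕ)) (acc : List ℕ),
    (∀ b ∈ B, b.length = n) → acc.length = n → (lin r B acc).length = n
  | [], _, acc, _, hacc => by simpa [lin] using hacc
  | _ :: _, [], acc, _, hacc => by simpa [lin] using hacc
  | a :: r, b :: B, acc, hB, hacc => by
    rw [lin]
    apply lin_length n r B _ (fun b' hb' => hB b' (by simp [hb']))
    rw [List.length_zipWith, hacc, hB b (by simp)]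
    simp

theorem lin_getD (j : ℕ) : ∀ (r : List ℕ) (B : List (List ℕ)) (acc : List ℕ),
    (∀ b ∈ B, j < b.length) → j < acc.length →
    (lin r B acc).getD j 0 =
      acc.getD j 0 + (List.zipWith (fun a (b : List ℕ) => a * b.getD j 0) r B).sum
  | [], _, acc, _, _ => by simp [lin]
  | _ :: _, [], acc, _, _ => by simp [lin]
  | a :: r, b :: B, acc, hB, hacc => by
    have hb : j < b.length := hB b (by simp)
    have h1 : j < (List.zipWith (fun x y => x + a * y) acc b).length := by
      rw [List.length_zipWith]; omega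
    rw [lin, lin_getD j r B _ (fun b' hb' => hB b' (by simp [hb'])) h1]
    rw [List.getD_eq_getElem _ _ h1, List.getElem_zipWith, List.getD_eq_getElem _ _ hacc,
      List.zipWith_cons_cons, List.sum_cons, List.getD_eq_getElem _ _ hb]
    ring

theorem zipWith_sum (g : ℕ → List ℕ → ℕ) : ∀ (r : List ℕ) (B : List (List ℕ)) (m : ℕ),
    r.length = m → B.length = m →
    (List.zipWith g r B).sum = ∑ k ∈ Finset.range m, g (r.getD k 0) (B.getD k [])
  | [], B, m, hr, _ => by
    subst hr
    simp
  | a :: r, [], m, hr, hB => by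
    subst hB
    simp at hr
  | a :: r, b :: B, m, hr, hB => by
    obtain ⟨m', rfl⟩ : ∃ m', m = m' + 1 := ⟨r.length, by simpa using hr.symm⟩
    rw [List.zipWith_cons_cons, List.sum_cons,
      zipWith_sum g r B m' (by simpa using hr) (by simpa using hB), Finset.sum_range_succ']
    simp [add_comm]

theorem getD_map_lt {α β : Type*} (f : α → β) (l : List α) (i : ℕ) (d : β) (hi : i < l.length) :
    (l.map f).getD i d = f l[i] := by
  rw [List.getD_eq_getElem _ _ (by rw [List.length_map]; exact hi), List.getElem_map]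

theorem ent_mulL (p n : ℕ) (A B : List (List ℕ)) (hA : wf n A = true) (hB : wf n B = true)
    (i j : ℕ) (hi : i < n) (hj : j < n) :
    ent (mulL p n A B) i j = (∑ k ∈ Finset.range n, ent A i k * ent B k j) % p := by
  obtain ⟨hA1, hA2⟩ := (wf_iff n A).mp hA
  obtain ⟨hB1, hB2⟩ := (wf_iff n B).mp hB
  have hiA : i < A.length := by omega
  have hr : (A[i]).length = n := hA2 _ (List.getElem_mem hiA)
  have hlen : (lin A[i] B (List.replicate n 0)).length = n :=
    lin_length n _ B _ hB2 (by simp)
  have hrow : (mulL p n A B).getD i [] = (lin A[i] B (List.replicate n 0)).map (· % p) := by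
    unfold mulL
    exact getD_map_lt _ A i [] hiA
  have hAi : A.getD i [] = A[i] := List.getD_eq_getElem _ _ hiA
  unfold ent
  rw [hrow, getD_map_lt _ _ j 0 (by rw [hlen]; exact hj),
    ← List.getD_eq_getElem _ 0 (by rw [hlen]; exact hj),
    lin_getD j _ B _ (fun b hb => by rw [hB2 b hb]; exact hj) (by simp [hj]),
    zipWith_sum _ _ B n hr hB1, hAi]
  simp [hj]

theorem wf_mulL (p n : ℕ) (A B : List (List ℕ)) (hA : wf n A = true) (hB : wf n B = true) :
    wf n (mulL p n A B) = true := by
  obtain ⟨hA1, hA2⟩ := (wf_iff n A).mp hA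
  obtain ⟨hB1, hB2⟩ := (wf_iff n B).mp hB
  rw [wf_iff]
  refine ⟨by unfold mulL; rw [List.length_map, hA1], ?_⟩
  intro r hr
  unfold mulL at hr
  obtain ⟨r0, _, rfl⟩ := List.mem_map.mp hr
  rw [List.length_map]
  exact lin_length n _ B _ hB2 (by simp)

/-- the matrix over `ZMod p` -/
def toMat (p n : ℕ) (A : List (List ℕ)) : Matrix (Fin n) (Fin n) (ZMod p) :=
  fun i j => ((ent A i j : ℕ) : ZMod p)

theorem toMat_mulL (p n : ℕ) (A B : List (List ℕ)) (hA : wf n A = true) (hB : wf n B = true) :
    toMat p n (mulL p n A B) = toMat p n A * toMat p n B := by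
  ext i j
  rw [Matrix.mul_apply]
  unfold toMat
  rw [ent_mulL p n A B hA hB i j i.2 j.2, ZMod.natCast_mod, Nat.cast_sum,
    Fin.sum_univ_eq_sum_range (fun k => ((ent A i k : ℕ) : ZMod p) * ((ent B k j : ℕ) : ZMod p)) n]
  simp [Nat.cast_mul]

/-- the identity matrix -/
def idL (n : ℕ) : List (List ℕ) :=
  (List.range n).map fun i => (List.range n).map fun j => if i = j then 1 else 0

theorem wf_idL (n : ℕ) : wf n (idL n) = true := by
  rw [wf_iff]
  unfold idL
  refine ⟨by simp, ?_⟩
  intro r hr
  obtain ⟨i, _, rfl⟩ := List.mem_map.mp hr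
  simp

theorem ent_idL (n i j : ℕ) (hi : i < n) (hj : j < n) :
    ent (idL n) i j = if i = j then 1 else 0 := by
  have hrow : (idL n).getD i [] = (List.range n).map fun j => if i = j then 1 else 0 := by
    unfold idL
    rw [getD_map_lt _ _ i [] (by simpa using hi), List.getElem_range]
  unfold ent
  rw [hrow, getD_map_lt _ _ j 0 (by simpa using hj), List.getElem_range]

theorem toMat_idL (p n : ℕ) : toMat p n (idL n) = 1 := by
  ext i j
  rw [Matrix.one_apply]
  unfold toMat
  rw [ent_idL n i j i.2 j.2]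
  by_cases h : i = j
  · subst h; simp
  · have : (i : ℕ) ≠ (j : ℕ) := fun h' => h (Fin.ext h')
    simp [h, this]

/-- the product of the matrices `D l` along a word -/
def ewL (p n : ℕ) (D : ℕ → List (List ℕ)) (w : List ℕ) : List (List ℕ) :=
  w.foldr (fun l acc => mulL p n (D l) acc) (idL n)

theorem wf_ewL (p n : ℕ) (D : ℕ → List (List ℕ)) (hD : ∀ l, wf n (D l) = true) (w : List ℕ) :
    wf n (ewL p n D w) = true := by
  induction w with
  | nil => exact wf_idL n
  | cons a t ih => exact wf_mulL p n _ _ (hD a) ih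

theorem toMat_ewL (p n : ℕ) (D : ℕ → List (List ℕ)) (hD : ∀ l, wf n (D l) = true) (w : List ℕ) :
    toMat p n (ewL p n D w) = (w.map fun l => toMat p n (D l)).prod := by
  induction w with
  | nil => exact toMat_idL p n
  | cons a t ih =>
    rw [List.map_cons, List.prod_cons, ← ih]
    exact toMat_mulL p n _ _ (hD a) (wf_ewL p n D hD t)

/-! ### Packed rows: a row is a natural number in base `65536` -/

/-- packing a row -/
def pack : List ℕ → ℕ
  | [] => 0
  | x :: xs => x + 65536 * pack xs

/-- the first `m` digits in base `65536` -/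
def unpack : ℕ → ℕ → List ℕ
  | 0, _ => []
  | m + 1, s => (s % 65536) :: unpack m (s / 65536)

/-- `acc + Σ_k r[k] * X[k]` for packed rows `X[k]` -/
def linP : List ℕ → List ℕ → ℕ → ℕ
  | a :: r, x :: X, acc => linP r X (acc + a * x)
  | [], _, acc => acc
  | _ :: _, [], acc => acc

/-- product modulo `p` of a list matrix with a matrix of packed rows -/
def mulP (p n : ℕ) (A : List (List ℕ)) (XP : List ℕ) : List (List ℕ) :=
  A.map fun r => (unpack n (linP r XP 0)).map (· % p)

theorem unpack_pack : ∀ r : List ℕ, (∀ x ∈ r, x < 65536) → unpack r.length (pack r) = r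
  | [], _ => rfl
  | x :: xs, h => by
    have hx : x < 65536 := h x (by simp)
    have h1 : (x + 65536 * pack xs) % 65536 = x := by
      rw [Nat.add_mul_mod_self_left]; exact Nat.mod_eq_of_lt hx
    have h2 : (x + 65536 * pack xs) / 65536 = pack xs := by
      rw [Nat.add_mul_div_left _ _ (by norm_num : 0 < 65536), Nat.div_eq_of_lt hx, zero_add]
    show (pack (x :: xs) % 65536) :: unpack xs.length (pack (x :: xs) / 65536) = x :: xs
    rw [show pack (x :: xs) = x + 65536 * pack xs from rfl, h1, h2,
      unpack_pack xs (fun y hy => h y (by simp [hy]))]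

theorem pack_zipWith (a : ℕ) : ∀ acc b : List ℕ, acc.length = b.length →
    pack (List.zipWith (fun x y => x + a * y) acc b) = pack acc + a * pack b
  | [], [], _ => rfl
  | [], _ :: _, h => by simp at h
  | _ :: _, [], h => by simp at h
  | x :: acc, y :: b, h => by
    rw [List.zipWith_cons_cons]
    show (x + a * y) + 65536 * pack (List.zipWith (fun x y => x + a * y) acc b) =
      (x + 65536 * pack acc) + a * (y + 65536 * pack b)
    rw [pack_zipWith a acc b (by simpa using h)]
    ring

theorem pack_replicate (n : ℕ) : pack (List.replicate n 0) = 0 := by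
  induction n with
  | zero => rfl
  | succ n ih =>
    rw [List.replicate_succ]
    show 0 + 65536 * pack (List.replicate n 0) = 0
    rw [ih]

theorem linP_eq (n : ℕ) : ∀ (r : List ℕ) (B : List (List ℕ)) (acc : List ℕ),
    (∀ b ∈ B, b.length = n) → acc.length = n →
    linP r (B.map pack) (pack acc) = pack (lin r B acc)
  | [], _, acc, _, _ => by simp [linP, lin]
  | _ :: _, [], acc, _, _ => by simp [linP, lin]
  | a :: r, b :: B, acc, hB, hacc => by
    have hb : b.length = n := hB b (by simp)
    rw [List.map_cons, linP, lin, ← pack_zipWith a acc b (by rw [hacc, hb])]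
    apply linP_eq n r B _ (fun b' hb' => hB b' (by simp [hb']))
    rw [List.length_zipWith, hacc, hb]
    simp

theorem sum_zipWith_le (c j : ℕ) : ∀ (r : List ℕ) (B : List (List ℕ)),
    (∀ a ∈ r, a ≤ c) → (∀ b ∈ B, ∀ x ∈ b, x ≤ c) →
    (List.zipWith (fun a (b : List ℕ) => a * b.getD j 0) r B).sum ≤ r.length * (c * c)
  | [], _, _, _ => by simp
  | _ :: _, [], _, _ => by simp
  | a :: r, b :: B, hr, hB => by
    rw [List.zipWith_cons_cons, List.sum_cons, List.length_cons, Nat.succ_mul]
    have h1 := sum_zipWith_le c j r B (fun a' ha' => hr a' (by simp [ha']))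
      (fun b' hb' => hB b' (by simp [hb']))
    have ha : a ≤ c := hr a (by simp)
    have hbj : b.getD j 0 ≤ c := by
      by_cases hj : j < b.length
      · rw [List.getD_eq_getElem _ _ hj]
        exact hB b (by simp) _ (List.getElem_mem hj)
      · rw [List.getD_eq_default _ _ (by omega)]
        exact Nat.zero_le c
    have h2 : a * b.getD j 0 ≤ c * c := Nat.mul_le_mul ha hbj
    omega

/-- the entries are at most `c` -/
def bd (c : ℕ) (A : List (List ℕ)) : Bool := A.all fun r => r.all fun x => decide (x ≤ c)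

theorem bd_iff (c : ℕ) (A : List (List ℕ)) : bd c A = true ↔ ∀ r ∈ A, ∀ x ∈ r, x ≤ c := by
  unfold bd
  simp

theorem mulP_eq (p n c : ℕ) (A X : List (List ℕ)) (hA : wf n A = true) (hX : wf n X = true)
    (hbA : bd c A = true) (hbX : bd c X = true) (hc : n * (c * c) < 65536) :
    mulP p n A (X.map pack) = mulL p n A X := by
  obtain ⟨hA1, hA2⟩ := (wf_iff n A).mp hA
  obtain ⟨hX1, hX2⟩ := (wf_iff n X).mp hX
  rw [bd_iff] at hbA hbX
  unfold mulP mulL
  apply List.map_congr_left
  intro r hr
  have hlen : (lin r X (List.replicate n 0)).length = n := lin_length n r X _ hX2 (by simp)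
  have h1 : linP r (X.map pack) 0 = pack (lin r X (List.replicate n 0)) := by
    rw [← linP_eq n r X _ hX2 (by simp), pack_replicate]
  have h2 : ∀ y ∈ lin r X (List.replicate n 0), y < 65536 := by
    intro y hy
    obtain ⟨j, hj, rfl⟩ := List.mem_iff_getElem.mp hy
    have hj' : j < n := by rw [hlen] at hj; exact hj
    rw [← List.getD_eq_getElem _ 0 hj,
      lin_getD j r X _ (fun b hb => by rw [hX2 b hb]; exact hj') (by simp [hj'])]
    have h3 := sum_zipWith_le c j r X (hbA r hr) hbX
    rw [hA2 r hr] at h3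
    have h4 : (List.replicate n 0).getD j 0 = 0 := by simp
    omega
  rw [h1]
  have h5 := unpack_pack _ h2
  rw [hlen] at h5
  rw [h5]

theorem bd_mulL (p n : ℕ) (hp : 0 < p) (A X : List (List ℕ)) : bd (p - 1) (mulL p n A X) = true := by
  rw [bd_iff]
  intro r hr x hx
  unfold mulL at hr
  obtain ⟨r0, _, rfl⟩ := List.mem_map.mp hr
  obtain ⟨y, _, rfl⟩ := List.mem_map.mp hx
  have := Nat.mod_lt y hp
  omega

theorem bd_idL (c n : ℕ) (hc : 1 ≤ c) : bd c (idL n) = true := by
  rw [bd_iff]
  intro r hr x hx
  unfold idL at hr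
  obtain ⟨i, _, rfl⟩ := List.mem_map.mp hr
  obtain ⟨j, _, rfl⟩ := List.mem_map.mp hx
  split_ifs <;> omega

/-- the product along a word, computed from the left with packed right factors -/
def ewP (p n : ℕ) (DP : ℕ → List ℕ) (w : List ℕ) : List (List ℕ) :=
  w.foldl (fun acc l => mulP p n acc (DP l)) (idL n)

theorem foldl_mulP (p n : ℕ) (hp : 0 < p) (hn : n * ((p - 1) * (p - 1)) < 65536)
    (D : ℕ → List (List ℕ)) (DP : ℕ → List ℕ)
    (hD : ∀ l, wf n (D l) = true) (hb : ∀ l, bd (p - 1) (D l) = true)
    (hDP : ∀ l, DP l = (D l).map pack) : ∀ (w : List ℕ) (A : List (List ℕ)),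
    wf n A = true → bd (p - 1) A = true →
    toMat p n (w.foldl (fun acc l => mulP p n acc (DP l)) A) =
      toMat p n A * (w.map fun l => toMat p n (D l)).prod
  | [], A, _, _ => by simp
  | a :: t, A, hA, hbA => by
    have h1 : mulP p n A (DP a) = mulL p n A (D a) := by
      rw [hDP a]
      exact mulP_eq p n (p - 1) A (D a) hA (hD a) hbA (hb a) hn
    rw [List.foldl_cons, h1,
      foldl_mulP p n hp hn D DP hD hb hDP t _ (wf_mulL p n _ _ hA (hD a)) (bd_mulL p n hp _ _),
      toMat_mulL p n _ _ hA (hD a), List.map_cons, List.prod_cons, mul_assoc]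

theorem toMat_ewP (p n : ℕ) (hp : 2 ≤ p) (hn : n * ((p - 1) * (p - 1)) < 65536)
    (D : ℕ → List (List ℕ)) (DP : ℕ → List ℕ)
    (hD : ∀ l, wf n (D l) = true) (hb : ∀ l, bd (p - 1) (D l) = true)
    (hDP : ∀ l, DP l = (D l).map pack) (w : List ℕ) :
    toMat p n (ewP p n DP w) = (w.map fun l => toMat p n (D l)).prod := by
  unfold ewP
  rw [foldl_mulP p n (by omega) hn D DP hD hb hDP w _ (wf_idL n) (bd_idL _ n (by omega)),
    toMat_idL, one_mul]

/-! ### The same computation with explicit recursors (fast in the kernel) -/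

/-- `List.map` -/
def mapR {α β : Type} (f : α → β) (l : List α) : List β :=
  List.rec (motive := fun _ => List β) [] (fun a _ ih => f a :: ih) l

theorem mapR_eq {α β : Type} (f : α → β) (l : List α) : mapR f l = l.map f := by
  induction l with
  | nil => rfl
  | cons a t ih =>
    show f a :: mapR f t = (a :: t).map f
    rw [ih, List.map_cons]

/-- `linP` -/
def linR (r : List ℕ) : List ℕ → ℕ → ℕ :=
  List.rec (motive := fun _ => List ℕ → ℕ → ℕ) (fun _ acc => acc)
    (fun a _ ih X acc =>
      List.rec (motive := fun _ => ℕ) acc (fun x X' _ => ih X' (Nat.add acc (Nat.mul a x))) X) r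

theorem linR_eq : ∀ (r X : List ℕ) (acc : ℕ), linR r X acc = linP r X acc
  | [], X, acc => by cases X <;> rfl
  | _ :: _, [], acc => rfl
  | a :: r, x :: X, acc => by
    show linR r X (acc + a * x) = linP r X (acc + a * x)
    exact linR_eq r X _

/-- `unpack` -/
def unpackR (m : ℕ) : ℕ → List ℕ :=
  Nat.rec (motive := fun _ => ℕ → List ℕ) (fun _ => [])
    (fun _ ih s => Nat.mod s 65536 :: ih (Nat.div s 65536)) m

theorem unpackR_eq : ∀ (m s : ℕ), unpackR m s = unpack m s
  | 0, _ => rfl
  | m + 1, s => by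
    show s % 65536 :: unpackR m (s / 65536) = s % 65536 :: unpack m (s / 65536)
    rw [unpackR_eq m]

/-- `mulP` -/
def mulR (p n : ℕ) (A : List (List ℕ)) (XP : List ℕ) : List (List ℕ) :=
  mapR (fun r => mapR (fun x => Nat.mod x p) (unpackR n (linR r XP 0))) A

theorem mulR_eq (p n : ℕ) (A : List (List ℕ)) (XP : List ℕ) : mulR p n A XP = mulP p n A XP := by
  unfold mulR mulP
  rw [mapR_eq]
  apply List.map_congr_left
  intro r _
  rw [mapR_eq, unpackR_eq, linR_eq]
  rfl

/-- `ewP` -/
def ewR (p n : ℕ) (DP : ℕ → List ℕ) (w : List ℕ) : List (List ℕ) :=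
  List.rec (motive := fun _ => List (List ℕ) → List (List ℕ)) (fun acc => acc)
    (fun l _ ih acc => ih (mulR p n acc (DP l))) w (idL n)

theorem ewR_eq (p n : ℕ) (DP : ℕ → List ℕ) (w : List ℕ) : ewR p n DP w = ewP p n DP w := by
  unfold ewR ewP
  generalize idL n = A
  induction w generalizing A with
  | nil => rfl
  | cons a t ih =>
    show List.rec (motive := fun _ => List (List ℕ) → List (List ℕ)) (fun acc => acc)
      (fun l _ ih acc => ih (mulR p n acc (DP l))) t (mulR p n A (DP a)) = _
    rw [ih, mulR_eq, List.foldl_cons]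

theorem toMat_ewR (p n : ℕ) (hp : 2 ≤ p) (hn : n * ((p - 1) * (p - 1)) < 65536)
    (D : ℕ → List (List ℕ)) (DP : ℕ → List ℕ)
    (hD : ∀ l, wf n (D l) = true) (hb : ∀ l, bd (p - 1) (D l) = true)
    (hDP : ∀ l, DP l = (D l).map pack) (w : List ℕ) :
    toMat p n (ewR p n DP w) = (w.map fun l => toMat p n (D l)).prod := by
  rw [ewR_eq]
  exact toMat_ewP p n hp hn D DP hD hb hDP w

end Cfsg.Agent.Lib.Helper19.MatL
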