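import Cfsg.Agent.Lib.Helper19.ONSub
import Cfsg.Agent.Lib.Helper19.L37Mat

/-!
# The subgroup `L₃(7)` of index 2 in `⟨a, …, f⟩` inside the presented O'Nan group

The five involutions `u₁ = ae`, `u₂ = be`, `u₃ = ce`, `u₄ = af`, `u₅ = ad` of the presented
group `P` satisfy the relators of the table `L37M.TA` (checked in the faithful permutation
representation on 122760 points), so they generate a nontrivial quotient `N₀` of `PG TA`; by
`L37M.models` it has order `1876896` and is isomorphic to `PG TA`, and so is `PSL(3, 7)`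
(`L37Mat`).  Since `|⟨a, …, f⟩| = 3753792`, `N₀` has index 2 in it.
-/

set_option autoImplicit false

namespace Cfsg.Agent.Lib.Helper19.ONL3

open Cfsg.Spor
open Cfsg.Agent.Lib.Helper56.TC Cfsg.Agent.Lib.Helper56.TC.Tabs
open Cfsg.Agent.Lib.Helper56.ON122760 (T)
open Cfsg.Agent.Lib.Helper19.PM
open Cfsg.Agent.Lib.Helper19.ONG
open Cfsg.Agent.Lib.Helper19.ONPres

/-- the letters of the table in the presented group -/
noncomputable def oP : ℕ → PresentedGroup R
  | 0 => o .g
  | 1 => o .a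
  | 2 => o .b
  | 3 => o .c
  | 4 => o .d
  | 5 => o .e
  | 6 => o .f
  | 7 => (o .g)⁻¹
  | _ => 1

theorem φ_oP (l : ℕ) (hl : l < 8) : φ (oP l) = σ l := by
  interval_cases l
  · exact φ_g
  · exact φ_a
  · exact φ_b
  · exact φ_c
  · exact φ_d
  · exact φ_e
  · exact φ_f
  · show φ (o .g)⁻¹ = σ 7
    rw [map_inv, φ_g, σ_7]

theorem φ_ew (w : List ℕ) (hw : ∀ a ∈ w, a < 8) : φ (ew oP w) = ew σ w := by
  rw [map_ew]
  exact ew_congr _ _ w (fun a ha => φ_oP a (hw a ha))

/-- the words of the five involutions -/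
def uw : List (List ℕ) := [[1, 5], [2, 5], [3, 5], [1, 6], [1, 4]]

theorem uw_lt : ∀ w ∈ uw, ∀ a ∈ w, a < 8 := by decide

theorem sub_lt : ∀ l, ∀ a ∈ nthL uw l, a < 8 := ONSub.nthL_lt uw 8 uw_lt

/-- the five involutions in the presented group -/
noncomputable def uP (l : ℕ) : PresentedGroup R := ew oP (nthL uw l)

theorem u_chk : allW (ONSub.chkRel (nthL uw))
    (L37M.TA.rels1 ++ [[0, 0], [1, 1], [2, 2], [3, 3], [4, 4]]) = true := by
  decide +kernel

theorem u_ne : Nat.beq (T.followT (nthL uw 0) 1) 1 = false := by decide +kernel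

theorem φ_uP : (fun l => φ (uP l)) = fun l => ew σ (nthL uw l) := by
  funext l
  exact φ_ew _ (sub_lt l)

theorem uP_rel (w : List ℕ) (h : ONSub.chkRel (nthL uw) w = true) : ew uP w = 1 := by
  apply φ_injective
  rw [map_one, map_ew, φ_uP]
  exact ONSub.sub_rel (nthL uw) sub_lt w h

theorem uP_ne : uP 0 ≠ 1 := by
  intro h
  apply ONSub.gel_ne (nthL uw) sub_lt 0 1 (by decide +kernel) u_ne
  apply Subtype.ext
  show ew σ (nthL uw 0) = 1
  rw [← φ_ew _ (sub_lt 0)]
  show φ (uP 0) = 1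
  rw [h, map_one]

theorem oP_mem (l : ℕ) (h1 : 1 ≤ l) (h6 : l ≤ 6) : oP l ∈ HP := by
  interval_cases l
  · exact ⟨ON.a, Subgroup.subset_closure (by simp), rfl⟩
  · exact ⟨ON.b, Subgroup.subset_closure (by simp), rfl⟩
  · exact ⟨ON.c, Subgroup.subset_closure (by simp), rfl⟩
  · exact ⟨ON.d, Subgroup.subset_closure (by simp), rfl⟩
  · exact ⟨ON.e, Subgroup.subset_closure (by simp), rfl⟩
  · exact ⟨ON.f, Subgroup.subset_closure (by simp), rfl⟩

theorem ew_mem_HP (w : List ℕ) (hw : ∀ a ∈ w, 1 ≤ a ∧ a ≤ 6) : ew oP w ∈ HP := by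
  induction w with
  | nil => exact HP.one_mem
  | cons a t ih =>
    rw [ew_cons]
    exact HP.mul_mem (oP_mem a (hw a (by simp)).1 (hw a (by simp)).2)
      (ih (fun b hb => hw b (by simp [hb])))

theorem uw_16 : ∀ w ∈ uw, ∀ a ∈ w, 1 ≤ a ∧ a ≤ 6 := by decide

theorem uP_mem (l : ℕ) : uP l ∈ HP := by
  apply ew_mem_HP
  rw [nthL_eq]
  by_cases hl : l < uw.length
  · rw [List.getD_eq_getElem _ _ hl]
    exact uw_16 _ (List.getElem_mem hl)
  · rw [List.getD_eq_default _ _ (by omega)]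
    intro a ha
    exact absurd ha List.not_mem_nil

theorem card_HP : Nat.card HP = 3753792 := by
  have hidx : HP.index = 122760 := Cfsg.Agent.S1692.result
  have hc := Subgroup.card_mul_index HP
  rw [hidx, card_P] at hc
  exact Nat.eq_of_mul_eq_mul_right (by norm_num : 0 < 122760) (hc.trans (by norm_num))

/-- the homomorphism from the presented group on five involutions -/
theorem rho_ex : ∃ ρ : PG L37M.TA →* PresentedGroup R,
    ρ (pg L37M.TA 0) ≠ 1 ∧ ρ.range ≤ HP := by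
  have hall := (allW_iff _ _).mp u_chk
  obtain ⟨ρ, h1, h2⟩ := lift_ex L37M.TA Cfsg.Agent.Lib.Helper19.L37U5.checked.hrelK
    (fun l hl => by rw [L37Mat.invA l hl]; exact hl) uP
    (fun l hl => by
      rw [L37Mat.invA l hl]
      have hl5 : l < 5 := hl
      have := uP_rel [l, l] (hall _ (by
        apply List.mem_append_right
        interval_cases l <;> simp))
      rwa [ew_cons, ew_cons, ew_nil, mul_one] at this)
    (fun w hw => uP_rel w (hall w (List.mem_append_left _ hw)))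
  refine ⟨ρ, ?_, ?_⟩
  · rw [h1 0 (by rw [L37Mat.K_eq]; norm_num)]
    exact uP_ne
  · rw [h2, Subgroup.closure_le]
    rintro _ ⟨l, -, rfl⟩
    exact uP_mem l

theorem main : ∃ N : Subgroup HP, N.Normal ∧ N.index = 2 ∧
    Nonempty (N ≃* Matrix.ProjectiveSpecialLinearGroup (Fin 3) (ZMod 7)) := by
  obtain ⟨ρ, hρ1, hρ2⟩ := rho_ex
  obtain ⟨θ, hθ⟩ := L37Mat.theta_ex
  have hfin : Finite (PG L37M.TA) := L37M.card_PG.1
  have hcard := L37M.card_PG.2
  -- the image of ρ
  have hntρ : Nontrivial ρ.range :=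
    ⟨⟨⟨ρ (pg L37M.TA 0), ⟨_, rfl⟩⟩, 1, fun h => hρ1 (congrArg Subtype.val h)⟩⟩
  obtain ⟨-, hcρ⟩ := L37M.models ρ.rangeRestrict ρ.rangeRestrict_surjective hntρ
  have hbρ : Function.Bijective ρ.rangeRestrict :=
    ρ.rangeRestrict_surjective.bijective_of_nat_card_le (by rw [hcρ]; exact hcard)
  -- the image of θ
  have hntθ : Nontrivial θ.range :=
    ⟨⟨⟨θ (pg L37M.TA 0), ⟨_, rfl⟩⟩, 1, fun h => hθ (congrArg Subtype.val h)⟩⟩
  obtain ⟨-, hcθ⟩ := L37M.models θ.rangeRestrict θ.rangeRestrict_surjective hntθ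
  have hfinPSL : Finite (Matrix.ProjectiveSpecialLinearGroup (Fin 3) (ZMod 7)) := inferInstance
  have htop : θ.range = ⊤ := by
    apply Subgroup.eq_top_of_le_card
    rw [hcθ]
    exact L37Mat.card_PSL_le
  have hsθ : Function.Surjective θ := MonoidHom.range_eq_top.mp htop
  have hcPSL : Nat.card (Matrix.ProjectiveSpecialLinearGroup (Fin 3) (ZMod 7)) = 1876896 := by
    rw [← hcθ, htop, Subgroup.card_top]
  have hbθ : Function.Bijective θ :=
    hsθ.bijective_of_nat_card_le (by rw [hcPSL]; exact hcard)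
  -- the subgroup
  refine ⟨ρ.range.subgroupOf HP, ?_, ?_, ?_⟩
  · apply Subgroup.normal_of_index_eq_two
    have hc := Subgroup.card_mul_index (ρ.range.subgroupOf HP)
    rw [Nat.card_congr (Subgroup.subgroupOfEquivOfLe hρ2).toEquiv, hcρ, card_HP] at hc
    omega
  · have hc := Subgroup.card_mul_index (ρ.range.subgroupOf HP)
    rw [Nat.card_congr (Subgroup.subgroupOfEquivOfLe hρ2).toEquiv, hcρ, card_HP] at hc
    omega
  · exact ⟨(Subgroup.subgroupOfEquivOfLe hρ2).trans
      ((MulEquiv.ofBijective ρ.rangeRestrict hbρ).symm.trans (MulEquiv.ofBijective θ hbθ))⟩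

end Cfsg.Agent.Lib.Helper19.ONL3
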