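import Mathlib

/-!
# The O'Nan relations: the quotient by the normal closure of `bcdg` is trivial

A group generated by elements `a, …, f, g` satisfying the relations of the presentation of the
O'Nan group and `b c d g = 1` is trivial (all the generators are trivial).
-/

set_option autoImplicit false

namespace Cfsg.Agent.Lib.Helper19.ONQ

variable {Q : Type*} [Group Q]

theorem inv_of_sq {x : Q} (h : x * x = 1) : x⁻¹ = x := inv_eq_of_mul_eq_one_right h

theorem cancel_of_sq {x : Q} (h : x * x = 1) (y : Q) : x * (x * y) = y := by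
  rw [← mul_assoc, h, one_mul]

/-- two involutions with `(xy)^2 = 1` and `(xy)^3 = 1` are equal -/
theorem eq_of_two_three {x y : Q} (_hx : x * x = 1) (hy : y * y = 1)
    (h2 : x * y * (x * y) = 1) (h3 : x * y * (x * y) * (x * y) = 1) : x = y := by
  rw [h2, one_mul] at h3
  have : x = y⁻¹ := eq_inv_of_mul_eq_one_left h3
  rw [this, inv_of_sq hy]

theorem trivial (a b c d e f g G : Q)
    (ha : a * a = 1) (hb : b * b = 1) (hc : c * c = 1) (hd : d * d = 1) (he : e * e = 1)
    (hf : f * f = 1) (hgG : g * G = 1)
    (h5 : b * c * d * g = 1)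
    (hbc : b * c * (b * c) * (b * c) = 1)
    (hab : a * b * (a * b) * (a * b) = 1)
    (hac : a * c * (a * c) = 1)
    (hae : a * e * (a * e) = 1)
    (hef : e * f * (e * f) * (e * f) = 1)
    (hde : d * e * (d * e) * (d * e) = 1)
    (r17 : c * G * d * G * d * c * d * g * d * g = 1)
    (r15 : a * f * G * G = 1)
    (r16 : a * f * d * c * d * c * d * c * d * c = 1)
    (r20 : g * b * c * g * c * b * g * b * c * g * c = 1) :
    a = 1 ∧ b = 1 ∧ c = 1 ∧ d = 1 ∧ e = 1 ∧ f = 1 ∧ g = 1 ∧ G = 1 := by
  have hbi := inv_of_sq hb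
  have hci := inv_of_sq hc
  have hdi := inv_of_sq hd
  -- g = d c b and G = b c d
  have hg : g = d * c * b := by
    have h := eq_inv_of_mul_eq_one_right h5
    rw [h, mul_inv_rev, mul_inv_rev, hbi, hci, hdi, mul_assoc]
  have hG : G = b * c * d := by
    have h : G = g⁻¹ := (inv_eq_of_mul_eq_one_right hgG).symm
    rw [h, hg, mul_inv_rev, mul_inv_rev, hbi, hci, hdi, mul_assoc]
  subst hg
  subst hG
  -- (c b)^4 = 1
  have h4 : c * (b * (c * (b * (c * (b * (c * b)))))) = 1 := by
    simpa only [mul_assoc, cancel_of_sq hd, cancel_of_sq hc, cancel_of_sq hb, hd, hc, hb,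
      mul_one, one_mul] using r17
  -- (c b)^3 = 1
  have h3 : c * (b * (c * (b * (c * b)))) = 1 := by
    have h : c * (b * c * (b * c) * (b * c)) * c = 1 := by rw [hbc, mul_one, hc]
    simpa only [mul_assoc, cancel_of_sq hc, hc, mul_one] using h
  have hcb : c * b = 1 := by
    have h : c * (b * (c * (b * (c * (b * (c * b)))))) = c * (b * (c * (b * (c * b)))) * (c * b) := by
      simp only [mul_assoc]
    rw [h, h3, one_mul] at h4
    exact h4
  have hcb' : c = b := by
    have : c = b⁻¹ := eq_inv_of_mul_eq_one_left hcb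
    rw [this, hbi]
  subst hcb'
  -- a = c
  have hac' : a = c := eq_of_two_three ha hc hac hab
  subst hac'
  -- g = d
  -- f = a
  have hfa : a * f = 1 := by
    simpa only [mul_assoc, cancel_of_sq hd, cancel_of_sq ha, hd, ha, mul_one, one_mul] using r15
  have hfa' : f = a := by
    have : f = a⁻¹ := eq_inv_of_mul_eq_one_right hfa
    rw [this, inv_of_sq ha]
  subst hfa'
  -- e = f
  have hef2 : e * f * (e * f) = 1 := by
    have h : f * (f * e * (f * e)) * f = 1 := by rw [hae, mul_one, hf]
    simpa only [mul_assoc, cancel_of_sq hf, hf, mul_one] using h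
  have hef' : e = f := eq_of_two_three he hf hef2 hef
  subst hef'
  -- d = e
  have hd4 : d * e * (d * e) * (d * e) * (d * e) = 1 := by
    simpa only [mul_assoc, cancel_of_sq he, he, mul_one, one_mul] using r16
  have hde1 : d * e = 1 := by
    rw [hde, one_mul] at hd4
    exact hd4
  have hde' : d = e := by
    have : d = e⁻¹ := eq_inv_of_mul_eq_one_left hde1
    rw [this, inv_of_sq he]
  subst hde'
  -- all the generators are equal to d, and r20 gives d = 1
  have h1 : d = 1 := by
    simpa only [mul_assoc, cancel_of_sq hd, hd, mul_one, one_mul] using r20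
  subst h1
  simp
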