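import Cfsg.Agent.Lib.Helper56.ON122760.Cert
import Cfsg.Agent.Lib.Helper56.TCSimple
import Cfsg.Agent.Lib.Helper19.TCOrbP
import Cfsg.Agent.Lib.Helper19.ONData
import Cfsg.Agent.Lib.Helper19.ONQuot

/-!
# The O'Nan group as a permutation group on 122760 points

The group `G` generated by the permutations `σ l` of the final names of helper56's coset
enumeration certificate for the presented O'Nan group (index 122760 of `⟨a, …, f⟩`):
* `card_ge`: `|G| ≥ 460815505920` (stabiliser chain `122760 · 58653 · 64`);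
* `prim`: `G` is primitive (rank 5, subdegrees 1, 58653, 52136, 5586, 6384);
* `simple`: `G` is simple if its order is `460815505920`;
* `eq_one_of_fix`: then an element of `G` fixing the names 0, 1 and 29 is trivial.
-/

set_option autoImplicit false

namespace Cfsg.Agent.Lib.Helper19.ONG

open Cfsg.Agent.Lib.Helper56.TC Cfsg.Agent.Lib.Helper56.TC.Tabs
open Cfsg.Agent.Lib.Helper56.ON122760 (T cert cnt_0 cnt_1 cnt_2 cnt_3 cnt_4)
open Cfsg.Agent.Lib.Helper19.Cox (L L_mono mem_L)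
open Cfsg.Agent.Lib.Helper19.TCO
open Equiv MulAction

theorem hP : T.P1 := cert.p1

theorem hO : ∀ v < T.N, T.chkO v = true := fun v hv => by
  have h := cert.hV v hv
  unfold chkV at h
  simp only [Bool.and_eq_true] at h
  exact h.2.2

theorem N_eq : T.N = 122760 := rfl

theorem K_eq : T.K = 8 := rfl

/-- the generators: `σ 0 = g`, `σ 1, …, σ 6 = a, …, f`, `σ 7 = g⁻¹` -/
noncomputable def σ (l : ℕ) : Perm (Fin T.N) := sigma hP l

/-- the O'Nan group as a permutation group on 122760 points -/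
noncomputable def G : Subgroup (Perm (Fin T.N)) := L σ 8

/-- the name `0` -/
def p0 : Fin T.N := ⟨0, hP.hN⟩

/-- the name `1` -/
def p1 : Fin T.N := ⟨1, by rw [N_eq]; norm_num⟩

/-- the name `29` -/
def p2 : Fin T.N := ⟨29, by rw [N_eq]; norm_num⟩

theorem hrel : ∀ w ∈ T.rels1, ew σ w = 1 := fun w hw => sigma_rel hP w hw

theorem σ_sq (l : ℕ) (h1 : 1 ≤ l) (h6 : l ≤ 6) : σ l * σ l = 1 := by
  have hl : l < T.K := by rw [K_eq]; omega
  have h := sigma_inv hP l hl
  have hinv : T.inv l = l := by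
    interval_cases l <;> rfl
  rw [hinv] at h
  show sigma hP l * sigma hP l = 1
  nth_rewrite 1 [h]
  exact inv_mul_cancel _

theorem σ_7 : σ 7 = (σ 0)⁻¹ := sigma_inv hP 0 (by rw [K_eq]; norm_num)

theorem σ_mem (l : ℕ) : σ l ∈ G := by
  by_cases hl : l < 8
  · exact mem_L σ hl
  · have : σ l = 1 := sigma_of_ge hP l (by rw [K_eq]; omega)
    rw [this]
    exact one_mem _

theorem ew_mem_G (w : List ℕ) (hw : ∀ a ∈ w, a < 8) : ew σ w ∈ G := ew_mem_L σ w 8 hw

/-! ### The lower bound -/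

/-- the stabiliser of the name 0 -/
noncomputable def K1 : Subgroup (Perm (Fin T.N)) := G ⊓ stabilizer (Perm (Fin T.N)) p0

/-- the stabiliser of the names 0 and 1 -/
noncomputable def K2 : Subgroup (Perm (Fin T.N)) := K1 ⊓ stabilizer (Perm (Fin T.N)) p1

/-- the stabiliser of the names 0, 1 and 29 -/
noncomputable def K3 : Subgroup (Perm (Fin T.N)) := K2 ⊓ stabilizer (Perm (Fin T.N)) p2

theorem Hs_le_G : Hs hP ≤ G := Hs_le hP

theorem Hs_le_K1 : Hs hP ≤ K1 := by
  intro h hh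
  refine Subgroup.mem_inf.mpr ⟨Hs_le_G hh, ?_⟩
  rw [mem_stabilizer_iff, Perm.smul_def]
  exact Hs_fix hP h hh

theorem low0 : 122760 * Nat.card K1 ≤ Nat.card G := by
  have h := orbit_lower_set G p0 Set.univ (fun y _ => trans0 hP y)
  rw [Set.ncard_univ, Nat.card_eq_fintype_card, Fintype.card_fin] at h
  exact h

theorem low1 : 58653 * Nat.card K2 ≤ Nat.card K1 := by
  have h := orbit_lower_set K1 p1 {v : Fin T.N | Nat.beq (T.ol v) 1 = true} (by
    intro y hy
    have hy' : T.ol y = 1 := beq_true hy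
    obtain ⟨h, hh, e⟩ := label_reach hP hO _ y rfl p1 (by rw [hy']; rfl)
    exact ⟨h, Hs_le_K1 hh, e⟩)
  have e : ({v : Fin T.N | Nat.beq (T.ol v) 1 = true} : Set (Fin T.N)).ncard = 58653 :=
    (ncard_fin_eq_countLt T.N (fun v => Nat.beq (T.ol v) 1)).trans cnt_1
  rw [e] at h
  exact h

theorem w2_mem (j : ℕ) (hj : j < 3) : ew σ (nthL w2 j) ∈ K2 := by
  have hmem : nthL w2 j ∈ w2 := by
    rw [nthL_eq]
    have hlt : j < w2.length := hj
    rw [List.getD_eq_getElem _ _ hlt]
    exact List.getElem_mem hlt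
  have hlt : ∀ a ∈ nthL w2 j, a < T.K := w2_lt _ hmem
  have hfix := (allW_iff _ _).mp w2_fix _ hmem
  simp only [Bool.and_eq_true] at hfix
  refine Subgroup.mem_inf.mpr ⟨Subgroup.mem_inf.mpr ⟨ew_mem_G _ hlt, ?_⟩, ?_⟩
  · exact ew_sigma_mem_stab hP _ hlt p0 (beq_true hfix.1)
  · exact ew_sigma_mem_stab hP _ hlt p1 (beq_true hfix.2)

theorem low2 : 64 * Nat.card K3 ≤ Nat.card K2 := by
  have hlt : ∀ j < R2.ng, ∀ a ∈ R2.gw j, a < T.K := by
    intro j hj a ha
    have hmem : nthL w2 j ∈ w2 := by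
      rw [nthL_eq]
      have hlt : j < w2.length := hj
      rw [List.getD_eq_getElem _ _ hlt]
      exact List.getElem_mem hlt
    exact w2_lt _ hmem a ha
  exact orb_lower hP (R := R2) (ω := 29) ((allLt_iff _ _).mp R2_ok) hlt K2
    (fun j hj => w2_mem j hj) p2 rfl

theorem arith_ge (cG c1 c2 c3 : ℕ) (h0 : 122760 * c1 ≤ cG) (h1 : 58653 * c2 ≤ c1)
    (h2 : 64 * c3 ≤ c2) (h3 : 0 < c3) : 460815505920 ≤ cG := by omega

/-- the order of `G` is at least the order of the O'Nan group -/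
theorem card_ge : 460815505920 ≤ Nat.card G :=
  arith_ge _ _ _ _ low0 low1 low2 Nat.card_pos

theorem arith_K3 (cG c1 c2 c3 : ℕ) (h0 : 122760 * c1 ≤ cG) (h1 : 58653 * c2 ≤ c1)
    (h2 : 64 * c3 ≤ c2) (h : cG = 460815505920) : c3 ≤ 1 := by omega

theorem arith_K1 (cG c1 c2 c3 : ℕ) (h0 : 122760 * c1 ≤ cG) (h1 : 58653 * c2 ≤ c1)
    (h2 : 64 * c3 ≤ c2) (h3 : 0 < c3) (h : cG = 460815505920) : c1 = 3753792 := by omega

theorem K3_eq_bot (hcard : Nat.card G = 460815505920) : K3 = ⊥ :=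
  Subgroup.eq_bot_of_card_le _ (arith_K3 _ _ _ _ low0 low1 low2 hcard)

theorem card_K1 (hcard : Nat.card G = 460815505920) : Nat.card K1 = 3753792 :=
  arith_K1 _ _ _ _ low0 low1 low2 Nat.card_pos hcard

/-- an element of `G` fixing the names 0, 1 and 29 is trivial -/
theorem eq_one_of_fix (hcard : Nat.card G = 460815505920) (g : Perm (Fin T.N)) (hg : g ∈ G)
    (h0 : g p0 = p0) (h1 : g p1 = p1) (h2 : g p2 = p2) : g = 1 := by
  have hmem : g ∈ K3 := by
    refine Subgroup.mem_inf.mpr ⟨Subgroup.mem_inf.mpr ⟨Subgroup.mem_inf.mpr ⟨hg, ?_⟩, ?_⟩, ?_⟩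
    · rw [mem_stabilizer_iff, Perm.smul_def]; exact h0
    · rw [mem_stabilizer_iff, Perm.smul_def]; exact h1
    · rw [mem_stabilizer_iff, Perm.smul_def]; exact h2
  rw [K3_eq_bot hcard] at hmem
  exact Subgroup.mem_bot.mp hmem

/-! ### Primitivity -/

/-- the class of a name: the label of its orbit under `⟨a, …, f⟩` -/
noncomputable def cls (y : Fin T.N) : Fin 5 := ⟨T.ol y.val, ol_lt y.val y.2⟩

theorem cls_count (t : ℕ) (ht : t < 5) (n : ℕ)
    (hn : countLt (fun v => Nat.beq (T.ol v) t) T.N = n) :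
    (Finset.univ.filter (fun y : Fin T.N => cls y = ⟨t, ht⟩)).card = n := by
  rw [← hn, ← ncard_fin_eq_countLt, ← Set.ncard_coe_finset]
  congr 1
  ext y
  simp only [Finset.coe_filter, Finset.mem_univ, true_and, Set.mem_ofPred_eq]
  constructor
  · intro h
    have h1 : T.ol y.val = t := congrArg Fin.val h
    rw [h1]
    exact Nat.beq_refl t
  · intro h
    exact Fin.ext (beq_true h)

theorem cls_p0 : cls p0 = 0 := Fin.ext ol_zero

theorem hrep : ∀ v < T.N, T.orep (T.ol v) < T.N := fun v hv => orep_lt _ (ol_lt v hv)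

instance prim : IsPreprimitive G (Fin T.N) := by
  apply BSGS.preprimitive_of_classes G p0 cls (![1, 58653, 52136, 5586, 6384] : Fin 5 → ℕ)
  · intro t
    fin_cases t
    · exact cls_count 0 (by norm_num) 1 cnt_0
    · exact cls_count 1 (by norm_num) 58653 cnt_1
    · exact cls_count 2 (by norm_num) 52136 cnt_2
    · exact cls_count 3 (by norm_num) 5586 cnt_3
    · exact cls_count 4 (by norm_num) 6384 cnt_4
  · intro y hy
    rw [cls_p0] at hy
    have hy' : T.ol y = 0 := congrArg Fin.val hy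
    obtain ⟨h, hh, e⟩ := label_reach hP hO _ y rfl p0 (by rw [hy']; rfl)
    rw [← e]
    exact Hs_fix hP h hh
  · intro y
    exact trans0 hP y
  · intro y z hyz
    have h1 : T.ol y = T.ol z := congrArg Fin.val hyz
    obtain ⟨h, hh, e⟩ := label_trans hP hO hrep y z h1
    exact ⟨h, Hs_le_G hh, Hs_fix hP h hh, e⟩
  · rw [cls_p0]
    show ∀ T' : Finset (Fin 5), (0 : Fin 5) ∈ T' →
      (∑ t ∈ T', (![1, 58653, 52136, 5586, 6384] : Fin 5 → ℕ) t) ∣ 122760 →
        T' = {0} ∨ T' = Finset.univ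
    decide

/-! ### Simplicity -/

/-- the generators as elements of `G` -/
noncomputable def S (l : ℕ) : G := ⟨σ l, σ_mem l⟩

theorem val_ew_S (w : List ℕ) : ((ew S w : G) : Perm (Fin T.N)) = ew σ w := by
  induction w with
  | nil => rfl
  | cons a t ih => rw [ew_cons, ew_cons, Subgroup.coe_mul, ih]; rfl

theorem ncl : ∀ N : Subgroup G, N.Normal → (∀ x : G, x ^ 5 = 1 → x ∈ N) → N = ⊤ := by
  intro N hN h5
  -- the quotient
  let q : ℕ → G ⧸ N := fun l => (QuotientGroup.mk (S l) : G ⧸ N)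
  have hqw : ∀ w : List ℕ, ew q w = (QuotientGroup.mk (ew S w) : G ⧸ N) := by
    intro w
    induction w with
    | nil => rfl
    | cons a t ih => rw [ew_cons, ew_cons, ih]; rfl
  have hq : ∀ w : List ℕ, ew σ w = 1 → ew q w = 1 := by
    intro w hw
    have h1 : ew S w = 1 := Subtype.ext (by rw [val_ew_S, hw]; rfl)
    rw [hqw, h1]
    rfl
  have hr : ∀ w ∈ T.rels1, ew q w = 1 := fun w hw => hq w (hrel w hw)
  have hsq : ∀ l, 1 ≤ l → l ≤ 6 → q l * q l = 1 := by
    intro l h1 h6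
    have h := hq [l, l] (by rw [ew_cons, ew_cons, ew_nil, mul_one]; exact σ_sq l h1 h6)
    rwa [ew_cons, ew_cons, ew_nil, mul_one] at h
  have hgG : q 0 * q 7 = 1 := by
    have h := hq [0, 7] (by rw [ew_cons, ew_cons, ew_nil, mul_one, σ_7]; exact mul_inv_cancel _)
    rwa [ew_cons, ew_cons, ew_nil, mul_one] at h
  -- `b c d g` has order dividing 5
  have hy : (S 2 * S 3 * S 4 * S 0) ^ 5 = 1 := by
    apply Subtype.ext
    have h := hrel [2, 3, 4, 0, 2, 3, 4, 0, 2, 3, 4, 0, 2, 3, 4, 0, 2, 3, 4, 0] (by decide)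
    rw [Subgroup.coe_pow, Subgroup.coe_mul, Subgroup.coe_mul, Subgroup.coe_mul, Subgroup.coe_one]
    show (σ 2 * σ 3 * σ 4 * σ 0) ^ 5 = 1
    simpa [ew, pow_succ, mul_assoc] using h
  have h5' : q 2 * q 3 * q 4 * q 0 = 1 := by
    have hmem := h5 _ hy
    have h := (QuotientGroup.eq_one_iff (N := N) (S 2 * S 3 * S 4 * S 0)).mpr hmem
    simpa only [QuotientGroup.mk_mul] using h
  have key := ONQ.trivial (q 1) (q 2) (q 3) (q 4) (q 5) (q 6) (q 0) (q 7)
    (hsq 1 (by norm_num) (by norm_num)) (hsq 2 (by norm_num) (by norm_num))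
    (hsq 3 (by norm_num) (by norm_num)) (hsq 4 (by norm_num) (by norm_num))
    (hsq 5 (by norm_num) (by norm_num)) (hsq 6 (by norm_num) (by norm_num)) hgG h5'
    (by simpa [ew, mul_assoc] using hr [2, 3, 2, 3, 2, 3] (by decide))
    (by simpa [ew, mul_assoc] using hr [1, 2, 1, 2, 1, 2] (by decide))
    (by simpa [ew, mul_assoc] using hr [1, 3, 1, 3] (by decide))
    (by simpa [ew, mul_assoc] using hr [1, 5, 1, 5] (by decide))
    (by simpa [ew, mul_assoc] using hr [5, 6, 5, 6, 5, 6] (by decide))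
    (by simpa [ew, mul_assoc] using hr [4, 5, 4, 5, 4, 5] (by decide))
    (by simpa [ew, mul_assoc] using hr [3, 7, 4, 7, 4, 3, 4, 0, 4, 0] (by decide))
    (by simpa [ew, mul_assoc] using hr [1, 6, 7, 7] (by decide))
    (by simpa [ew, mul_assoc] using hr [1, 6, 4, 3, 4, 3, 4, 3, 4, 3] (by decide))
    (by simpa [ew, mul_assoc] using hr [0, 2, 3, 0, 3, 2, 0, 2, 3, 0, 3] (by decide))
  obtain ⟨k1, k2, k3, k4, k5, k6, k0, k7⟩ := key
  have hSN : ∀ l, l < 8 → S l ∈ N := by
    intro l hl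
    apply (QuotientGroup.eq_one_iff _).mp
    show q l = 1
    interval_cases l
    · exact k0
    · exact k1
    · exact k2
    · exact k3
    · exact k4
    · exact k5
    · exact k6
    · exact k7
  rw [eq_top_iff]
  rintro ⟨g, hg⟩ _
  have : ∀ g (hg : g ∈ L σ 8), (⟨g, hg⟩ : G) ∈ N := by
    intro g hg
    unfold L at hg
    induction hg using Subgroup.closure_induction with
    | mem y hy =>
      obtain ⟨i, hi, rfl⟩ := hy
      exact hSN i hi
    | one => exact N.one_mem
    | mul a b ha hb iha ihb => exact N.mul_mem iha ihb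
    | inv a ha iha => exact N.inv_mem iha
  exact this g hg

/-- `G` is simple, provided its order is that of the O'Nan group. -/
theorem simple (hcard : Nat.card G = 460815505920) : IsSimpleGroup G := by
  apply simple_of_primitive_pow G 5 1 (by norm_num)
  · rw [Nat.card_eq_fintype_card, Fintype.card_fin]
    show 5 ^ 1 ∣ 122760
    norm_num
  · rw [hcard]; norm_num
  · exact ncl
  · rw [← Finite.one_lt_card_iff_nontrivial, hcard]
    norm_num

end Cfsg.Agent.Lib.Helper19.ONG
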