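import Cfsg.Agent.Lib.Helper19.ONU2D

set_option autoImplicit false
set_option maxRecDepth 1000000

namespace Cfsg.Agent.Lib.Helper19.ONU2

open Cfsg.Agent.Lib.Helper56.TC Cfsg.Agent.Lib.Helper56.TC.Tabs

theorem cN_0 : allRange (fun x => forceN T.chkName x) 0 3 = true := by decide +kernel
theorem cF_0 : allRange (fun x => forceN T.chkFinName x) 0 3 = true := by decide +kernel

end Cfsg.Agent.Lib.Helper19.ONU2
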