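import Cfsg.Agent.Lib.Helper56.TCCoxG

/-!
# The homomorphism from a Coxeter-style presented group to the permutations of the final names

The lifting step of `Cfsg.Agent.Lib.Helper56.TC.cox_mainG` (helper56), stated on its own: for a
table satisfying part 1 of a coset enumeration certificate whose relators are those of the
presentation, the generators `x` map to the permutations `sigma (gens.idxOf x)`.
-/

set_option autoImplicit false

namespace Cfsg.Agent.Lib.Helper19.TCH

open Cfsg.Spor
open Cfsg.Agent.Lib.Helper56.TC

variable {α : Type} [DecidableEq α]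

theorem cox_homG (edges : List (α × ℕ × α)) (extra : List (FreeGroup α))
    (T : Tabs) (gens ninv : List α) (hP : T.P1)
    (hK : T.K = gens.length + ninv.length)
    (hall : ∀ x : α, x ∈ gens)
    (hnode2 : ∀ x ∈ coxNodes edges, x ∉ ninv)
    (hinvT : ∀ x : α, T.inv (gens.idxOf x) = codeOf gens ninv (x, false))
    (hrels : T.rels1 = coxWG edges gens ++ extra.map (wordOfG gens ninv)) :
    ∃ φ : PresentedGroup (coxRelators edges ∪ {r | r ∈ extra}) →* Equiv.Perm (Fin T.N),
      ∀ x : α, φ (PresentedGroup.of x) = Tabs.sigma hP (gens.idxOf x) := by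
  set rels := coxRelators edges ∪ {r | r ∈ extra} with hrelsdef
  have hidx : ∀ x, gens.idxOf x < gens.length := fun x => List.idxOf_lt_length_of_mem (hall x)
  have hidxK : ∀ x, gens.idxOf x < T.K := fun x => by rw [hK]; have := hidx x; omega
  have hcodeF : ∀ x, x ∉ ninv → codeOf gens ninv (x, false) = gens.idxOf x := by
    intro x hx
    unfold codeOf
    simp only [Bool.false_eq_true, if_false]
    rw [if_neg hx]
  have hcodeT : ∀ x, codeOf gens ninv (x, true) = gens.idxOf x := by
    intro x
    unfold codeOf
    simp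
  let σ' : α → Equiv.Perm (Fin T.N) := fun x => Tabs.sigma hP (gens.idxOf x)
  have hσ : ∀ x b, Tabs.sigma hP (codeOf gens ninv (x, b)) =
      if b then σ' x else (σ' x)⁻¹ := by
    intro x b
    cases b
    · simp only [Bool.false_eq_true, if_false]
      rw [← hinvT x]
      exact Tabs.sigma_inv hP _ (hidxK x)
    · simp only [if_true]
      rw [hcodeT x]
  have hσinv : ∀ x, x ∉ ninv → (σ' x)⁻¹ = σ' x := by
    intro x hx
    have h1 := hσ x false
    simp only [Bool.false_eq_true, if_false] at h1
    rw [hcodeF x hx] at h1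
    exact h1.symm
  have hliftw : ∀ r, FreeGroup.lift σ' r = ew (Tabs.sigma hP) (wordOfG gens ninv r) :=
    lift_eq_ewG (codeOf gens ninv) σ' (Tabs.sigma hP) hσ
  have hpair : ∀ x y, x ∈ coxNodes edges → y ∈ coxNodes edges →
      gens.idxOf x < gens.idxOf y → (σ' x * σ' y) ^ coxLabel edges x y = 1 := by
    intro x y hxn hyn hlt
    have hmem : (List.replicate (coxLabel edges x y) [gens.idxOf x, gens.idxOf y]).flatten ∈
        T.rels1 := by
      rw [hrels]
      exact List.mem_append_left _
        ((mem_coxWG edges gens _).mpr ⟨x, hall x, y, hall y, ⟨hxn, hyn, hlt⟩, rfl⟩)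
    have h1 := Tabs.sigma_rel hP _ hmem
    rw [ew_rep, ew_cons, ew_cons, ew_nil, mul_one] at h1
    exact h1
  have hσrel : ∀ r ∈ rels, FreeGroup.lift σ' r = 1 := by
    rintro r (⟨x, hx, y, hy, rfl⟩ | hr)
    · rw [map_pow, map_mul, FreeGroup.lift_apply_of, FreeGroup.lift_apply_of]
      rcases lt_trichotomy (gens.idxOf x) (gens.idxOf y) with hlt | heq | hgt
      · exact hpair x y hx hy hlt
      · have hxy : x = y := (List.idxOf_inj (hall x)).mp heq
        subst hxy
        have h1 : coxLabel edges x x = 1 := by unfold coxLabel; rw [if_pos rfl]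
        rw [h1, pow_one]
        have h2 := hσinv x (hnode2 x hx)
        calc σ' x * σ' x = (σ' x)⁻¹ * σ' x := by rw [h2]
          _ = 1 := inv_mul_cancel _
      · rw [coxLabel_comm]
        exact pow_comm_eq_one _ _ _ (hpair y x hy hx hgt)
    · rw [hliftw]
      exact Tabs.sigma_rel hP _ (by
        rw [hrels]; exact List.mem_append_right _ (List.mem_map_of_mem hr))
  exact ⟨PresentedGroup.toGroup hσrel, fun x => PresentedGroup.toGroup.of hσrel⟩

end Cfsg.Agent.Lib.Helper19.TCH
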