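import Cfsg.Prelude.Def_Spor_ON
import Cfsg.Agent.S1692
import Cfsg.Agent.Lib.Helper19.ONPerm
import Cfsg.Agent.Lib.Helper19.TCHomG
import Cfsg.Agent.Lib.Helper19.TCUp
import Cfsg.Agent.Lib.Helper19.ONU1
import Cfsg.Agent.Lib.Helper19.ONU2
import Cfsg.Agent.Lib.Helper19.ONU3
import Cfsg.Agent.Lib.Helper19.ONU4
import Cfsg.Agent.Lib.Helper19.ONU5
import Cfsg.Agent.Lib.Helper19.ONU6

/-!
# The presented O'Nan group is simple of order 460815505920

* upper bound: `⟨a, …, f⟩` has order at most `3753792` (chain `a, b, c, e, f, d` with indices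
  `2, 3, 4, 2, 3, 26068`), and index `122760` (helper56, `S1692`);
* lower bound and simplicity: the permutation group `ONG.G` on the 122760 cosets.
-/

set_option autoImplicit false

namespace Cfsg.Agent.Lib.Helper19.ONPres

open Cfsg.Spor
open Cfsg.Agent.Lib.Helper56.TC (ew ew_cons ew_nil ew_append)
open Cfsg.Agent.Lib.Helper19.Cox (L L_mono mem_L L_zero)
open Cfsg.Agent.Lib.Helper19.ONG
open Cfsg.Agent.Lib.Helper19.TCU (tc_step_upper)
open Cfsg.Agent.Lib.Helper56.ON122760 (T)

/-- the relators of the presentation -/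
abbrev R : Set (FreeGroup ON.Gen) := coxRelators ON.edges ∪ {r | r ∈ ON.extra}

/-- abbreviation for the generators of the presented group -/
noncomputable abbrev o (x : ON.Gen) : PresentedGroup R := PresentedGroup.of x

theorem node (x : ON.Gen) (hx : x ≠ .g) : x ∈ coxNodes ON.edges := by
  cases x <;> first | exact absurd rfl hx | decide

theorem pairP (x y : ON.Gen) (hx : x ≠ .g) (hy : y ≠ .g) (m : ℕ)
    (hm : coxLabel ON.edges x y = m) : (o x * o y) ^ m = 1 := by
  have hmem : (FreeGroup.of x * FreeGroup.of y) ^ m ∈ R :=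
    Or.inl ⟨x, node x hx, y, node y hy, by rw [hm]⟩
  have h := PresentedGroup.one_of_mem hmem
  rw [map_pow, map_mul] at h
  exact h

theorem extraP (r : FreeGroup ON.Gen) (hr : r ∈ ON.extra) : PresentedGroup.mk R r = 1 :=
  PresentedGroup.one_of_mem (Or.inr hr)

theorem o_sq (x : ON.Gen) (hx : x ≠ .g) : o x * o x = 1 := by
  have h := pairP x x hx hx 1 (by unfold coxLabel; rw [if_pos rfl])
  rwa [pow_one] at h

/-! ### The subgroup generated by a, …, f -/

/-- the generators a, …, f in the order a, b, c, e, f, d -/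
def cn : ℕ → ON.Gen
  | 0 => .a
  | 1 => .b
  | 2 => .c
  | 3 => .e
  | 4 => .f
  | _ => .d

theorem cn_ne (i : ℕ) : cn i ≠ .g := by
  unfold cn
  split <;> simp

/-- the generators a, b, c, e, f, d of the presented group (trivial beyond the sixth) -/
noncomputable def v (i : ℕ) : PresentedGroup R := if i < 6 then o (cn i) else 1

theorem v_lt (i : ℕ) (hi : i < 6) : v i = o (cn i) := if_pos hi

theorem hv (i : ℕ) : v i * v i = 1 := by
  unfold v
  split_ifs
  · exact o_sq _ (cn_ne i)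
  · exact one_mul 1

theorem pairV (i j : ℕ) (hi : i < 6) (hj : j < 6) (m : ℕ)
    (hm : coxLabel ON.edges (cn i) (cn j) = m) : (v i * v j) ^ m = 1 := by
  rw [v_lt i hi, v_lt j hj]
  exact pairP _ _ (cn_ne i) (cn_ne j) m hm

theorem relV_0 : ew v [0, 1, 0, 1, 0, 1] = 1 := by
  have h := pairV 0 1 (by norm_num) (by norm_num) 3 (by decide)
  simpa [ew, pow_succ, mul_assoc] using h

theorem relV_1 : ew v [0, 2, 0, 2] = 1 := by
  have h := pairV 0 2 (by norm_num) (by norm_num) 2 (by decide)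
  simpa [ew, pow_succ, mul_assoc] using h

theorem relV_2 : ew v [0, 3, 0, 3] = 1 := by
  have h := pairV 0 3 (by norm_num) (by norm_num) 2 (by decide)
  simpa [ew, pow_succ, mul_assoc] using h

theorem relV_3 : ew v [0, 4, 0, 4] = 1 := by
  have h := pairV 0 4 (by norm_num) (by norm_num) 2 (by decide)
  simpa [ew, pow_succ, mul_assoc] using h

theorem relV_4 : ew v [0, 5, 0, 5] = 1 := by
  have h := pairV 0 5 (by norm_num) (by norm_num) 2 (by decide)
  simpa [ew, pow_succ, mul_assoc] using h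

theorem relV_5 : ew v [1, 2, 1, 2, 1, 2] = 1 := by
  have h := pairV 1 2 (by norm_num) (by norm_num) 3 (by decide)
  simpa [ew, pow_succ, mul_assoc] using h

theorem relV_6 : ew v [1, 3, 1, 3] = 1 := by
  have h := pairV 1 3 (by norm_num) (by norm_num) 2 (by decide)
  simpa [ew, pow_succ, mul_assoc] using h

theorem relV_7 : ew v [1, 4, 1, 4] = 1 := by
  have h := pairV 1 4 (by norm_num) (by norm_num) 2 (by decide)
  simpa [ew, pow_succ, mul_assoc] using h

theorem relV_8 : ew v [1, 5, 1, 5] = 1 := by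
  have h := pairV 1 5 (by norm_num) (by norm_num) 2 (by decide)
  simpa [ew, pow_succ, mul_assoc] using h

theorem relV_9 : ew v [2, 3, 2, 3] = 1 := by
  have h := pairV 2 3 (by norm_num) (by norm_num) 2 (by decide)
  simpa [ew, pow_succ, mul_assoc] using h

theorem relV_10 : ew v [2, 4, 2, 4] = 1 := by
  have h := pairV 2 4 (by norm_num) (by norm_num) 2 (by decide)
  simpa [ew, pow_succ, mul_assoc] using h

theorem relV_11 : ew v [2, 5, 2, 5, 2, 5, 2, 5, 2, 5, 2, 5, 2, 5, 2, 5] = 1 := by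
  have h := pairV 2 5 (by norm_num) (by norm_num) 8 (by decide)
  simpa [ew, pow_succ, mul_assoc] using h

theorem relV_12 : ew v [3, 4, 3, 4, 3, 4] = 1 := by
  have h := pairV 3 4 (by norm_num) (by norm_num) 3 (by decide)
  simpa [ew, pow_succ, mul_assoc] using h

theorem relV_13 : ew v [3, 5, 3, 5, 3, 5] = 1 := by
  have h := pairV 3 5 (by norm_num) (by norm_num) 3 (by decide)
  simpa [ew, pow_succ, mul_assoc] using h

theorem relV_14 : ew v [4, 5, 4, 5] = 1 := by
  have h := pairV 4 5 (by norm_num) (by norm_num) 2 (by decide)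
  simpa [ew, pow_succ, mul_assoc] using h

theorem relV_15 : ew v [0, 4, 5, 2, 5, 2, 5, 2, 5, 2] = 1 := by
  have h := extraP ((ON.a * ON.f) * (((ON.c * ON.d) ^ 4)⁻¹)) (by simp [ON.extra])
  rw [map_mul, map_mul, map_inv, map_pow, map_mul] at h
  have h' : o .a * o .f * ((o .c * o .d) ^ 4)⁻¹ = 1 := h
  have hc : (o .c)⁻¹ = o .c := inv_eq_of_mul_eq_one_right (o_sq .c (by decide))
  have hd : (o .d)⁻¹ = o .d := inv_eq_of_mul_eq_one_right (o_sq .d (by decide))
  have h2 : ((o .c * o .d) ^ 4)⁻¹ = (o .d * o .c) ^ 4 := by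
    rw [← inv_pow, mul_inv_rev, hc, hd]
  rw [h2] at h'
  have e : ew v [0, 4, 5, 2, 5, 2, 5, 2, 5, 2] = o .a * o .f * (o .d * o .c) ^ 4 := by
    simp [ew, v, cn, pow_succ, mul_assoc]
  rw [e]
  exact h'

/-- the relators of the chain -/
def RV : List (List ℕ) :=
  [[0, 1, 0, 1, 0, 1],
   [0, 2, 0, 2],
   [0, 3, 0, 3],
   [0, 4, 0, 4],
   [0, 5, 0, 5],
   [1, 2, 1, 2, 1, 2],
   [1, 3, 1, 3],
   [1, 4, 1, 4],
   [1, 5, 1, 5],
   [2, 3, 2, 3],
   [2, 4, 2, 4],
   [2, 5, 2, 5, 2, 5, 2, 5, 2, 5, 2, 5, 2, 5, 2, 5],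
   [3, 4, 3, 4, 3, 4],
   [3, 5, 3, 5, 3, 5],
   [4, 5, 4, 5],
   [0, 4, 5, 2, 5, 2, 5, 2, 5, 2]]

theorem relV : ∀ w ∈ RV, ew v w = 1 := by
  intro w hw
  simp only [RV, List.mem_cons, List.not_mem_nil, or_false] at hw
  rcases hw with rfl | rfl | rfl | rfl | rfl | rfl | rfl | rfl | rfl | rfl | rfl | rfl | rfl | rfl | rfl | rfl
  · exact relV_0
  · exact relV_1
  · exact relV_2
  · exact relV_3
  · exact relV_4
  · exact relV_5
  · exact relV_6
  · exact relV_7
  · exact relV_8
  · exact relV_9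
  · exact relV_10
  · exact relV_11
  · exact relV_12
  · exact relV_13
  · exact relV_14
  · exact relV_15

theorem subU1 : ∀ w ∈ ONU1.T.rels1, w ∈ RV := by decide +kernel
theorem subU2 : ∀ w ∈ ONU2.T.rels1, w ∈ RV := by decide +kernel
theorem subU3 : ∀ w ∈ ONU3.T.rels1, w ∈ RV := by decide +kernel
theorem subU4 : ∀ w ∈ ONU4.T.rels1, w ∈ RV := by decide +kernel
theorem subU5 : ∀ w ∈ ONU5.T.rels1, w ∈ RV := by decide +kernel
theorem subU6 : ∀ w ∈ ONU6.T.rels1, w ∈ RV := by decide +kernel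

theorem upperH : Finite (L v 6) ∧ Nat.card (L v 6) ≤ 3753792 := by
  have : Finite (L v 0) := by rw [L_zero]; infer_instance
  have h0 : Nat.card (L v 0) = 1 := by rw [L_zero]; exact Subgroup.card_bot
  obtain ⟨f1, h1⟩ : Finite (L v 1) ∧ Nat.card (L v 1) ≤ ONU1.T.N * Nat.card (L v 0) :=
    tc_step_upper v ONU1.T 0 ONU1.checked hv (fun w hw => relV w (subU1 w hw))
  have := f1
  obtain ⟨f2, h2⟩ : Finite (L v 2) ∧ Nat.card (L v 2) ≤ ONU2.T.N * Nat.card (L v 1) :=
    tc_step_upper v ONU2.T 1 ONU2.checked hv (fun w hw => relV w (subU2 w hw))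
  have := f2
  obtain ⟨f3, h3⟩ : Finite (L v 3) ∧ Nat.card (L v 3) ≤ ONU3.T.N * Nat.card (L v 2) :=
    tc_step_upper v ONU3.T 2 ONU3.checked hv (fun w hw => relV w (subU3 w hw))
  have := f3
  obtain ⟨f4, h4⟩ : Finite (L v 4) ∧ Nat.card (L v 4) ≤ ONU4.T.N * Nat.card (L v 3) :=
    tc_step_upper v ONU4.T 3 ONU4.checked hv (fun w hw => relV w (subU4 w hw))
  have := f4
  obtain ⟨f5, h5⟩ : Finite (L v 5) ∧ Nat.card (L v 5) ≤ ONU5.T.N * Nat.card (L v 4) :=
    tc_step_upper v ONU5.T 4 ONU5.checked hv (fun w hw => relV w (subU5 w hw))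
  have := f5
  obtain ⟨f6, h6⟩ : Finite (L v 6) ∧ Nat.card (L v 6) ≤ ONU6.T.N * Nat.card (L v 5) :=
    tc_step_upper v ONU6.T 5 ONU6.checked hv (fun w hw => relV w (subU6 w hw))
  have e1 : ONU1.T.N = 2 := rfl
  have e2 : ONU2.T.N = 3 := rfl
  have e3 : ONU3.T.N = 4 := rfl
  have e4 : ONU4.T.N = 2 := rfl
  have e5 : ONU5.T.N = 3 := rfl
  have e6 : ONU6.T.N = 26068 := rfl
  rw [e1, h0] at h1
  rw [e2] at h2
  rw [e3] at h3
  rw [e4] at h4
  rw [e5] at h5
  rw [e6] at h6
  exact ⟨f6, by omega⟩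

/-- the subgroup generated by the images of a, …, f -/
def HP : Subgroup (PresentedGroup R) :=
  (Subgroup.closure ({ON.a, ON.b, ON.c, ON.d, ON.e, ON.f} : Set (FreeGroup ON.Gen))).map
    (PresentedGroup.mk R)

theorem HP_eq : HP = L v 6 := by
  unfold HP L
  rw [MonoidHom.map_closure]
  congr 1
  ext y
  constructor
  · rintro ⟨x, hx, rfl⟩
    simp only [Set.mem_insert_iff, Set.mem_singleton_iff] at hx
    rcases hx with rfl | rfl | rfl | rfl | rfl | rfl
    · exact ⟨0, by norm_num, rfl⟩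
    · exact ⟨1, by norm_num, rfl⟩
    · exact ⟨2, by norm_num, rfl⟩
    · exact ⟨5, by norm_num, rfl⟩
    · exact ⟨3, by norm_num, rfl⟩
    · exact ⟨4, by norm_num, rfl⟩
  · rintro ⟨i, hi, rfl⟩
    have hi' : i < 6 := hi
    rw [v_lt i hi']
    interval_cases i
    · exact ⟨ON.a, by simp, rfl⟩
    · exact ⟨ON.b, by simp, rfl⟩
    · exact ⟨ON.c, by simp, rfl⟩
    · exact ⟨ON.e, by simp, rfl⟩
    · exact ⟨ON.f, by simp, rfl⟩
    · exact ⟨ON.d, by simp, rfl⟩

theorem upperHP : Finite HP ∧ Nat.card HP ≤ 3753792 := by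
  rw [HP_eq]
  exact upperH

theorem arith (c h : ℕ) (h1 : h * 122760 = c) (h2 : h ≤ 3753792) : c ≤ 460815505920 := by
  omega

theorem card_le : Finite (PresentedGroup R) ∧ Nat.card (PresentedGroup R) ≤ 460815505920 := by
  obtain ⟨hfin, hle⟩ := upperHP
  have hidx : HP.index = 122760 := Cfsg.Agent.S1692.result
  have hc := Subgroup.card_mul_index HP
  rw [hidx] at hc
  have hpos : 0 < Nat.card HP := Nat.card_pos
  have h1 : Nat.card (PresentedGroup R) ≠ 0 := by
    rw [← hc]
    exact Nat.mul_ne_zero hpos.ne' (by norm_num)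
  exact ⟨Nat.finite_of_card_ne_zero h1, arith _ _ hc hle⟩

/-! ### The homomorphism onto the permutation group -/

theorem hom_ex : ∃ φ : PresentedGroup R →* Equiv.Perm (Fin T.N),
    ∀ x : ON.Gen, φ (PresentedGroup.of x) =
      Cfsg.Agent.Lib.Helper56.TC.Tabs.sigma hP
        (([ON.Gen.g, ON.Gen.a, ON.Gen.b, ON.Gen.c, ON.Gen.d, ON.Gen.e, ON.Gen.f] : List ON.Gen).idxOf x) :=
  Cfsg.Agent.Lib.Helper19.TCH.cox_homG ON.edges ON.extra T
    [ON.Gen.g, ON.Gen.a, ON.Gen.b, ON.Gen.c, ON.Gen.d, ON.Gen.e, ON.Gen.f] [ON.Gen.g] hP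
    (by decide +kernel) (by intro x; cases x <;> decide) (by decide)
    (by intro x; cases x <;> decide +kernel) (by decide +kernel)

/-- the homomorphism from the presented group to the permutations of the 122760 names -/
noncomputable def φ : PresentedGroup R →* Equiv.Perm (Fin T.N) := Classical.choose hom_ex

theorem φ_g : φ (o .g) = σ 0 := Classical.choose_spec hom_ex .g
theorem φ_a : φ (o .a) = σ 1 := Classical.choose_spec hom_ex .a
theorem φ_b : φ (o .b) = σ 2 := Classical.choose_spec hom_ex .b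
theorem φ_c : φ (o .c) = σ 3 := Classical.choose_spec hom_ex .c
theorem φ_d : φ (o .d) = σ 4 := Classical.choose_spec hom_ex .d
theorem φ_e : φ (o .e) = σ 5 := Classical.choose_spec hom_ex .e
theorem φ_f : φ (o .f) = σ 6 := Classical.choose_spec hom_ex .f

theorem range_φ : φ.range = G := by
  rw [MonoidHom.range_eq_map, ← PresentedGroup.closure_range_of R, MonoidHom.map_closure]
  apply le_antisymm
  · rw [Subgroup.closure_le]
    rintro _ ⟨_, ⟨x, rfl⟩, rfl⟩
    cases x
    · rw [φ_g]; exact σ_mem 0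
    · rw [φ_a]; exact σ_mem 1
    · rw [φ_b]; exact σ_mem 2
    · rw [φ_c]; exact σ_mem 3
    · rw [φ_d]; exact σ_mem 4
    · rw [φ_e]; exact σ_mem 5
    · rw [φ_f]; exact σ_mem 6
  · unfold G L
    rw [Subgroup.closure_le]
    rintro _ ⟨i, hi, rfl⟩
    have hi' : i < 8 := hi
    have hmem : ∀ x : ON.Gen, φ (o x) ∈ Subgroup.closure (⇑φ '' Set.range PresentedGroup.of) :=
      fun x => Subgroup.subset_closure ⟨o x, ⟨x, rfl⟩, rfl⟩
    interval_cases i
    · rw [← φ_g]; exact hmem _
    · rw [← φ_a]; exact hmem _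
    · rw [← φ_b]; exact hmem _
    · rw [← φ_c]; exact hmem _
    · rw [← φ_d]; exact hmem _
    · rw [← φ_e]; exact hmem _
    · rw [← φ_f]; exact hmem _
    · rw [σ_7, ← φ_g]; exact Subgroup.inv_mem _ (hmem _)

theorem bij : Function.Bijective φ.rangeRestrict := by
  obtain ⟨hfin, hle⟩ := card_le
  have := hfin
  have hsurj : Function.Surjective φ.rangeRestrict := φ.rangeRestrict_surjective
  have hlow : 460815505920 ≤ Nat.card φ.range := by
    rw [range_φ]
    exact card_ge
  exact hsurj.bijective_of_nat_card_le (le_trans hle hlow)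

theorem φ_injective : Function.Injective φ := by
  intro x y hxy
  apply bij.1
  exact Subtype.ext hxy

/-- the presented O'Nan group is isomorphic to the permutation group on 122760 points -/
noncomputable def eP : PresentedGroup R ≃* G :=
  (MulEquiv.ofBijective φ.rangeRestrict bij).trans (MulEquiv.subgroupCongr range_φ)

theorem card_P : Nat.card (PresentedGroup R) = 460815505920 := by
  obtain ⟨hfin, hle⟩ := card_le
  have h1 : Nat.card (PresentedGroup R) = Nat.card G := Nat.card_congr eP.toEquiv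
  have h2 := card_ge
  omega

theorem card_G : Nat.card G = 460815505920 := by
  rw [← Nat.card_congr eP.toEquiv]
  exact card_P

theorem simple_G : IsSimpleGroup G := simple card_G

/-- The presented O'Nan group is simple of order `460815505920`. -/
theorem main : IsSimpleGroup (PresentedGroup R) ∧ Nat.card (PresentedGroup R) = 460815505920 := by
  have := simple_G
  exact ⟨eP.isSimpleGroup, card_P⟩

end Cfsg.Agent.Lib.Helper19.ONPres
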