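import Cfsg.Agent.Lib.Helper19.ONPres
import Cfsg.Agent.Lib.Helper19.J1Model
import Cfsg.Agent.Lib.Helper19.M11Model

/-!
# Subgroups `J1` and `M11` of the O'Nan group on 122760 points

Words `x, y` (resp. `a, b`) in the generators of `ONG.G` satisfying the presentation of `J1`
(resp. `M11`) on its standard generators: each relator, rewritten in the letters of the O'Nan
group, fixes the names 0, 1, 29, hence is trivial (`ONG.eq_one_of_fix`).  The subgroup they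
generate is a nontrivial quotient of the presented group, hence simple of the right order
(`J1M.models`, `M11M.models`).
-/

set_option autoImplicit false
set_option maxRecDepth 1000000

namespace Cfsg.Agent.Lib.Helper19.ONSub

open Cfsg.Agent.Lib.Helper56.TC Cfsg.Agent.Lib.Helper56.TC.Tabs
open Cfsg.Agent.Lib.Helper56.ON122760 (T)
open Cfsg.Agent.Lib.Helper19.PM
open Cfsg.Agent.Lib.Helper19.ONG
open Equiv MulAction

theorem hcard : Nat.card G = 460815505920 := Cfsg.Agent.Lib.Helper19.ONPres.card_G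

theorem nthL_lt (ws : List (List ℕ)) (k : ℕ) (h : ∀ w ∈ ws, ∀ a ∈ w, a < k) (l : ℕ) :
    ∀ a ∈ nthL ws l, a < k := by
  rw [nthL_eq]
  by_cases hl : l < ws.length
  · rw [List.getD_eq_getElem _ _ hl]
    exact h _ (List.getElem_mem hl)
  · rw [List.getD_eq_default _ _ (by omega)]
    intro a ha
    exact absurd ha List.not_mem_nil

/-- the check of a relator `w` in letters `l ↦ sub l`: it fixes the names 0, 1, 29 -/
noncomputable def chkRel (sub : ℕ → List ℕ) (w : List ℕ) : Bool :=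
  Nat.beq (T.followT (w.flatMap sub) 0) 0 && (Nat.beq (T.followT (w.flatMap sub) 1) 1 &&
    Nat.beq (T.followT (w.flatMap sub) 29) 29)

theorem sub_rel (sub : ℕ → List ℕ) (hsub : ∀ l, ∀ a ∈ sub l, a < 8) (w : List ℕ)
    (h : chkRel sub w = true) : ew (fun l => ew σ (sub l)) w = 1 := by
  rw [ew_flatMap]
  have hlt : ∀ a ∈ w.flatMap sub, a < 8 := by
    intro a ha
    obtain ⟨l, _, hl⟩ := List.mem_flatMap.mp ha
    exact hsub l a hl
  unfold chkRel at h
  simp only [Bool.and_eq_true] at h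
  apply eq_one_of_fix hcard _ (ew_mem_G _ hlt)
  · apply Fin.ext
    exact (ew_sigma hP _ hlt p0).trans (beq_true h.1)
  · apply Fin.ext
    exact (ew_sigma hP _ hlt p1).trans (beq_true h.2.1)
  · apply Fin.ext
    exact (ew_sigma hP _ hlt p2).trans (beq_true h.2.2)

/-- the elements of `G` given by the words `sub l` -/
noncomputable def gel (sub : ℕ → List ℕ) (hsub : ∀ l, ∀ a ∈ sub l, a < 8) (l : ℕ) : G :=
  ⟨ew σ (sub l), ew_mem_G _ (hsub l)⟩

theorem val_ew_gel (sub : ℕ → List ℕ) (hsub : ∀ l, ∀ a ∈ sub l, a < 8) (w : List ℕ) :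
    ((ew (gel sub hsub) w : G) : Perm (Fin T.N)) = ew (fun l => ew σ (sub l)) w := by
  induction w with
  | nil => rfl
  | cons a t ih => rw [ew_cons, ew_cons, Subgroup.coe_mul, ih]; rfl

theorem gel_rel (sub : ℕ → List ℕ) (hsub : ∀ l, ∀ a ∈ sub l, a < 8) (w : List ℕ)
    (h : chkRel sub w = true) : ew (gel sub hsub) w = 1 := by
  apply Subtype.ext
  rw [val_ew_gel, sub_rel sub hsub w h]
  rfl

theorem gel_ne (sub : ℕ → List ℕ) (hsub : ∀ l, ∀ a ∈ sub l, a < 8) (l v : ℕ) (hv : v < T.N)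
    (h : Nat.beq (T.followT (sub l) v) v = false) : gel sub hsub l ≠ 1 := by
  intro h1
  have h2 : ew σ (sub l) = 1 := congrArg Subtype.val h1
  have h3 : (((ew σ (sub l)) ⟨v, hv⟩ : Fin T.N) : ℕ) = T.followT (sub l) v :=
    ew_sigma hP (sub l) (hsub l) ⟨v, hv⟩
  rw [h2] at h3
  have h4 : T.followT (sub l) v = v := h3.symm
  rw [h4, Nat.beq_refl] at h
  exact Bool.noConfusion h

/-- A subgroup of `G` which is a nontrivial quotient of the presented group of a table with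
three letters `x, y, y⁻¹`. -/
theorem sub_ex (TA : Tabs) (hK : TA.K = 3) (hi0 : TA.inv 0 = 0) (hi1 : TA.inv 1 = 2)
    (hi2 : TA.inv 2 = 1) (hrelK : ∀ w ∈ TA.rels1, ∀ a ∈ w, a < TA.K)
    (sub : ℕ → List ℕ) (hsub : ∀ l, ∀ a ∈ sub l, a < 8)
    (hchk : allW (chkRel sub) (TA.rels1 ++ [[0, 0], [1, 2], [2, 1]]) = true)
    (v : ℕ) (hv : v < T.N) (hne : Nat.beq (T.followT (sub 0) v) v = false) :
    ∃ (H : Subgroup G) (g : PG TA →* H), Function.Surjective g ∧ Nontrivial H := by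
  have hall := (allW_iff _ _).mp hchk
  have hrel : ∀ w ∈ TA.rels1, ew (gel sub hsub) w = 1 := fun w hw =>
    gel_rel sub hsub w (hall w (List.mem_append_left _ hw))
  have h00 := gel_rel sub hsub [0, 0] (hall _ (by simp))
  have h12 := gel_rel sub hsub [1, 2] (hall _ (by simp))
  have h21 := gel_rel sub hsub [2, 1] (hall _ (by simp))
  simp only [ew_cons, ew_nil, mul_one] at h00 h12 h21
  have hinvK : ∀ l < TA.K, TA.inv l < TA.K := by
    intro l hl
    rw [hK] at hl ⊢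
    interval_cases l
    · rw [hi0]; norm_num
    · rw [hi1]; norm_num
    · rw [hi2]; norm_num
  obtain ⟨φ, h1, -⟩ := lift_ex TA hrelK hinvK (gel sub hsub)
    (by
      intro l hl
      rw [hK] at hl
      interval_cases l
      · rw [hi0]; exact h00
      · rw [hi1]; exact h12
      · rw [hi2]; exact h21)
    hrel
  refine ⟨φ.range, φ.rangeRestrict, φ.rangeRestrict_surjective, ?_⟩
  refine ⟨⟨⟨gel sub hsub 0, ⟨pg TA 0, h1 0 (by rw [hK]; norm_num)⟩⟩, 1, ?_⟩⟩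
  intro h
  exact gel_ne sub hsub 0 v hv hne (congrArg Subtype.val h)

/-! ### `J1` -/

/-- the words for `x`, `y`, `y⁻¹` -/
def jw : List (List ℕ) :=
  [[1],
   [2, 3, 4, 6, 3, 0, 6, 5, 4, 5, 3, 2, 0, 3, 2, 4, 0, 3, 4, 3, 6, 1, 2, 6, 3, 4, 3, 7, 4, 2, 3, 7, 2, 3, 5, 4, 5, 6, 7, 3, 6, 4, 3, 2],
   [2, 3, 4, 6, 3, 0, 6, 5, 4, 5, 3, 2, 0, 3, 2, 4, 0, 3, 4, 3, 6, 2, 1, 6, 3, 4, 3, 7, 4, 2, 3, 7, 2, 3, 5, 4, 5, 6, 7, 3, 6, 4, 3, 2]]

theorem jw_lt : ∀ w ∈ jw, ∀ a ∈ w, a < 8 := by decide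

theorem j_chk : allW (chkRel (nthL jw)) (J1M.TA.rels1 ++ [[0, 0], [1, 2], [2, 1]]) = true := by
  decide +kernel

theorem j_ne : Nat.beq (T.followT (nthL jw 0) 2) 2 = false := by decide +kernel

/-- `G` has a subgroup which is simple of order `175560`. -/
theorem exists_J1 : ∃ H : Subgroup G, IsSimpleGroup H ∧ Nat.card H = 175560 := by
  obtain ⟨H, g, hg, hnt⟩ := sub_ex J1M.TA rfl rfl rfl rfl
    Cfsg.Agent.Lib.Helper19.J1A.certU.parts.2.2.2.1 (nthL jw) (nthL_lt jw 8 jw_lt) j_chk 2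
    (by decide +kernel) j_ne
  exact ⟨H, J1M.models g hg hnt⟩

/-! ### `M11` -/

/-- the words for `a`, `b`, `b⁻¹` -/
def mw : List (List ℕ) :=
  [[1],
   [1, 2, 3, 1, 5, 7, 2, 6, 4, 5, 6, 0, 1, 5, 4, 3, 4, 3, 2, 3, 1, 5, 4, 5, 7, 6, 1, 5, 2, 6, 5, 1, 0, 1, 5, 6, 2, 5, 1, 6, 0, 5, 4, 5, 1, 3, 2, 3, 4, 3, 4, 5, 1, 7, 6, 5, 4, 6, 2, 0, 5, 1, 3, 2, 1],
   [1, 2, 3, 1, 5, 7, 2, 6, 4, 5, 6, 0, 1, 5, 4, 3, 4, 3, 2, 3, 1, 5, 4, 5, 7, 6, 1, 5, 2, 6, 5, 1, 7, 1, 5, 6, 2, 5, 1, 6, 0, 5, 4, 5, 1, 3, 2, 3, 4, 3, 4, 5, 1, 7, 6, 5, 4, 6, 2, 0, 5, 1, 3, 2, 1]]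

theorem mw_lt : ∀ w ∈ mw, ∀ a ∈ w, a < 8 := by decide

theorem m_chk : allW (chkRel (nthL mw)) (M11M.TA.rels1 ++ [[0, 0], [1, 2], [2, 1]]) = true := by
  decide +kernel

theorem m_ne : Nat.beq (T.followT (nthL mw 0) 2) 2 = false := by decide +kernel

/-- `G` has a subgroup which is simple of order `7920`. -/
theorem exists_M11 : ∃ H : Subgroup G, IsSimpleGroup H ∧ Nat.card H = 7920 := by
  obtain ⟨H, g, hg, hnt⟩ := sub_ex M11M.TA rfl rfl rfl rfl
    Cfsg.Agent.Lib.Helper19.M11A.certU.parts.2.2.2.1 (nthL mw) (nthL_lt mw 8 mw_lt) m_chk 2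
    (by decide +kernel) m_ne
  exact ⟨H, M11M.models g hg hnt⟩

/-! ### The point stabiliser -/

theorem stab_card : Nat.card (stabilizer (↥G) p0) = 3753792 := by
  have h1 := Subgroup.card_mul_index (stabilizer (↥G) p0)
  have h2 : (stabilizer (↥G) p0).index = Nat.card (Fin T.N) :=
    index_stabilizer_of_transitive (↥G) p0
  rw [h2, Nat.card_fin, hcard] at h1
  have h3 : Nat.card (stabilizer (↥G) p0) * 122760 = 460815505920 := h1
  omega

/-- The O'Nan group on 122760 points: simple of order `460815505920`, transitive, with point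
stabiliser of order `3753792` and with simple subgroups of orders `175560` and `7920`. -/
theorem main_ON : (IsSimpleGroup G ∧ Nat.card G = 460815505920) ∧
    IsPretransitive (↥G) (Fin T.N) ∧ Nat.card (stabilizer (↥G) p0) = 3753792 ∧
    (∃ K : Subgroup G, IsSimpleGroup K ∧ Nat.card K = 175560) ∧
    (∃ K : Subgroup G, IsSimpleGroup K ∧ Nat.card K = 7920) :=
  ⟨⟨Cfsg.Agent.Lib.Helper19.ONPres.simple_G, hcard⟩, inferInstance, stab_card, exists_J1,
    exists_M11⟩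

end Cfsg.Agent.Lib.Helper19.ONSub
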