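import Cfsg.Agent.Lib.Helper19.ONU6D

set_option autoImplicit false
set_option maxRecDepth 1000000

namespace Cfsg.Agent.Lib.Helper19.ONU6

open Cfsg.Agent.Lib.Helper56.TC Cfsg.Agent.Lib.Helper56.TC.Tabs

theorem cN_21600 : allRange (fun x => forceN T.chkName x) 21600 300 = true := by decide +kernel
theorem cN_21900 : allRange (fun x => forceN T.chkName x) 21900 300 = true := by decide +kernel
theorem cN_22200 : allRange (fun x => forceN T.chkName x) 22200 300 = true := by decide +kernel
theorem cN_22500 : allRange (fun x => forceN T.chkName x) 22500 300 = true := by decide +kernel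
theorem cN_22800 : allRange (fun x => forceN T.chkName x) 22800 300 = true := by decide +kernel
theorem cN_23100 : allRange (fun x => forceN T.chkName x) 23100 300 = true := by decide +kernel

end Cfsg.Agent.Lib.Helper19.ONU6
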