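import Cfsg.Agent.Lib.Helper19.ONU6D

set_option autoImplicit false
set_option maxRecDepth 1000000

namespace Cfsg.Agent.Lib.Helper19.ONU6

open Cfsg.Agent.Lib.Helper56.TC Cfsg.Agent.Lib.Helper56.TC.Tabs

theorem cN_10800 : allRange (fun x => forceN T.chkName x) 10800 300 = true := by decide +kernel
theorem cN_11100 : allRange (fun x => forceN T.chkName x) 11100 300 = true := by decide +kernel
theorem cN_11400 : allRange (fun x => forceN T.chkName x) 11400 300 = true := by decide +kernel
theorem cN_11700 : allRange (fun x => forceN T.chkName x) 11700 300 = true := by decide +kernel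
theorem cN_12000 : allRange (fun x => forceN T.chkName x) 12000 300 = true := by decide +kernel
theorem cN_12300 : allRange (fun x => forceN T.chkName x) 12300 300 = true := by decide +kernel

end Cfsg.Agent.Lib.Helper19.ONU6
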