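import Cfsg.Agent.Lib.Helper19.ONU6D

set_option autoImplicit false
set_option maxRecDepth 1000000

namespace Cfsg.Agent.Lib.Helper19.ONU6

open Cfsg.Agent.Lib.Helper56.TC Cfsg.Agent.Lib.Helper56.TC.Tabs

theorem cN_14400 : allRange (fun x => forceN T.chkName x) 14400 300 = true := by decide +kernel
theorem cN_14700 : allRange (fun x => forceN T.chkName x) 14700 300 = true := by decide +kernel
theorem cN_15000 : allRange (fun x => forceN T.chkName x) 15000 300 = true := by decide +kernel
theorem cN_15300 : allRange (fun x => forceN T.chkName x) 15300 300 = true := by decide +kernel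
theorem cN_15600 : allRange (fun x => forceN T.chkName x) 15600 300 = true := by decide +kernel
theorem cN_15900 : allRange (fun x => forceN T.chkName x) 15900 300 = true := by decide +kernel

end Cfsg.Agent.Lib.Helper19.ONU6
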