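import Mathlib
import Cfsg.Prelude.Def_LieRecognition

set_option autoImplicit false

namespace Cfsg.Agent.Lib.Helper19.RankOne

variable {G Ω : Type*} [Group G] [MulAction G Ω] {a : Ω} {t : G} {Q : Subgroup G}

theorem t_inv (hS : Cfsg.IsRankOneSetup G Ω a t Q) : t⁻¹ = t :=
  inv_eq_of_mul_eq_one_left hS.mul_self

theorem ta_ne (hS : Cfsg.IsRankOneSetup G Ω a t Q) : t • a ≠ a := fun h => hS.not_mem h

theorem tta (hS : Cfsg.IsRankOneSetup G Ω a t Q) : t • t • a = a := by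
  rw [smul_smul, hS.mul_self, one_smul]

theorem two_trans (hS : Cfsg.IsRankOneSetup G Ω a t Q) {x y z w : Ω} (h1 : x ≠ y) (h2 : z ≠ w) :
    ∃ g : G, g • x = z ∧ g • y = w :=
  (MulAction.is_two_pretransitive_iff.1 hS.two_transitive) h1 h2

theorem trans (hS : Cfsg.IsRankOneSetup G Ω a t Q) (x y : Ω) : ∃ g : G, g • x = y := by
  by_cases h : x = y
  · exact ⟨1, by simp [h]⟩
  · obtain ⟨g, hg, -⟩ := two_trans hS h (Ne.symm h)
    exact ⟨g, hg⟩

theorem D_le_normalizer (hS : Cfsg.IsRankOneSetup G Ω a t Q) :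
    MulAction.stabilizer G a ⊓ MulAction.stabilizer G (t • a) ≤ Subgroup.normalizer (Q : Set G) := by
  rw [Subgroup.le_normalizer_iff]
  intro h hh k hk
  exact hS.conj_mem h hh.1 k hk

/-- Every element of `G_a` is `q * d`. -/
theorem exists_mul (hS : Cfsg.IsRankOneSetup G Ω a t Q) {g : G} (hg : g ∈ MulAction.stabilizer G a) :
    ∃ q ∈ Q, ∃ d ∈ MulAction.stabilizer G a ⊓ MulAction.stabilizer G (t • a), g = q * d := by
  have h1 : g ∈ ((Q ⊔ (MulAction.stabilizer G a ⊓ MulAction.stabilizer G (t • a)) : Subgroup G) : Set G) := by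
    rw [hS.sup_eq]; exact hg
  rw [Subgroup.coe_mul_of_right_le_normalizer_left _ _ (D_le_normalizer hS)] at h1
  obtain ⟨q, hq, d, hd, rfl⟩ := h1
  exact ⟨q, hq, d, hd, rfl⟩

/-- `Q` is transitive on the points other than `a`. -/
theorem Q_trans (hS : Cfsg.IsRankOneSetup G Ω a t Q) {c : Ω} (hc : c ≠ a) : ∃ q ∈ Q, q • (t • a) = c := by
  obtain ⟨g, hg1, hg2⟩ := two_trans hS (ta_ne hS).symm hc.symm
  obtain ⟨q, hq, d, hd, rfl⟩ := exists_mul hS (show g ∈ MulAction.stabilizer G a from hg1)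
  refine ⟨q, hq, ?_⟩
  have hd2 : d • (t • a) = t • a := hd.2
  rw [mul_smul, hd2] at hg2
  exact hg2

/-- No non-identity element of `Q` fixes a point other than `a`. -/
theorem Q_free (hS : Cfsg.IsRankOneSetup G Ω a t Q) {q : G} (hq : q ∈ Q) {c : Ω} (hc : c ≠ a)
    (h : q • c = c) : q = 1 := by
  obtain ⟨q₀, hq₀, rfl⟩ := Q_trans hS hc
  have h1 : q₀⁻¹ * q * q₀ ∈ Q ⊓ MulAction.stabilizer G (t • a) := by
    refine ⟨Q.mul_mem (Q.mul_mem (Q.inv_mem hq₀) hq) hq₀, ?_⟩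
    show (q₀⁻¹ * q * q₀) • (t • a) = t • a
    rw [mul_smul, mul_smul, h, inv_smul_smul]
  rw [hS.inf_eq_bot, Subgroup.mem_bot] at h1
  have : q = q₀ * (q₀⁻¹ * q * q₀) * q₀⁻¹ := by group
  rw [this, h1]; group

theorem fixed_eq (hS : Cfsg.IsRankOneSetup G Ω a t Q) {q : G} (hq : q ∈ Q) (hq1 : q ≠ 1) {c : Ω}
    (h : q • c = c) : c = a := by
  by_contra hc
  exact hq1 (Q_free hS hq hc h)

theorem Q_regular (hS : Cfsg.IsRankOneSetup G Ω a t Q) {b c : Ω} (hb : b ≠ a) (hc : c ≠ a) :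
    ∃! x : Q, (x : G) • b = c := by
  obtain ⟨q₁, hq₁, rfl⟩ := Q_trans hS hb
  obtain ⟨q₂, hq₂, rfl⟩ := Q_trans hS hc
  refine ⟨⟨q₂ * q₁⁻¹, Q.mul_mem hq₂ (Q.inv_mem hq₁)⟩, ?_, ?_⟩
  · show (q₂ * q₁⁻¹) • q₁ • t • a = q₂ • t • a
    rw [mul_smul, inv_smul_smul]
  · rintro ⟨y, hy⟩ hy'
    have hy' : y • q₁ • t • a = q₂ • t • a := hy'
    have h1 : (q₂⁻¹ * y * q₁) • (t • a) = t • a := by
      rw [mul_smul, mul_smul, hy', inv_smul_smul]
    have h2 := Q_free hS (Q.mul_mem (Q.mul_mem (Q.inv_mem hq₂) hy) hq₁) (ta_ne hS) h1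
    apply Subtype.ext
    show y = q₂ * q₁⁻¹
    have : y = q₂ * (q₂⁻¹ * y * q₁) * q₁⁻¹ := by group
    rw [this, h2]; group

theorem Q_ne_bot (hS : Cfsg.IsRankOneSetup G Ω a t Q) : ∃ x ∈ Q, x ≠ 1 := by
  by_contra h
  push Not at h
  have : Q = ⊥ := by
    rw [eq_bot_iff]; intro x hx; exact h x hx
  have h2 := hS.even_card
  rw [this, Subgroup.card_bot] at h2
  exact absurd h2 (by decide)

/-- Anything normalising a subset of `Q` with a non-identity element fixes `a`. -/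
theorem normalizer_le (hS : Cfsg.IsRankOneSetup G Ω a t Q) (X : Set G) (hX : X ⊆ (Q : Set G))
    (hne : ∃ x ∈ X, x ≠ 1) : Subgroup.normalizer X ≤ MulAction.stabilizer G a := by
  intro g hg
  obtain ⟨x, hx, hx1⟩ := hne
  rw [Subgroup.mem_set_normalizer_iff] at hg
  have h1 : g * x * g⁻¹ ∈ X := (hg x).1 hx
  have h2 : g * x * g⁻¹ ≠ 1 := by
    intro h
    apply hx1
    have : x = g⁻¹ * (g * x * g⁻¹) * g := by group
    rw [this, h]; group
  have h3 : (g * x * g⁻¹) • (g • a) = g • a := by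
    rw [mul_smul, inv_smul_smul, mul_smul]
    have : x • a = a := hS.le (hX hx)
    rw [this]
  exact fixed_eq hS (hX h1) h2 h3

theorem normalizer_Q (hS : Cfsg.IsRankOneSetup G Ω a t Q) :
    Subgroup.normalizer (Q : Set G) = MulAction.stabilizer G a := by
  apply le_antisymm (normalizer_le hS _ subset_rfl (Q_ne_bot hS))
  rw [Subgroup.le_normalizer_iff]
  exact hS.conj_mem

theorem normalizer_stab (hS : Cfsg.IsRankOneSetup G Ω a t Q) :
    Subgroup.normalizer (MulAction.stabilizer G a : Set G) = MulAction.stabilizer G a := by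
  apply le_antisymm _ Subgroup.le_normalizer
  intro g hg
  obtain ⟨x, hx, hx1⟩ := Q_ne_bot hS
  rw [Subgroup.mem_set_normalizer_iff] at hg
  have h1 : g⁻¹ * x * g ∈ MulAction.stabilizer G a := by
    apply (hg _).2
    have : g * (g⁻¹ * x * g) * g⁻¹ = x := by group
    rw [this]; exact hS.le hx
  have h2 : x • (g • a) = g • a := by
    have h3 : (g⁻¹ * x * g) • a = a := h1
    rw [mul_smul, mul_smul] at h3
    have := congrArg (fun y => g • y) h3
    simpa using this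
  exact fixed_eq hS hx hx1 h2


/-- The points other than `a` correspond to the elements of `Q`. -/
theorem card_ne (hS : Cfsg.IsRankOneSetup G Ω a t Q) : Nat.card {c : Ω // c ≠ a} = Nat.card Q := by
  symm
  have hne : ∀ q : Q, (q : G) • (t • a) ≠ a := by
    intro q h
    have h1 : (q : G) • a = a := hS.le q.2
    have h2 : (q : G) • (t • a) = (q : G) • a := by rw [h, h1]
    exact ta_ne hS (smul_left_cancel _ h2)
  apply Nat.card_eq_of_bijective (fun q : Q => (⟨(q : G) • (t • a), hne q⟩ : {c : Ω // c ≠ a}))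
  constructor
  · intro q₁ q₂ h
    have h' : (q₁ : G) • (t • a) = (q₂ : G) • (t • a) := congrArg Subtype.val h
    obtain ⟨x, -, hx⟩ := Q_regular hS (ta_ne hS) (hne q₂)
    exact (hx q₁ h').trans (hx q₂ rfl).symm
  · rintro ⟨c, hc⟩
    obtain ⟨q, hq, rfl⟩ := Q_trans hS hc
    exact ⟨⟨q, hq⟩, rfl⟩

/-- Canonical form of the elements outside `G_a`. -/
theorem canonical (hS : Cfsg.IsRankOneSetup G Ω a t Q) (g : G) (hg : g ∉ MulAction.stabilizer G a) :
    ∃! p : G × G, p.1 ∈ MulAction.stabilizer G a ∧ p.2 ∈ Q ∧ g = p.1 * t * p.2 := by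
  have hg' : g⁻¹ • a ≠ a := by
    intro h
    apply hg
    show g • a = a
    have := congrArg (fun y => g • y) h
    simpa using this.symm
  obtain ⟨q, hq, hq2⟩ := Q_trans hS hg'
  refine ⟨(g * q * t, q⁻¹), ⟨?_, Q.inv_mem hq, ?_⟩, ?_⟩
  · show (g * q * t) • a = a
    rw [mul_smul, mul_smul, hq2, smul_inv_smul]
  · show g = g * q * t * t * q⁻¹
    rw [mul_assoc (g * q), hS.mul_self]; group
  · rintro ⟨x, y⟩ ⟨hx, hy, hxy⟩
    simp only at hx hy hxy
    have hx' : x⁻¹ • a = a := by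
      have : x • a = a := hx
      rw [inv_smul_eq_iff, this]
    have h1 : g⁻¹ • a = y⁻¹ • (t • a) := by
      rw [hxy]
      have : (x * t * y)⁻¹ = y⁻¹ * t⁻¹ * x⁻¹ := by group
      rw [this, mul_smul, mul_smul, hx', t_inv hS]
    have h2 : (q⁻¹ * y⁻¹) • (t • a) = t • a := by
      rw [mul_smul, ← h1, ← hq2, inv_smul_smul]
    have h3 := Q_free hS (Q.mul_mem (Q.inv_mem hq) (Q.inv_mem hy)) (ta_ne hS) h2
    have hy2 : y = q⁻¹ := by
      have : y = (q⁻¹ * y⁻¹)⁻¹ * q⁻¹ := by group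
      rw [this, h3]; group
    subst hy2
    have hx2 : x = g * q * t := by
      rw [hxy]
      have : x * t * q⁻¹ * q * t = x * (t * t) := by group
      rw [this, hS.mul_self, mul_one]
    rw [hx2]

theorem card_stab (hS : Cfsg.IsRankOneSetup G Ω a t Q) :
    Nat.card (MulAction.stabilizer G a) =
      Nat.card Q * Nat.card ↥(MulAction.stabilizer G a ⊓ MulAction.stabilizer G (t • a)) := by
  rw [← Nat.card_prod]
  symm
  apply Nat.card_eq_of_bijective
    (fun p : Q × ↥(MulAction.stabilizer G a ⊓ MulAction.stabilizer G (t • a)) =>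
      (⟨(p.1 : G) * (p.2 : G), (MulAction.stabilizer G a).mul_mem (hS.le p.1.2) p.2.2.1⟩ :
        MulAction.stabilizer G a))
  constructor
  · rintro ⟨⟨q₁, hq₁⟩, ⟨d₁, hd₁⟩⟩ ⟨⟨q₂, hq₂⟩, ⟨d₂, hd₂⟩⟩ h
    have h' : q₁ * d₁ = q₂ * d₂ := congrArg Subtype.val h
    have h1 : q₂⁻¹ * q₁ = d₂ * d₁⁻¹ := by
      have : q₂⁻¹ * q₁ = q₂⁻¹ * (q₁ * d₁) * d₁⁻¹ := by group
      rw [this, h']; group
    have h2 : q₂⁻¹ * q₁ ∈ Q ⊓ MulAction.stabilizer G (t • a) := by
      refine ⟨Q.mul_mem (Q.inv_mem hq₂) hq₁, ?_⟩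
      rw [h1]
      exact (MulAction.stabilizer G (t • a)).mul_mem hd₂.2 ((MulAction.stabilizer G (t • a)).inv_mem hd₁.2)
    rw [hS.inf_eq_bot, Subgroup.mem_bot] at h2
    have e1 : q₁ = q₂ := by
      have : q₁ = q₂ * (q₂⁻¹ * q₁) := by group
      rw [this, h2, mul_one]
    subst e1
    have e2 : d₁ = d₂ := mul_left_cancel h'
    subst e2
    rfl
  · rintro ⟨g, hg⟩
    obtain ⟨q, hq, d, hd, rfl⟩ := exists_mul hS hg
    exact ⟨(⟨q, hq⟩, ⟨d, hd⟩), rfl⟩

/-- Elements of `G_a` with square one lie in `Q`. -/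
theorem inv_mem_Q (hS : Cfsg.IsRankOneSetup G Ω a t Q) {s : G} (hs : s ∈ MulAction.stabilizer G a)
    (h2 : s * s = 1) : s ∈ Q := by
  obtain ⟨q, hq, d, hd, rfl⟩ := exists_mul hS hs
  have h3 : d * d = (d * q * d⁻¹)⁻¹ * q⁻¹ := by
    have : d * d = (d * q * d⁻¹)⁻¹ * q⁻¹ * (q * d * (q * d)) := by group
    rw [this, h2, mul_one]
  have h4 : d * d ∈ Q ⊓ MulAction.stabilizer G (t • a) := by
    refine ⟨?_, (MulAction.stabilizer G (t • a)).mul_mem hd.2 hd.2⟩
    rw [h3]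
    exact Q.mul_mem (Q.inv_mem (hS.conj_mem d hd.1 q hq)) (Q.inv_mem hq)
  rw [hS.inf_eq_bot, Subgroup.mem_bot] at h4
  obtain ⟨k, hk⟩ := hS.odd_card
  have h5 : (⟨d, hd⟩ : ↥(MulAction.stabilizer G a ⊓ MulAction.stabilizer G (t • a))) ^
      Nat.card ↥(MulAction.stabilizer G a ⊓ MulAction.stabilizer G (t • a)) = 1 := pow_card_eq_one'
  rw [hk] at h5
  have h6 : d ^ (2 * k + 1) = 1 := by
    have := congrArg Subtype.val h5
    simpa using this
  have h7 : d = 1 := by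
    rw [pow_succ, pow_mul, pow_two, h4, one_pow, one_mul] at h6
    exact h6
  rw [h7, mul_one]; exact hq

/-- Two involutions with a product of odd order are conjugate. -/
theorem dihedral_conj {s u : G} (hs2 : s * s = 1) (hu2 : u * u = 1) (hodd : Odd (orderOf (s * u))) :
    ∃ g : G, g * s * g⁻¹ = u := by
  obtain ⟨m, hm⟩ := hodd
  have hsinv : s⁻¹ = s := inv_eq_of_mul_eq_one_left hs2
  have huinv : u⁻¹ = u := inv_eq_of_mul_eq_one_left hu2
  have h1 : s * (s * u) * s⁻¹ = (s * u)⁻¹ := by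
    rw [mul_inv_rev, hsinv, huinv, ← mul_assoc, hs2, one_mul]
  have h2 : s * (s * u) ^ m * s⁻¹ = ((s * u)⁻¹) ^ m := by
    rw [← conj_pow, h1]
  have h3 : (s * u) ^ (2 * m + 1) = 1 := by rw [← hm]; exact pow_orderOf_eq_one _
  refine ⟨(s * u) ^ m, ?_⟩
  have h4 : (s * u) ^ m * s = s * ((s * u)⁻¹) ^ m := by
    rw [← h2, hsinv]
    calc (s * u) ^ m * s = (s * s) * (s * u) ^ m * s := by rw [hs2, one_mul]
      _ = s * (s * (s * u) ^ m * s) := by group
  rw [h4, mul_assoc, inv_pow, ← mul_inv_rev, ← pow_add]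
  have h5 : ((s * u) ^ (m + m))⁻¹ = s * u := by
    rw [inv_eq_iff_eq_inv, eq_inv_iff_mul_eq_one, ← pow_succ]
    rw [show m + m + 1 = 2 * m + 1 by ring]; exact h3
  rw [h5, ← mul_assoc, hs2, one_mul]

section Finite

variable [Finite G]

theorem finite_Omega (hS : Cfsg.IsRankOneSetup G Ω a t Q) : Finite Ω :=
  Finite.of_surjective (fun g : G => g • a) (fun c => trans hS a c)

theorem card_Omega (hS : Cfsg.IsRankOneSetup G Ω a t Q) : Nat.card Ω = Nat.card Q + 1 := by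
  have := finite_Omega hS
  classical
  rw [← card_ne hS, ← Finite.card_option]
  exact (Nat.card_congr (Equiv.optionSubtypeNe a)).symm

theorem card_G (hS : Cfsg.IsRankOneSetup G Ω a t Q) :
    Nat.card G = Nat.card Q * Nat.card ↥(MulAction.stabilizer G a ⊓ MulAction.stabilizer G (t • a)) *
      (Nat.card Q + 1) := by
  have h2 : MulAction.IsMultiplyPretransitive G Ω 2 := hS.two_transitive
  have : MulAction.IsPretransitive G Ω := MulAction.isPretransitive_of_is_two_pretransitive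
  rw [← (MulAction.stabilizer G a).card_mul_index, MulAction.index_stabilizer_of_transitive,
    card_stab hS, card_Omega hS]

theorem exists_sylow (hS : Cfsg.IsRankOneSetup G Ω a t Q) : ∃ P : Sylow 2 G, (P : Subgroup G) ≤ Q := by
  obtain ⟨P₀⟩ : Nonempty (Sylow 2 Q) := inferInstance
  have hcard : Nat.card ((P₀ : Subgroup Q).map Q.subtype) = 2 ^ (Nat.card G).factorization 2 := by
    rw [Subgroup.card_map_of_injective Q.subtype_injective, P₀.card_eq_multiplicity, card_G hS]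
    congr 1
    symm
    have hQ : Nat.card Q ≠ 0 := Nat.card_pos.ne'
    have hD : Nat.card ↥(MulAction.stabilizer G a ⊓ MulAction.stabilizer G (t • a)) ≠ 0 := Nat.card_pos.ne'
    rw [mul_assoc, Nat.factorization_mul hQ (by positivity)]
    have hodd : Odd (Nat.card ↥(MulAction.stabilizer G a ⊓ MulAction.stabilizer G (t • a)) * (Nat.card Q + 1)) :=
      hS.odd_card.mul (hS.even_card.add_one)
    have : (Nat.card ↥(MulAction.stabilizer G a ⊓ MulAction.stabilizer G (t • a)) * (Nat.card Q + 1)).factorization 2 = 0 := by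
      apply Nat.factorization_eq_zero_of_not_dvd
      rw [← even_iff_two_dvd, Nat.not_even_iff_odd]
      exact hodd
    rw [Finsupp.add_apply, this, add_zero]
  refine ⟨Sylow.ofCard _ hcard, ?_⟩
  rw [Sylow.coe_ofCard]
  exact Subgroup.map_subtype_le _

/-- The product of an involution of `G_a` and an involution outside `G_a` has odd order. -/
theorem odd_order_mul (hS : Cfsg.IsRankOneSetup G Ω a t Q) {s u : G} (hs : s ∈ MulAction.stabilizer G a)
    (hs1 : s ≠ 1) (hs2 : s * s = 1) (hu : u ∉ MulAction.stabilizer G a) (hu2 : u * u = 1) :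
    Odd (orderOf (s * u)) := by
  by_contra hne
  rw [Nat.not_odd_iff_even] at hne
  obtain ⟨m, hm⟩ := hne
  have hpos : 0 < orderOf (s * u) := orderOf_pos _
  have hm0 : m ≠ 0 := by omega
  have hsinv : s⁻¹ = s := inv_eq_of_mul_eq_one_left hs2
  have huinv : u⁻¹ = u := inv_eq_of_mul_eq_one_left hu2
  set z : G := (s * u) ^ m with hz
  have hz1 : z ≠ 1 := pow_ne_one_of_lt_orderOf hm0 (by omega)
  have hz2 : z * z = 1 := by
    rw [hz, ← pow_add, ← hm]; exact pow_orderOf_eq_one _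
  have hzinv : z⁻¹ = z := inv_eq_of_mul_eq_one_left hz2
  have e1 : s * (s * u) * s⁻¹ = (s * u)⁻¹ := by
    rw [mul_inv_rev, hsinv, huinv, ← mul_assoc, hs2, one_mul]
  have e2 : u * (s * u) * u⁻¹ = (s * u)⁻¹ := by
    rw [mul_inv_rev, hsinv, huinv, mul_assoc, mul_assoc, hu2, mul_one]
  have hsz : s * z * s⁻¹ = z := by
    rw [hz, ← conj_pow, e1, inv_pow, ← hz, hzinv]
  have huz : u * z * u⁻¹ = z := by
    rw [hz, ← conj_pow, e2, inv_pow, ← hz, hzinv]
  have hsQ : s ∈ Q := inv_mem_Q hS hs hs2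
  have hza : z • a = a := by
    apply fixed_eq hS hsQ hs1
    have : s * z = z * s := by
      calc s * z = s * z * s⁻¹ * s := by group
        _ = z * s := by rw [hsz]
    rw [← mul_smul, this, mul_smul]
    have : s • a = a := hs
    rw [this]
  have hzQ : z ∈ Q := inv_mem_Q hS hza hz2
  apply hu
  show u • a = a
  apply fixed_eq hS hzQ hz1
  have : z * u = u * z := by
    calc z * u = u * z * u⁻¹ * u := by rw [huz]
      _ = u * z := by group
  rw [← mul_smul, this, mul_smul, hza]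

/-- An element with square one fixes a point. -/
theorem exists_fixed (hS : Cfsg.IsRankOneSetup G Ω a t Q) {u : G} (hu2 : u * u = 1) : ∃ c : Ω, u • c = c := by
  have := finite_Omega hS
  have hP : IsPGroup 2 (Subgroup.zpowers u) := by
    rintro ⟨g, hg⟩
    obtain ⟨k, rfl⟩ := Subgroup.mem_zpowers_iff.1 hg
    refine ⟨1, ?_⟩
    apply Subtype.ext
    show (u ^ k) ^ 2 ^ 1 = 1
    rw [pow_one, ← zpow_natCast, ← zpow_mul, mul_comm, zpow_mul, zpow_natCast, pow_two, hu2, one_zpow]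
  have hnd : ¬ 2 ∣ Nat.card Ω := by
    rw [card_Omega hS, ← even_iff_two_dvd, Nat.not_even_iff_odd]
    exact hS.even_card.add_one
  obtain ⟨c, hc⟩ := hP.nonempty_fixed_point_of_prime_not_dvd_card Ω hnd
  exact ⟨c, hc ⟨u, Subgroup.mem_zpowers u⟩⟩

/-- All involutions are conjugate. -/
theorem involutions_conj (hS : Cfsg.IsRankOneSetup G Ω a t Q) {u v : G} (hu1 : u ≠ 1) (hu2 : u * u = 1)
    (hv1 : v ≠ 1) (hv2 : v * v = 1) : ∃ g : G, g * u * g⁻¹ = v := by
  obtain ⟨c, hc⟩ := exists_fixed hS hu2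
  obtain ⟨d, hd⟩ := exists_fixed hS hv2
  obtain ⟨g₁, hg₁⟩ := trans hS c a
  obtain ⟨g₂, hg₂⟩ := trans hS d (t • a)
  have hs : g₁ * u * g₁⁻¹ ∈ MulAction.stabilizer G a := by
    show (g₁ * u * g₁⁻¹) • a = a
    rw [← hg₁, mul_smul, inv_smul_smul, mul_smul, hc]
  have hs1 : g₁ * u * g₁⁻¹ ≠ 1 := by
    intro h
    apply hu1
    have : u = g₁⁻¹ * (g₁ * u * g₁⁻¹) * g₁ := by group
    rw [this, h]; group
  have hs2 : (g₁ * u * g₁⁻¹) * (g₁ * u * g₁⁻¹) = 1 := by
    have : (g₁ * u * g₁⁻¹) * (g₁ * u * g₁⁻¹) = g₁ * (u * u) * g₁⁻¹ := by group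
    rw [this, hu2]; group
  have hw1 : g₂ * v * g₂⁻¹ ≠ 1 := by
    intro h
    apply hv1
    have : v = g₂⁻¹ * (g₂ * v * g₂⁻¹) * g₂ := by group
    rw [this, h]; group
  have hw2 : (g₂ * v * g₂⁻¹) * (g₂ * v * g₂⁻¹) = 1 := by
    have : (g₂ * v * g₂⁻¹) * (g₂ * v * g₂⁻¹) = g₂ * (v * v) * g₂⁻¹ := by group
    rw [this, hv2]; group
  have hwfix : (g₂ * v * g₂⁻¹) • (t • a) = t • a := by
    rw [← hg₂, mul_smul, inv_smul_smul, mul_smul, hd]
  have hw : g₂ * v * g₂⁻¹ ∉ MulAction.stabilizer G a := by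
    intro h
    exact ta_ne hS (fixed_eq hS (inv_mem_Q hS h hw2) hw1 hwfix)
  obtain ⟨g₃, hg₃⟩ := dihedral_conj hs2 hw2 (odd_order_mul hS hs hs1 hs2 hw hw2)
  refine ⟨g₂⁻¹ * g₃ * g₁, ?_⟩
  have : g₂⁻¹ * g₃ * g₁ * u * (g₂⁻¹ * g₃ * g₁)⁻¹ = g₂⁻¹ * (g₃ * (g₁ * u * g₁⁻¹) * g₃⁻¹) * g₂ := by group
  rw [this, hg₃]; group

end Finite

end Cfsg.Agent.Lib.Helper19.RankOne
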