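import Mathlib
import Cfsg.Prelude.Def_LieRecognition
import Cfsg.Agent.Lib.Helper19.RankOne

set_option autoImplicit false

namespace Cfsg.Agent.Lib.Helper19.RankOne

variable {G Ω : Type*} [Group G] [MulAction G Ω] {a : Ω} {t : G} {Q : Subgroup G}

/-- An element of the two-point stabiliser with square one is trivial. -/
theorem D_sq_one (hS : Cfsg.IsRankOneSetup G Ω a t Q) {d : G}
    (hd : d ∈ MulAction.stabilizer G a ⊓ MulAction.stabilizer G (t • a)) (h4 : d * d = 1) : d = 1 := by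
  obtain ⟨k, hk⟩ := hS.odd_card
  have h5 : (⟨d, hd⟩ : ↥(MulAction.stabilizer G a ⊓ MulAction.stabilizer G (t • a))) ^
      Nat.card ↥(MulAction.stabilizer G a ⊓ MulAction.stabilizer G (t • a)) = 1 := pow_card_eq_one'
  rw [hk] at h5
  have h6 : d ^ (2 * k + 1) = 1 := by
    have := congrArg Subtype.val h5
    simpa using this
  rw [pow_succ, pow_mul, pow_two, h4, one_pow, one_mul] at h6
  exact h6

/-- Two involutions with a product of odd order are conjugate by an involution. -/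
theorem dihedral_conj_inv {s u : G} (hs2 : s * s = 1) (hu2 : u * u = 1) (hodd : Odd (orderOf (s * u))) :
    ∃ w : G, w * w = 1 ∧ w * s * w = u := by
  obtain ⟨m, hm⟩ := hodd
  have hsinv : s⁻¹ = s := inv_eq_of_mul_eq_one_left hs2
  have huinv : u⁻¹ = u := inv_eq_of_mul_eq_one_left hu2
  have h1 : s * (s * u) * s⁻¹ = (s * u)⁻¹ := by
    rw [mul_inv_rev, hsinv, huinv, ← mul_assoc, hs2, one_mul]
  have h2 : s * (s * u) ^ m * s⁻¹ = ((s * u)⁻¹) ^ m := by
    rw [← conj_pow, h1]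
  rw [hsinv] at h2
  have h3 : (s * u) ^ (2 * m + 1) = 1 := by rw [← hm]; exact pow_orderOf_eq_one _
  have hww : (s * u) ^ m * s * ((s * u) ^ m * s) = 1 := by
    have : (s * u) ^ m * s * ((s * u) ^ m * s) = (s * u) ^ m * (s * (s * u) ^ m * s) := by group
    rw [this, h2, inv_pow, mul_inv_cancel]
  refine ⟨(s * u) ^ m * s, hww, ?_⟩
  have h6 : (s * u) ^ (m + m) = (s * u)⁻¹ := by
    rw [eq_inv_iff_mul_eq_one, ← pow_succ]
    rw [show m + m + 1 = 2 * m + 1 by ring]; exact h3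
  calc (s * u) ^ m * s * s * ((s * u) ^ m * s) = (s * u) ^ m * (s * s) * (s * u) ^ m * s := by group
    _ = (s * u) ^ (m + m) * s := by rw [hs2, mul_one, pow_add]
    _ = u := by rw [h6, mul_inv_rev, hsinv, huinv, mul_assoc, hs2, mul_one]

theorem conj_ne_one {g x : G} (hx : x ≠ 1) : g * x * g⁻¹ ≠ 1 := by
  intro h
  apply hx
  have : x = g⁻¹ * (g * x * g⁻¹) * g := by group
  rw [this, h]; group

theorem conj_sq_one {g x : G} (hx : x * x = 1) : (g * x * g⁻¹) * (g * x * g⁻¹) = 1 := by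
  have : (g * x * g⁻¹) * (g * x * g⁻¹) = g * (x * x) * g⁻¹ := by group
  rw [this, hx]; group

/-- If `ρ` of odd order inverts `d`, then `d` has square one. -/
theorem inverted_odd {ρ d : G} (h : ρ * d * ρ⁻¹ = d⁻¹) (hodd : Odd (orderOf ρ)) : d * d = 1 := by
  obtain ⟨m, hm⟩ := hodd
  have h2 : ρ ^ 2 * d * (ρ ^ 2)⁻¹ = d := by
    have : ρ ^ 2 * d * (ρ ^ 2)⁻¹ = (ρ * (ρ * d * ρ⁻¹)⁻¹ * ρ⁻¹)⁻¹ := by group
    rw [this, h, inv_inv, h, inv_inv]
  have hc : Commute (ρ ^ 2) d := by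
    show ρ ^ 2 * d = d * ρ ^ 2
    calc ρ ^ 2 * d = ρ ^ 2 * d * (ρ ^ 2)⁻¹ * ρ ^ 2 := by group
      _ = d * ρ ^ 2 := by rw [h2]
  have hc2 : Commute ((ρ ^ 2) ^ m) d := hc.pow_left m
  have h3 : (ρ ^ 2) ^ m * ρ = 1 := by
    rw [← pow_mul, ← pow_succ, ← hm]; exact pow_orderOf_eq_one _
  have h4 : ρ = ((ρ ^ 2) ^ m)⁻¹ := by
    rw [eq_inv_iff_mul_eq_one, mul_eq_one_iff_eq_inv, ← mul_eq_one_iff_eq_inv']
    exact h3
  have hc3 : Commute ρ d := by rw [h4]; exact hc2.inv_left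
  have h5 : ρ * d * ρ⁻¹ = d := by
    rw [hc3.eq]; group
  rw [h5] at h
  calc d * d = d * d⁻¹ := by rw [← h]
    _ = 1 := mul_inv_cancel d

theorem inverted_inv {D : Subgroup G} {k : G} (hk : k ∈ Cfsg.invertedBy D t) : k⁻¹ ∈ Cfsg.invertedBy D t := by
  refine ⟨D.inv_mem hk.1, ?_⟩
  have : t * k⁻¹ * t⁻¹ = (t * k * t⁻¹)⁻¹ := by group
  rw [this, hk.2]

theorem inverted_mul_t (hS : Cfsg.IsRankOneSetup G Ω a t Q) {D : Subgroup G} {k : G}
    (hk : k ∈ Cfsg.invertedBy D t) : (t * k) * (t * k) = 1 := by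
  have h := hk.2
  rw [t_inv hS] at h
  have : (t * k) * (t * k) = (t * k * t) * k := by group
  rw [this, h, inv_mul_cancel]

theorem not_mem_stab_of_fix (hS : Cfsg.IsRankOneSetup G Ω a t Q) {v : G} (hv1 : v ≠ 1) (hv2 : v * v = 1)
    {c : Ω} (hc : c ≠ a) (h : v • c = c) : v ∉ MulAction.stabilizer G a :=
  fun hv => hc (fixed_eq hS (inv_mem_Q hS hv hv2) hv1 h)

section Finite

variable [Finite G]

/-- The structure equation `t s t = r⁻¹ t r`. -/
theorem structure_eq (hS : Cfsg.IsRankOneSetup G Ω a t Q) :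
    ∃! p : G × G, p.1 ∈ Cfsg.involutionsIn (MulAction.stabilizer G a : Set G) ∧ p.2 ∈ Q ∧
      t * p.1 * t = p.2⁻¹ * t * p.2 := by
  obtain ⟨c, hc⟩ := exists_fixed hS hS.mul_self
  have hca : c ≠ a := by
    intro h; rw [h] at hc; exact ta_ne hS hc
  obtain ⟨r, hr, hrc⟩ := Q_trans hS hca
  have htinv := t_inv hS
  have hx1 : r⁻¹ * t * r ≠ 1 := by
    have := conj_ne_one (g := r⁻¹) hS.ne_one
    rwa [inv_inv] at this
  have hx2 : (r⁻¹ * t * r) * (r⁻¹ * t * r) = 1 := by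
    have := conj_sq_one (g := r⁻¹) hS.mul_self
    rwa [inv_inv] at this
  have hrc' : r⁻¹ • c = t • a := by rw [← hrc, inv_smul_smul]
  refine ⟨(t * (r⁻¹ * t * r) * t, r), ⟨⟨?_, ?_, ?_⟩, hr, ?_⟩, ?_⟩
  · show (t * (r⁻¹ * t * r) * t) • a = a
    rw [mul_smul, mul_smul, mul_smul, mul_smul, hrc, hc, hrc', tta hS]
  · have := conj_ne_one (g := t) hx1
    rwa [htinv] at this
  · have := conj_sq_one (g := t) hx2
    rwa [htinv] at this
  · show t * (t * (r⁻¹ * t * r) * t) * t = r⁻¹ * t * r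
    have : t * (t * (r⁻¹ * t * r) * t) * t = (t * t) * (r⁻¹ * t * r) * (t * t) := by group
    rw [this, hS.mul_self, one_mul, mul_one]
  · rintro ⟨s', r'⟩ ⟨⟨hs'a, hs'1, hs'2⟩, hr', heq⟩
    simp only at hs'a hs'1 hs'2 hr' heq
    have hs'Q : s' ∈ Q := inv_mem_Q hS hs'a hs'2
    have h1 : (r'⁻¹ * t * r') • (r'⁻¹ • c) = r'⁻¹ • c := by
      rw [mul_smul, mul_smul, smul_inv_smul, hc]
    rw [← heq, mul_smul, mul_smul] at h1
    have h2 : s' • (t • r'⁻¹ • c) = t • r'⁻¹ • c := by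
      have := congrArg (fun y => t • y) h1
      simp only [← mul_smul] at this
      rw [← mul_assoc, ← mul_assoc, hS.mul_self, one_mul] at this
      simpa [mul_smul] using this
    have h3 : t • r'⁻¹ • c = a := fixed_eq hS hs'Q hs'1 h2
    have h4 : r'⁻¹ • c = t • a := by
      calc r'⁻¹ • c = (t * t) • (r'⁻¹ • c) := by rw [hS.mul_self, one_smul]
        _ = t • (t • r'⁻¹ • c) := mul_smul _ _ _
        _ = t • a := by rw [h3]
    have h5 : (r⁻¹ * r') • (t • a) = t • a := by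
      calc (r⁻¹ * r') • (t • a) = r⁻¹ • r' • (r'⁻¹ • c) := by rw [mul_smul, h4]
        _ = t • a := by rw [smul_inv_smul, hrc']
    have h6 := Q_free hS (Q.mul_mem (Q.inv_mem hr) hr') (ta_ne hS) h5
    have hrr : r' = r := by
      have : r' = r * (r⁻¹ * r') := by group
      rw [this, h6, mul_one]
    subst hrr
    have hss : s' = t * (r'⁻¹ * t * r') * t := by
      rw [← heq]
      have : t * (t * s' * t) * t = (t * t) * s' * (t * t) := by group
      rw [this, hS.mul_self, one_mul, mul_one]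
    rw [hss]

theorem exists_involution (hS : Cfsg.IsRankOneSetup G Ω a t Q) :
    ∃ s : G, s ∈ Cfsg.involutionsIn (MulAction.stabilizer G a : Set G) := by
  have h2 : 2 ∣ Nat.card Q := even_iff_two_dvd.1 hS.even_card
  obtain ⟨x, hx⟩ := exists_prime_orderOf_dvd_card' 2 h2
  refine ⟨(x : G), hS.le x.2, ?_, ?_⟩
  · intro h
    have : x = 1 := Subtype.ext h
    rw [this, orderOf_one] at hx
    exact absurd hx (by decide)
  · have := pow_orderOf_eq_one x
    rw [hx, pow_two] at this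
    exact congrArg Subtype.val this

theorem K_surj (hS : Cfsg.IsRankOneSetup G Ω a t Q) {s s' : G}
    (hs : s ∈ Cfsg.involutionsIn (MulAction.stabilizer G a : Set G))
    (hs' : s' ∈ Cfsg.involutionsIn (MulAction.stabilizer G a : Set G)) :
    ∃ k ∈ Cfsg.invertedBy (MulAction.stabilizer G a ⊓ MulAction.stabilizer G (t • a)) t, k * s * k⁻¹ = s' := by
  obtain ⟨hsa, hs1, hs2⟩ := hs
  obtain ⟨hs'a, hs'1, hs'2⟩ := hs'
  have htinv := t_inv hS
  have hv1 : t * s' * t ≠ 1 := by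
    have := conj_ne_one (g := t) hs'1
    rwa [htinv] at this
  have hv2 : (t * s' * t) * (t * s' * t) = 1 := by
    have := conj_sq_one (g := t) hs'2
    rwa [htinv] at this
  have hvfix : (t * s' * t) • (t • a) = t • a := by
    rw [mul_smul, mul_smul, tta hS]
    have : s' • a = a := hs'a
    rw [this]
  have hv : t * s' * t ∉ MulAction.stabilizer G a := not_mem_stab_of_fix hS hv1 hv2 (ta_ne hS) hvfix
  obtain ⟨w, hww, hw⟩ := dihedral_conj_inv hs2 hv2 (odd_order_mul hS hsa hs1 hs2 hv hv2)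
  have hwinv : w⁻¹ = w := inv_eq_of_mul_eq_one_left hww
  -- `w` maps `a` to `t • a`
  have h1 : (t * s' * t) • (w • a) = w • a := by
    rw [← hw, mul_smul, mul_smul, ← mul_smul w w, hww, one_smul]
    have : s • a = a := hsa
    rw [this]
  have h2 : s' • (t • w • a) = t • w • a := by
    rw [mul_smul, mul_smul] at h1
    have := congrArg (fun y => t • y) h1
    simp only [← mul_smul] at this
    rw [← mul_assoc, ← mul_assoc, hS.mul_self, one_mul] at this
    simpa [mul_smul] using this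
  have h3 : t • w • a = a := fixed_eq hS (inv_mem_Q hS hs'a hs'2) hs'1 h2
  have h4 : w • a = t • a := by
    calc w • a = (t * t) • (w • a) := by rw [hS.mul_self, one_smul]
      _ = t • (t • w • a) := mul_smul _ _ _
      _ = t • a := by rw [h3]
  have h5 : w • (t • a) = a := by
    rw [← h4, ← mul_smul, hww, one_smul]
  refine ⟨t * w, ⟨⟨?_, ?_⟩, ?_⟩, ?_⟩
  · show (t * w) • a = a
    rw [mul_smul, h3]
  · show (t * w) • (t • a) = t • a
    rw [mul_smul, h5]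
  · rw [mul_inv_rev, hwinv, htinv]
    have : t * (t * w) * t = (t * t) * w * t := by group
    rw [this, hS.mul_self, one_mul]
  · rw [mul_inv_rev, hwinv, htinv]
    have : t * w * s * (w * t) = t * (w * s * w) * t := by group
    rw [this, hw]
    have : t * (t * s' * t) * t = (t * t) * s' * (t * t) := by group
    rw [this, hS.mul_self, one_mul, mul_one]

theorem K_inj (hS : Cfsg.IsRankOneSetup G Ω a t Q) {s : G}
    (hs : s ∈ Cfsg.involutionsIn (MulAction.stabilizer G a : Set G)) {k₁ k₂ : G}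
    (h₁ : k₁ ∈ Cfsg.invertedBy (MulAction.stabilizer G a ⊓ MulAction.stabilizer G (t • a)) t)
    (h₂ : k₂ ∈ Cfsg.invertedBy (MulAction.stabilizer G a ⊓ MulAction.stabilizer G (t • a)) t)
    (h : k₁ * s * k₁⁻¹ = k₂ * s * k₂⁻¹) : k₁ = k₂ := by
  obtain ⟨hsa, hs1, hs2⟩ := hs
  have htinv := t_inv hS
  have hsinv : s⁻¹ = s := inv_eq_of_mul_eq_one_left hs2
  have hu2 : (t * k₂) * (t * k₂) = 1 := inverted_mul_t hS h₂
  have huinv : (t * k₂)⁻¹ = t * k₂ := inv_eq_of_mul_eq_one_left hu2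
  have hu : t * k₂ ∉ MulAction.stabilizer G a := by
    intro hmem
    have h3 : (t * k₂) • a = a := hmem
    have h4 : k₂ • a = a := h₂.1.1
    rw [mul_smul, h4] at h3
    exact ta_ne hS h3
  have hd : k₂⁻¹ * k₁ ∈ MulAction.stabilizer G a ⊓ MulAction.stabilizer G (t • a) :=
    Subgroup.mul_mem _ (Subgroup.inv_mem _ h₂.1) h₁.1
  have hds : s * (k₂⁻¹ * k₁) * s⁻¹ = k₂⁻¹ * k₁ := by
    have e : k₂⁻¹ * (k₁ * s * k₁⁻¹) * k₂ = s := by rw [h]; group
    have : s * (k₂⁻¹ * k₁) * s⁻¹ = (k₂⁻¹ * (k₁ * s * k₁⁻¹) * k₂) * (k₂⁻¹ * k₁) * s⁻¹ := by rw [e]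
    rw [this]; group
  have hdu : (t * k₂) * (k₂⁻¹ * k₁) * (t * k₂)⁻¹ = (k₂⁻¹ * k₁)⁻¹ := by
    rw [huinv]
    have e1 := h₁.2
    rw [htinv] at e1
    have : t * k₂ * (k₂⁻¹ * k₁) * (t * k₂) = (t * k₁ * t) * k₂ := by group
    rw [this, e1]; group
  have hρ : (s * (t * k₂)) * (k₂⁻¹ * k₁) * (s * (t * k₂))⁻¹ = (k₂⁻¹ * k₁)⁻¹ := by
    have : (s * (t * k₂)) * (k₂⁻¹ * k₁) * (s * (t * k₂))⁻¹ =
        s * ((t * k₂) * (k₂⁻¹ * k₁) * (t * k₂)⁻¹) * s⁻¹ := by group
    rw [this, hdu]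
    have : s * (k₂⁻¹ * k₁)⁻¹ * s⁻¹ = (s * (k₂⁻¹ * k₁) * s⁻¹)⁻¹ := by group
    rw [this, hds]
  have hdd := inverted_odd hρ (odd_order_mul hS hsa hs1 hs2 hu hu2)
  have hd1 := D_sq_one hS hd hdd
  have : k₁ = k₂ * (k₂⁻¹ * k₁) := by group
  rw [this, hd1, mul_one]

theorem card_K (hS : Cfsg.IsRankOneSetup G Ω a t Q) :
    Nat.card (Cfsg.invertedBy (MulAction.stabilizer G a ⊓ MulAction.stabilizer G (t • a)) t) =
      Nat.card (Cfsg.involutionsIn (MulAction.stabilizer G a : Set G)) := by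
  obtain ⟨s, hs⟩ := exists_involution hS
  have hmem : ∀ k ∈ Cfsg.invertedBy (MulAction.stabilizer G a ⊓ MulAction.stabilizer G (t • a)) t,
      k * s * k⁻¹ ∈ Cfsg.involutionsIn (MulAction.stabilizer G a : Set G) := by
    intro k hk
    refine ⟨?_, conj_ne_one hs.2.1, conj_sq_one hs.2.2⟩
    exact Subgroup.mul_mem _ (Subgroup.mul_mem _ hk.1.1 hs.1) (Subgroup.inv_mem _ hk.1.1)
  apply Nat.card_eq_of_bijective
    (fun k : Cfsg.invertedBy (MulAction.stabilizer G a ⊓ MulAction.stabilizer G (t • a)) t =>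
      (⟨k.1 * s * k.1⁻¹, hmem k.1 k.2⟩ : Cfsg.involutionsIn (MulAction.stabilizer G a : Set G)))
  constructor
  · intro k₁ k₂ h
    exact Subtype.ext (K_inj hS hs k₁.2 k₂.2 (congrArg Subtype.val h))
  · rintro ⟨s', hs'⟩
    obtain ⟨k, hk, hks⟩ := K_surj hS hs hs'
    exact ⟨⟨k, hk⟩, Subtype.ext hks⟩

theorem K_conj (hS : Cfsg.IsRankOneSetup G Ω a t Q) {s s' : G}
    (hs : s ∈ Cfsg.involutionsIn (MulAction.stabilizer G a : Set G))
    (hs' : s' ∈ Cfsg.involutionsIn (MulAction.stabilizer G a : Set G)) :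
    ∃ k ∈ Cfsg.invertedBy (MulAction.stabilizer G a ⊓ MulAction.stabilizer G (t • a)) t, k⁻¹ * s * k = s' := by
  obtain ⟨k, hk, hks⟩ := K_surj hS hs hs'
  refine ⟨k⁻¹, inverted_inv hk, ?_⟩
  rw [inv_inv]; exact hks

end Finite

end Cfsg.Agent.Lib.Helper19.RankOne
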