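import Mathlib
import Cfsg.Prelude.Def_LieRecognition
import Cfsg.Prelude.Def_Solvable
import Cfsg.Agent.Lib.Helper19.RankOne2

set_option autoImplicit false

namespace Cfsg.Agent.Lib.Helper19.RankOne

variable {G Ω : Type*} [Group G] [MulAction G Ω] {a : Ω} {t : G} {Q : Subgroup G}

/-- An element of square one in a subgroup of odd order is trivial. -/
theorem odd_sq_one {H : Subgroup G} (hodd : Odd (Nat.card H)) {d : G} (hd : d ∈ H) (h4 : d * d = 1) :
    d = 1 := by
  obtain ⟨k, hk⟩ := hodd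
  have h5 : (⟨d, hd⟩ : ↥H) ^ Nat.card ↥H = 1 := pow_card_eq_one'
  rw [hk] at h5
  have h6 : d ^ (2 * k + 1) = 1 := by
    have := congrArg Subtype.val h5
    simpa using this
  rw [pow_succ, pow_mul, pow_two, h4, one_pow, one_mul] at h6
  exact h6

section Finite

variable [Finite G]

/-- A normal subgroup of odd order fixes `a`, when `G` has two distinct commuting involutions. -/
theorem normal_odd_le (hS : Cfsg.IsRankOneSetup G Ω a t Q)
    (h2 : ∃ x y : G, x ≠ 1 ∧ y ≠ 1 ∧ x ≠ y ∧ x * x = 1 ∧ y * y = 1 ∧ x * y = y * x)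
    (N : Subgroup G) [hN : N.Normal] (hodd : Odd (Nat.card N)) : N ≤ MulAction.stabilizer G a := by
  obtain ⟨x₀, y₀, hx₀1, hy₀1, hxy₀, hx₀2, hy₀2, hcomm₀⟩ := h2
  obtain ⟨c, hc⟩ := exists_fixed hS hx₀2
  obtain ⟨g, hg⟩ := trans hS c a
  -- conjugate so that `x` fixes `a`
  set x : G := g * x₀ * g⁻¹ with hxdef
  set y : G := g * y₀ * g⁻¹ with hydef
  have hx1 : x ≠ 1 := conj_ne_one hx₀1
  have hy1 : y ≠ 1 := conj_ne_one hy₀1
  have hx2 : x * x = 1 := conj_sq_one hx₀2
  have hy2 : y * y = 1 := conj_sq_one hy₀2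
  have hcomm : x * y = y * x := by
    have e1 : x * y = g * (x₀ * y₀) * g⁻¹ := by rw [hxdef, hydef]; group
    have e2 : y * x = g * (y₀ * x₀) * g⁻¹ := by rw [hxdef, hydef]; group
    rw [e1, e2, hcomm₀]
  have hxy : x * y ≠ 1 := by
    intro h
    apply hxy₀
    have e1 : x * y = g * (x₀ * y₀) * g⁻¹ := by rw [hxdef, hydef]; group
    rw [e1] at h
    have e3 : x₀ * y₀ = 1 := by
      have : x₀ * y₀ = g⁻¹ * (g * (x₀ * y₀) * g⁻¹) * g := by group
      rw [this, h]; group
    calc x₀ = x₀ * (y₀ * y₀) := by rw [hy₀2, mul_one]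
      _ = (x₀ * y₀) * y₀ := by group
      _ = y₀ := by rw [e3, one_mul]
  have hxa : x ∈ MulAction.stabilizer G a := by
    show (g * x₀ * g⁻¹) • a = a
    rw [← hg, mul_smul, inv_smul_smul, mul_smul, hc]
  have hxQ : x ∈ Q := inv_mem_Q hS hxa hx2
  have hya : y • a = a := by
    apply fixed_eq hS hxQ hx1
    rw [← mul_smul, hcomm, mul_smul]
    have : x • a = a := hxa
    rw [this]
  intro n hn
  by_contra hna
  have hna' : n • a ≠ a := hna
  have hy'1 : n * y * n⁻¹ ≠ 1 := conj_ne_one hy1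
  have hy'2 : (n * y * n⁻¹) * (n * y * n⁻¹) = 1 := conj_sq_one hy2
  have hy'fix : (n * y * n⁻¹) • (n • a) = n • a := by
    rw [mul_smul, inv_smul_smul, mul_smul, hya]
  have hy' : n * y * n⁻¹ ∉ MulAction.stabilizer G a := not_mem_stab_of_fix hS hy'1 hy'2 hna' hy'fix
  obtain ⟨j, hj⟩ := odd_order_mul hS hxa hx1 hx2 hy' hy'2
  have hpow : (x * (n * y * n⁻¹)) ^ (2 * j + 1) = 1 := by rw [← hj]; exact pow_orderOf_eq_one _
  have hq : (QuotientGroup.mk (x * (n * y * n⁻¹)) : G ⧸ N) = QuotientGroup.mk (x * y) := by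
    rw [QuotientGroup.eq]
    have : (x * (n * y * n⁻¹))⁻¹ * (x * y) = n * (y⁻¹ * n⁻¹ * y⁻¹⁻¹) := by group
    rw [this]
    exact N.mul_mem hn (hN.conj_mem _ (N.inv_mem hn) _)
  have hz : (x * y) ^ (2 * j + 1) ∈ N := by
    rw [← QuotientGroup.eq_one_iff, QuotientGroup.mk_pow, ← hq, ← QuotientGroup.mk_pow, hpow]
    rfl
  have hxy2 : (x * y) * (x * y) = 1 := by
    calc (x * y) * (x * y) = x * (y * x) * y := by group
      _ = x * (x * y) * y := by rw [hcomm]
      _ = (x * x) * (y * y) := by group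
      _ = 1 := by rw [hx2, hy2, one_mul]
  have hz' : (x * y) ^ (2 * j + 1) = x * y := by
    rw [pow_succ, pow_mul, pow_two, hxy2, one_pow, one_mul]
  rw [hz'] at hz
  exact hxy (odd_sq_one hodd hz hxy2)

theorem core_eq (hS : Cfsg.IsRankOneSetup G Ω a t Q)
    (h2 : ∃ x y : G, x ≠ 1 ∧ y ≠ 1 ∧ x ≠ y ∧ x * x = 1 ∧ y * y = 1 ∧ x * y = y * x) :
    Cfsg.pPrimeCore 2 G = (MulAction.stabilizer G a).normalCore := by
  apply le_antisymm
  · apply sSup_le
    rintro N ⟨hN, hcop⟩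
    have hodd : Odd (Nat.card N) := Nat.coprime_two_right.1 hcop
    rw [Subgroup.normal_le_normalCore]
    exact normal_odd_le hS h2 N hodd
  · apply le_sSup
    refine ⟨inferInstance, ?_⟩
    rw [Nat.coprime_two_right]
    have hle : (MulAction.stabilizer G a).normalCore ≤
        MulAction.stabilizer G a ⊓ MulAction.stabilizer G (t • a) := by
      intro x hx
      refine ⟨Subgroup.normalCore_le _ hx, ?_⟩
      have h1 : t⁻¹ * x * t⁻¹⁻¹ ∈ (MulAction.stabilizer G a).normalCore :=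
        (inferInstance : ((MulAction.stabilizer G a).normalCore).Normal).conj_mem x hx t⁻¹
      have h3 : (t⁻¹ * x * t⁻¹⁻¹) • a = a := Subgroup.normalCore_le _ h1
      show x • (t • a) = t • a
      rw [inv_inv, mul_smul, mul_smul, inv_smul_eq_iff] at h3
      exact h3
    obtain ⟨m, hm⟩ := Subgroup.card_dvd_of_le hle
    have := hS.odd_card
    rw [hm] at this
    exact (Nat.odd_mul.1 this).1

end Finite

end Cfsg.Agent.Lib.Helper19.RankOne
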