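import Mathlib
import Cfsg.Prelude.Def_LieRecognition
import Cfsg.Agent.Lib.Helper19.RankOne3

set_option autoImplicit false

namespace Cfsg.Agent.Lib.Helper19.RankOne

variable {G Ω : Type*} [Group G] [MulAction G Ω] {a : Ω} {t : G} {Q : Subgroup G}

/-- Replace `t` by another involution with the same image of `a`. -/
theorem swap_setup (hS : Cfsg.IsRankOneSetup G Ω a t Q) {u : G} (hu2 : u * u = 1) (hua : u • a = t • a) :
    Cfsg.IsRankOneSetup G Ω a u Q where
  two_transitive := hS.two_transitive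
  mul_self := hu2
  ne_one := by
    rintro rfl
    rw [one_smul] at hua
    exact ta_ne hS hua.symm
  not_mem := by
    intro h
    have h1 : u • a = a := h
    rw [hua] at h1
    exact ta_ne hS h1
  le := hS.le
  conj_mem := hS.conj_mem
  inf_eq_bot := by rw [hua]; exact hS.inf_eq_bot
  sup_eq := by rw [hua]; exact hS.sup_eq
  even_card := hS.even_card
  odd_card := by rw [hua]; exact hS.odd_card

/-- Transport the set-up by conjugation. -/
theorem conj_setup (hS : Cfsg.IsRankOneSetup G Ω a t Q) (g : G) :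
    Cfsg.IsRankOneSetup G Ω (g • a) (g * t * g⁻¹) (Q.map (MulAut.conj g).toMonoidHom) := by
  have e : (g * t * g⁻¹) • (g • a) = g • (t • a) := by rw [mul_smul, inv_smul_smul, mul_smul]
  have hinj : Function.Injective (MulAut.conj g).toMonoidHom := (MulAut.conj g).injective
  refine ⟨hS.two_transitive, conj_sq_one hS.mul_self, conj_ne_one hS.ne_one, ?_, ?_, ?_, ?_, ?_, ?_, ?_⟩
  · intro h
    have h1 : (g * t * g⁻¹) • (g • a) = g • a := h
    rw [e] at h1
    exact ta_ne hS (smul_left_cancel g h1)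
  · rw [MulAction.stabilizer_smul_eq_stabilizer_map_conj]
    exact Subgroup.map_mono hS.le
  · intro h hh x hx
    obtain ⟨q, hq, rfl⟩ := hx
    refine ⟨(g⁻¹ * h * g) * q * (g⁻¹ * h * g)⁻¹, hS.conj_mem _ ?_ q hq, ?_⟩
    · show (g⁻¹ * h * g) • a = a
      have : h • (g • a) = g • a := hh
      rw [mul_smul, mul_smul, this, inv_smul_smul]
    · simp only [MulEquiv.coe_toMonoidHom, MulAut.conj_apply]; group
  · rw [e, MulAction.stabilizer_smul_eq_stabilizer_map_conj, ← Subgroup.map_inf _ _ _ hinj, hS.inf_eq_bot,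
      Subgroup.map_bot]
  · rw [e, MulAction.stabilizer_smul_eq_stabilizer_map_conj, MulAction.stabilizer_smul_eq_stabilizer_map_conj,
      ← Subgroup.map_inf _ _ _ hinj, ← Subgroup.map_sup, hS.sup_eq]
  · rw [Subgroup.card_map_of_injective hinj]; exact hS.even_card
  · rw [e, MulAction.stabilizer_smul_eq_stabilizer_map_conj, MulAction.stabilizer_smul_eq_stabilizer_map_conj,
      ← Subgroup.map_inf _ _ _ hinj, Subgroup.card_map_of_injective hinj]
    exact hS.odd_card

/-- If `X` fixes `a`, `c` and `c'`, the element of `Q` taking `c` to `c'` centralises `X`. -/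
theorem cent_of_fix (hS : Cfsg.IsRankOneSetup G Ω a t Q) {X : Set G} (hXa : ∀ x ∈ X, x • a = a) {c c' : Ω}
    (hc : c ≠ a) (hXc : ∀ x ∈ X, x • c = c) (hXc' : ∀ x ∈ X, x • c' = c') {q : G} (hq : q ∈ Q)
    (hqc : q • c = c') : q ∈ Subgroup.centralizer X := by
  rw [Subgroup.mem_centralizer_iff]
  intro x hx
  have hxc : x⁻¹ • c = c := by rw [inv_smul_eq_iff, hXc x hx]
  have h1 : (q⁻¹ * (x * q * x⁻¹)) • c = c := by
    rw [mul_smul, mul_smul, mul_smul, hxc, hqc, hXc' x hx, ← hqc, inv_smul_smul]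
  have h2 := Q_free hS (Q.mul_mem (Q.inv_mem hq) (hS.conj_mem x (hXa x hx) q hq)) hc h1
  calc x * q = q * (q⁻¹ * (x * q * x⁻¹)) * x := by group
    _ = q * x := by rw [h2, mul_one]

/-- The centraliser of `X` is transitive on the fixed points of `X` other than a given one. -/
theorem cent_trans (hS : Cfsg.IsRankOneSetup G Ω a t Q) {X : Set G} {e c c' : Ω} (hXe : ∀ x ∈ X, x • e = e)
    (hc : c ≠ e) (hc' : c' ≠ e) (hXc : ∀ x ∈ X, x • c = c) (hXc' : ∀ x ∈ X, x • c' = c') :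
    ∃ q ∈ Subgroup.centralizer X, q • e = e ∧ q • c = c' := by
  obtain ⟨g, rfl⟩ := trans hS a e
  have hS' := conj_setup hS g
  obtain ⟨⟨q, hq⟩, hqc, -⟩ := Q_regular hS' hc hc'
  exact ⟨q, cent_of_fix hS' hXe hc hXc hXc' hq hqc, hS'.le hq, hqc⟩

/-- The centraliser of a set fixing three points is doubly transitive on its fixed points. -/
theorem cent_two_trans (hS : Cfsg.IsRankOneSetup G Ω a t Q) {X : Set G}
    (h3 : ∃ b c d : Ω, b ≠ c ∧ b ≠ d ∧ c ≠ d ∧ ∀ x ∈ X, x • b = b ∧ x • c = c ∧ x • d = d)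
    {b₁ b₂ c₁ c₂ : Ω} (hfix : ∀ x ∈ X, x • b₁ = b₁ ∧ x • b₂ = b₂ ∧ x • c₁ = c₁ ∧ x • c₂ = c₂)
    (hb : b₁ ≠ b₂) (hc : c₁ ≠ c₂) : ∃ g ∈ Subgroup.centralizer X, g • b₁ = c₁ ∧ g • b₂ = c₂ := by
  by_cases h : b₁ = c₁
  · subst h
    obtain ⟨q, hq, hq1, hq2⟩ := cent_trans hS (X := X) (e := b₁) (c := b₂) (c' := c₂)
      (fun x hx => (hfix x hx).1) hb.symm hc.symm (fun x hx => (hfix x hx).2.1) (fun x hx => (hfix x hx).2.2.2)
    exact ⟨q, hq, hq1, hq2⟩
  · -- a third fixed point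
    obtain ⟨e, he1, he2, hXe⟩ : ∃ e : Ω, e ≠ b₁ ∧ e ≠ c₁ ∧ ∀ x ∈ X, x • e = e := by
      obtain ⟨p, q, r, hpq, hpr, hqr, hX⟩ := h3
      by_cases hp : p ≠ b₁ ∧ p ≠ c₁
      · exact ⟨p, hp.1, hp.2, fun x hx => (hX x hx).1⟩
      by_cases hq : q ≠ b₁ ∧ q ≠ c₁
      · exact ⟨q, hq.1, hq.2, fun x hx => (hX x hx).2.1⟩
      refine ⟨r, ?_, ?_, fun x hx => (hX x hx).2.2⟩
      · rintro rfl
        rw [not_and_or, not_not, not_not] at hp hq
        rcases hp with hp | hp
        · exact hpr hp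
        · rcases hq with hq | hq
          · exact hqr hq
          · exact hpq (hp.trans hq.symm)
      · rintro rfl
        rw [not_and_or, not_not, not_not] at hp hq
        rcases hp with hp | hp
        · rcases hq with hq | hq
          · exact hpq (hp.trans hq.symm)
          · exact hqr hq
        · exact hpr hp
    obtain ⟨q₁, hq₁, -, hq₁b⟩ := cent_trans hS (X := X) (e := e) (c := b₁) (c' := c₁) hXe
      (Ne.symm he1) (Ne.symm he2) (fun x hx => (hfix x hx).1) (fun x hx => (hfix x hx).2.2.1)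
    have hXq : ∀ x ∈ X, x • (q₁ • b₂) = q₁ • b₂ := by
      intro x hx
      rw [← mul_smul, (Subgroup.mem_centralizer_iff.1 hq₁ x hx), mul_smul, (hfix x hx).2.1]
    have hne : q₁ • b₂ ≠ c₁ := by
      rw [← hq₁b]
      intro h'
      exact hb (smul_left_cancel q₁ h').symm
    obtain ⟨q₂, hq₂, hq₂c, hq₂b⟩ := cent_trans hS (X := X) (e := c₁) (c := q₁ • b₂) (c' := c₂)
      (fun x hx => (hfix x hx).2.2.1) hne hc.symm hXq (fun x hx => (hfix x hx).2.2.2)
    refine ⟨q₂ * q₁, Subgroup.mul_mem _ hq₂ hq₁, ?_, ?_⟩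
    · rw [mul_smul, hq₁b, hq₂c]
    · rw [mul_smul, hq₂b]

/-- A non-identity element of square one has exactly one fixed point. -/
theorem fixed_unique (hS : Cfsg.IsRankOneSetup G Ω a t Q) {u : G} (hu1 : u ≠ 1) (hu2 : u * u = 1)
    {c c' : Ω} (h : u • c = c) (h' : u • c' = c') : c = c' := by
  obtain ⟨g, hg⟩ := trans hS c a
  have h1 : g * u * g⁻¹ ∈ MulAction.stabilizer G a := by
    show (g * u * g⁻¹) • a = a
    rw [← hg, mul_smul, inv_smul_smul, mul_smul, h]
  have h2 : (g * u * g⁻¹) • (g • c') = g • c' := by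
    rw [mul_smul, inv_smul_smul, mul_smul, h']
  have h3 := fixed_eq hS (inv_mem_Q hS h1 (conj_sq_one hu2)) (conj_ne_one hu1) h2
  rw [← hg] at h3
  exact (smul_left_cancel g h3).symm

/-- An involution centralising `X` and interchanging `a` and `t • a`. -/
theorem exists_swap_involution (hS : Cfsg.IsRankOneSetup G Ω a t Q) {X : Set G}
    (hX : X ⊆ ((MulAction.stabilizer G a ⊓ MulAction.stabilizer G (t • a) : Subgroup G) : Set G))
    (h3 : ∃ b c d : Ω, b ≠ c ∧ b ≠ d ∧ c ≠ d ∧ ∀ x ∈ X, x • b = b ∧ x • c = c ∧ x • d = d) :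
    ∃ u ∈ Subgroup.centralizer X, u * u = 1 ∧ u • a = t • a ∧ u • (t • a) = a := by
  have hXa : ∀ x ∈ X, x • a = a := fun x hx => (hX hx).1
  have hXb : ∀ x ∈ X, x • (t • a) = t • a := fun x hx => (hX hx).2
  obtain ⟨g, hg, hga, hgb⟩ := cent_two_trans hS h3 (b₁ := a) (b₂ := t • a) (c₁ := t • a) (c₂ := a)
    (fun x hx => ⟨hXa x hx, hXb x hx, hXb x hx, hXa x hx⟩) (ta_ne hS).symm (ta_ne hS)
  obtain ⟨l, hl⟩ := hS.odd_card
  have hgg : g * g ∈ MulAction.stabilizer G a ⊓ MulAction.stabilizer G (t • a) := by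
    constructor
    · show (g * g) • a = a
      rw [mul_smul, hga, hgb]
    · show (g * g) • (t • a) = t • a
      rw [mul_smul, hgb, hga]
  have h5 : (⟨g * g, hgg⟩ : ↥(MulAction.stabilizer G a ⊓ MulAction.stabilizer G (t • a))) ^
      Nat.card ↥(MulAction.stabilizer G a ⊓ MulAction.stabilizer G (t • a)) = 1 := pow_card_eq_one'
  rw [hl] at h5
  have h6 : (g * g) ^ (2 * l + 1) = 1 := by
    have := congrArg Subtype.val h5
    simpa using this
  have h7 : ((g * g) ^ l) • a = a := by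
    have : (g * g) ^ l ∈ MulAction.stabilizer G a := Subgroup.pow_mem _ hgg.1 l
    exact this
  refine ⟨g ^ (2 * l + 1), Subgroup.pow_mem _ hg _, ?_, ?_, ?_⟩
  · rw [← pow_add, ← two_mul, pow_mul, pow_two]; exact h6
  · rw [pow_succ, pow_mul, pow_two, mul_smul, hga]
    have : (g * g) ^ l ∈ MulAction.stabilizer G (t • a) := Subgroup.pow_mem _ hgg.2 l
    exact this
  · rw [pow_succ, pow_mul, pow_two, mul_smul, hgb, h7]

/-- An involution interchanging `a` and `t • a` is conjugate to `t` under the two-point stabiliser. -/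
theorem swap_conj (hS : Cfsg.IsRankOneSetup G Ω a t Q) {u : G} (hu2 : u * u = 1) (hua : u • a = t • a) :
    ∃ k ∈ MulAction.stabilizer G a ⊓ MulAction.stabilizer G (t • a), t = k * u * k⁻¹ := by
  have htinv := t_inv hS
  have huinv : u⁻¹ = u := inv_eq_of_mul_eq_one_left hu2
  have hub : u • (t • a) = a := by rw [← hua, ← mul_smul, hu2, one_smul]
  have hk' : t * u ∈ MulAction.stabilizer G a ⊓ MulAction.stabilizer G (t • a) := by
    constructor
    · show (t * u) • a = a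
      rw [mul_smul, hua, tta hS]
    · show (t * u) • (t • a) = t • a
      rw [mul_smul, hub]
  have hinv : t * (t * u) * t⁻¹ = (t * u)⁻¹ := by
    rw [mul_inv_rev, huinv, htinv, ← mul_assoc, hS.mul_self, one_mul]
  obtain ⟨l, hl⟩ := hS.odd_card
  have h5 : (⟨t * u, hk'⟩ : ↥(MulAction.stabilizer G a ⊓ MulAction.stabilizer G (t • a))) ^
      Nat.card ↥(MulAction.stabilizer G a ⊓ MulAction.stabilizer G (t • a)) = 1 := pow_card_eq_one'
  rw [hl] at h5
  have h6 : (t * u) ^ (2 * l + 1) = 1 := by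
    have := congrArg Subtype.val h5
    simpa using this
  set k : G := (t * u) ^ (l + 1) with hk
  have hkk : k * k = t * u := by
    rw [hk, ← pow_add, show l + 1 + (l + 1) = (2 * l + 1) + 1 by ring, pow_succ, h6, one_mul]
  have hkinv : t * k * t⁻¹ = k⁻¹ := by
    rw [hk, ← conj_pow, hinv, inv_pow]
  refine ⟨k, Subgroup.pow_mem _ hk' _, ?_⟩
  have hu : u = t * (k * k) := by
    rw [hkk, ← mul_assoc, hS.mul_self, one_mul]
  have htk : t * k = k⁻¹ * t := by
    calc t * k = t * k * t⁻¹ * t := by group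
      _ = k⁻¹ * t := by rw [hkinv]
  calc t = k * (k⁻¹ * t) * k * k⁻¹ := by group
    _ = k * (t * k) * k * k⁻¹ := by rw [htk]
    _ = k * (t * (k * k)) * k⁻¹ := by group
    _ = k * u * k⁻¹ := by rw [← hu]

section Finite

variable [Finite G]

theorem cent_Q_even (hS : Cfsg.IsRankOneSetup G Ω a t Q) {X : Set G}
    (hX : X ⊆ ((MulAction.stabilizer G a ⊓ MulAction.stabilizer G (t • a) : Subgroup G) : Set G))
    (h3 : ∃ b c d : Ω, b ≠ c ∧ b ≠ d ∧ c ≠ d ∧ ∀ x ∈ X, x • b = b ∧ x • c = c ∧ x • d = d) :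
    Even (Nat.card ↥(Subgroup.centralizer X ⊓ Q)) := by
  have hXa : ∀ x ∈ X, x • a = a := fun x hx => (hX hx).1
  obtain ⟨u, huX, hu2, hua, hub⟩ := exists_swap_involution hS hX h3
  have hu1 : u ≠ 1 := by
    rintro rfl
    rw [one_smul] at hua
    exact ta_ne hS hua.symm
  obtain ⟨e, he⟩ := exists_fixed hS hu2
  have hXe : ∀ x ∈ X, x • e = e := by
    intro x hx
    apply fixed_unique hS hu1 hu2 _ he
    rw [← mul_smul, ← (Subgroup.mem_centralizer_iff.1 huX x hx), mul_smul, he]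
  -- move `e` to `a` inside the centraliser
  obtain ⟨n, hn, hne⟩ : ∃ n ∈ Subgroup.centralizer X, n • e = a := by
    by_cases hea : e = a
    · exact ⟨1, Subgroup.one_mem _, by rw [one_smul, hea]⟩
    · obtain ⟨n, hn, hn1, -⟩ := cent_two_trans hS h3 (b₁ := e) (b₂ := a) (c₁ := a) (c₂ := e)
        (fun x hx => ⟨hXe x hx, hXa x hx, hXa x hx, hXe x hx⟩) hea (Ne.symm hea)
      exact ⟨n, hn, hn1⟩
  have hw : n * u * n⁻¹ ∈ Subgroup.centralizer X ⊓ Q := by
    refine ⟨Subgroup.mul_mem _ (Subgroup.mul_mem _ hn huX) (Subgroup.inv_mem _ hn), ?_⟩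
    apply inv_mem_Q hS _ (conj_sq_one hu2)
    show (n * u * n⁻¹) • a = a
    rw [← hne, mul_smul, inv_smul_smul, mul_smul, he]
  have ho : orderOf (⟨n * u * n⁻¹, hw⟩ : ↥(Subgroup.centralizer X ⊓ Q)) = 2 := by
    apply orderOf_eq_prime
    · apply Subtype.ext
      show (n * u * n⁻¹) ^ 2 = 1
      rw [pow_two]; exact conj_sq_one hu2
    · intro h
      exact conj_ne_one hu1 (congrArg Subtype.val h)
  rw [even_iff_two_dvd, ← ho]
  exact orderOf_dvd_natCard _

omit [Finite G] in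
theorem cent_stab_eq (hS : Cfsg.IsRankOneSetup G Ω a t Q) {X : Set G}
    (hX : X ⊆ ((MulAction.stabilizer G a ⊓ MulAction.stabilizer G (t • a) : Subgroup G) : Set G)) :
    (Subgroup.centralizer X ⊓ Q) ⊔
      (Subgroup.centralizer X ⊓ (MulAction.stabilizer G a ⊓ MulAction.stabilizer G (t • a))) =
      Subgroup.centralizer X ⊓ MulAction.stabilizer G a := by
  have hXa : ∀ x ∈ X, x • a = a := fun x hx => (hX hx).1
  have hXb : ∀ x ∈ X, x • (t • a) = t • a := fun x hx => (hX hx).2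
  apply le_antisymm
  · exact sup_le (inf_le_inf_left _ hS.le) (inf_le_inf_left _ inf_le_left)
  · rintro g ⟨hgX, hga⟩
    have hga' : g • a = a := hga
    have hc : g • (t • a) ≠ a := by
      intro h
      have h' : g • (t • a) = g • a := by rw [h, hga']
      exact ta_ne hS (smul_left_cancel g h')
    have hXc : ∀ x ∈ X, x • (g • (t • a)) = g • (t • a) := by
      intro x hx
      rw [← mul_smul, (Subgroup.mem_centralizer_iff.1 hgX x hx), mul_smul, hXb x hx]
    obtain ⟨q, hq, hqc⟩ := Q_trans hS hc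
    have hqX : q ∈ Subgroup.centralizer X := cent_of_fix hS hXa (ta_ne hS) hXb hXc hq hqc
    have h1 : q⁻¹ * g ∈ Subgroup.centralizer X ⊓ (MulAction.stabilizer G a ⊓ MulAction.stabilizer G (t • a)) := by
      refine ⟨Subgroup.mul_mem _ (Subgroup.inv_mem _ hqX) hgX, ?_, ?_⟩
      · exact Subgroup.mul_mem _ (Subgroup.inv_mem _ (hS.le hq)) hga
      · show (q⁻¹ * g) • (t • a) = t • a
        rw [mul_smul, ← hqc, inv_smul_smul]
    have : g = q * (q⁻¹ * g) := by group
    rw [this]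
    exact Subgroup.mul_mem_sup ⟨hqX, hq⟩ h1

omit [Finite G] in
/-- A subset of `D` fixing three points is conjugate under `D` into the centraliser of `t`. -/
theorem conj_into_cent (hS : Cfsg.IsRankOneSetup G Ω a t Q) {X : Set G}
    (hX : X ⊆ ((MulAction.stabilizer G a ⊓ MulAction.stabilizer G (t • a) : Subgroup G) : Set G))
    (h3 : ∃ b c d : Ω, b ≠ c ∧ b ≠ d ∧ c ≠ d ∧ ∀ x ∈ X, x • b = b ∧ x • c = c ∧ x • d = d) :
    ∃ k ∈ (MulAction.stabilizer G a ⊓ MulAction.stabilizer G (t • a)),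
      ∀ x ∈ X, (k * x * k⁻¹) * t = t * (k * x * k⁻¹) := by
  obtain ⟨u, huX, hu2, hua, -⟩ := exists_swap_involution hS hX h3
  obtain ⟨k, hk, htk⟩ := swap_conj hS hu2 hua
  refine ⟨k, hk, ?_⟩
  intro x hx
  have hxu : u * x = x * u := Subgroup.mem_centralizer_iff.1 huX x hx |>.symm ▸ rfl
  rw [htk]
  calc k * x * k⁻¹ * (k * u * k⁻¹) = k * (x * u) * k⁻¹ := by group
    _ = k * (u * x) * k⁻¹ := by rw [hxu]
    _ = k * u * k⁻¹ * (k * x * k⁻¹) := by group

end Finite

end Cfsg.Agent.Lib.Helper19.RankOne
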