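import Mathlib
import Cfsg.Prelude.Def_LieRecognition
import Cfsg.Agent.Lib.Helper19.RankOne4

set_option autoImplicit false

namespace Cfsg.Agent.Lib.Helper19.RankOne

variable {G Ω : Type*} [Group G] [MulAction G Ω] {a : Ω} {t : G} {Q : Subgroup G}

/-- `t * k` for `k` inverted by `t` gives a set-up again. -/
theorem K_setup (hS : Cfsg.IsRankOneSetup G Ω a t Q) {k : G}
    (hk : k ∈ Cfsg.invertedBy (MulAction.stabilizer G a ⊓ MulAction.stabilizer G (t • a)) t) :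
    Cfsg.IsRankOneSetup G Ω a (t * k) Q := by
  apply swap_setup hS (inverted_mul_t hS hk)
  have : k • a = a := hk.1.1
  rw [mul_smul, this]

theorem one_mem_K (D : Subgroup G) : (1 : G) ∈ Cfsg.invertedBy D t :=
  ⟨D.one_mem, by simp⟩

theorem inverted_mul_self {D : Subgroup G} {k : G} (hk : k ∈ Cfsg.invertedBy D t) :
    k * k ∈ Cfsg.invertedBy D t := by
  refine ⟨D.mul_mem hk.1 hk.1, ?_⟩
  have : t * (k * k) * t⁻¹ = (t * k * t⁻¹) * (t * k * t⁻¹) := by group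
  rw [this, hk.2, mul_inv_rev]

theorem mem_cent_singleton {g d : G} : d ∈ Subgroup.centralizer ({g} : Set G) ↔ g * d = d * g := by
  rw [Subgroup.mem_centralizer_singleton_iff]; exact eq_comm

section Finite

variable [Finite G]

/-- The involution of `G_a` attached to `t * k` by the structure equation determines `k`. -/
theorem struct_inj (hS : Cfsg.IsRankOneSetup G Ω a t Q) {k s r r' : G}
    (hk : k ∈ Cfsg.invertedBy (MulAction.stabilizer G a ⊓ MulAction.stabilizer G (t • a)) t)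
    (hs : s ∈ Cfsg.involutionsIn (MulAction.stabilizer G a : Set G)) (hr : r ∈ Q) (hr' : r' ∈ Q)
    (h1 : (t * k) * s * (t * k) = r⁻¹ * (t * k) * r) (h2 : t * s * t = r'⁻¹ * t * r') : k = 1 := by
  have hex : ∀ k : ↥(Cfsg.invertedBy (MulAction.stabilizer G a ⊓ MulAction.stabilizer G (t • a)) t),
      ∃ s : ↥(Cfsg.involutionsIn (MulAction.stabilizer G a : Set G)), ∃ r ∈ Q,
        (t * (k : G)) * (s : G) * (t * (k : G)) = r⁻¹ * (t * (k : G)) * r := by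
    rintro ⟨k, hk⟩
    obtain ⟨p, ⟨hp1, hp2, hp3⟩, -⟩ := structure_eq (K_setup hS hk)
    exact ⟨⟨p.1, hp1⟩, p.2, hp2, hp3⟩
  choose f ρ hρ hf using hex
  have huniq : ∀ (k : ↥(Cfsg.invertedBy (MulAction.stabilizer G a ⊓ MulAction.stabilizer G (t • a)) t))
      (s' : G), s' ∈ Cfsg.involutionsIn (MulAction.stabilizer G a : Set G) → ∀ r' ∈ Q,
      (t * (k : G)) * s' * (t * (k : G)) = r'⁻¹ * (t * (k : G)) * r' → (f k : G) = s' := by
    intro k s' hs' r' hr' h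
    obtain ⟨p, -, hp⟩ := structure_eq (K_setup hS k.2)
    have e1 := hp ((f k : G), ρ k) ⟨(f k).2, hρ k, hf k⟩
    have e2 := hp (s', r') ⟨hs', hr', h⟩
    exact congrArg Prod.fst (e1.trans e2.symm)
  have hone : (1 : G) ∈ Cfsg.invertedBy (MulAction.stabilizer G a ⊓ MulAction.stabilizer G (t • a)) t :=
    one_mem_K _
  have hsurj : Function.Surjective f := by
    rintro ⟨s', hs'⟩
    have h0 := hf ⟨1, hone⟩
    simp only [mul_one] at h0
    obtain ⟨k₀, hk₀, hk₀s⟩ := K_surj hS (f ⟨1, hone⟩).2 hs'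
    have hk₁ : k₀⁻¹ * k₀⁻¹ ∈ Cfsg.invertedBy (MulAction.stabilizer G a ⊓ MulAction.stabilizer G (t • a)) t :=
      inverted_mul_self (inverted_inv hk₀)
    refine ⟨⟨k₀⁻¹ * k₀⁻¹, hk₁⟩, Subtype.ext ?_⟩
    apply huniq _ s' hs' (k₀ * ρ ⟨1, hone⟩ * k₀⁻¹) (hS.conj_mem k₀ hk₀.1.1 _ (hρ _))
    have e : t * (k₀⁻¹ * k₀⁻¹) = k₀ * t * k₀⁻¹ := by
      have e1 : t * k₀⁻¹ * t⁻¹ = k₀ := by
        have : t * k₀⁻¹ * t⁻¹ = (t * k₀ * t⁻¹)⁻¹ := by group
        rw [this, hk₀.2, inv_inv]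
      calc t * (k₀⁻¹ * k₀⁻¹) = (t * k₀⁻¹ * t⁻¹) * t * k₀⁻¹ := by group
        _ = k₀ * t * k₀⁻¹ := by rw [e1]
    show t * (k₀⁻¹ * k₀⁻¹) * s' * (t * (k₀⁻¹ * k₀⁻¹)) =
      (k₀ * ρ ⟨1, hone⟩ * k₀⁻¹)⁻¹ * (t * (k₀⁻¹ * k₀⁻¹)) * (k₀ * ρ ⟨1, hone⟩ * k₀⁻¹)
    rw [e, ← hk₀s]
    calc k₀ * t * k₀⁻¹ * (k₀ * ↑(f ⟨1, hone⟩) * k₀⁻¹) * (k₀ * t * k₀⁻¹)
        = k₀ * (t * ↑(f ⟨1, hone⟩) * t) * k₀⁻¹ := by group
      _ = k₀ * ((ρ ⟨1, hone⟩)⁻¹ * t * ρ ⟨1, hone⟩) * k₀⁻¹ := by rw [h0]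
      _ = (k₀ * ρ ⟨1, hone⟩ * k₀⁻¹)⁻¹ * (k₀ * t * k₀⁻¹) * (k₀ * ρ ⟨1, hone⟩ * k₀⁻¹) := by group
  have hbij : Function.Bijective f := (Nat.bijective_iff_surjective_and_card f).2 ⟨hsurj, card_K hS⟩
  have e1 := huniq ⟨k, hk⟩ s hs r hr h1
  have e2 := huniq ⟨1, hone⟩ s hs r' hr' (by simpa using h2)
  have e3 : f ⟨k, hk⟩ = f ⟨1, hone⟩ := Subtype.ext (e1.trans e2.symm)
  exact congrArg Subtype.val (hbij.1 e3)

theorem cent_t_eq_cent_s (hS : Cfsg.IsRankOneSetup G Ω a t Q) {s r : G}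
    (hs : s ∈ Cfsg.involutionsIn (MulAction.stabilizer G a : Set G)) (hr : r ∈ Q)
    (h : t * s * t = r⁻¹ * t * r) :
    (MulAction.stabilizer G a ⊓ MulAction.stabilizer G (t • a)) ⊓ Subgroup.centralizer {t} =
      (MulAction.stabilizer G a ⊓ MulAction.stabilizer G (t • a)) ⊓ Subgroup.centralizer {s} := by
  have htinv := t_inv hS
  ext d
  constructor
  · intro hdd
    obtain ⟨hd, hdt⟩ := Subgroup.mem_inf.1 hdd
    refine Subgroup.mem_inf.2 ⟨hd, ?_⟩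
    rw [mem_cent_singleton] at hdt ⊢
    -- `t * d = d * t`
    obtain ⟨p, -, hp⟩ := structure_eq hS
    have e1 := hp (s, r) ⟨hs, hr, h⟩
    have hds : d * s * d⁻¹ ∈ Cfsg.involutionsIn (MulAction.stabilizer G a : Set G) :=
      ⟨Subgroup.mul_mem _ (Subgroup.mul_mem _ hd.1 hs.1) (Subgroup.inv_mem _ hd.1), conj_ne_one hs.2.1,
        conj_sq_one hs.2.2⟩
    have htd : t * d⁻¹ = d⁻¹ * t := by
      calc t * d⁻¹ = d⁻¹ * (d * t) * d⁻¹ := by group
        _ = d⁻¹ * (t * d) * d⁻¹ := by rw [← hdt]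
        _ = d⁻¹ * t := by group
    have e2 := hp (d * s * d⁻¹, d * r * d⁻¹) ⟨hds, hS.conj_mem d hd.1 r hr, by
      show t * (d * s * d⁻¹) * t = (d * r * d⁻¹)⁻¹ * t * (d * r * d⁻¹)
      calc t * (d * s * d⁻¹) * t = (t * d) * s * (d⁻¹ * t) := by group
        _ = (d * t) * s * (t * d⁻¹) := by rw [hdt, htd]
        _ = d * (t * s * t) * d⁻¹ := by group
        _ = d * (r⁻¹ * t * r) * d⁻¹ := by rw [h]
        _ = (d * r * d⁻¹)⁻¹ * (d * t) * (d⁻¹ * d) * r * d⁻¹ := by group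
        _ = (d * r * d⁻¹)⁻¹ * (t * d) * (d⁻¹ * d) * r * d⁻¹ := by rw [← hdt]
        _ = (d * r * d⁻¹)⁻¹ * t * (d * r * d⁻¹) := by group⟩
    have e3 : d * s * d⁻¹ = s := congrArg Prod.fst (e2.trans e1.symm)
    calc s * d = (d * s * d⁻¹) * d := by rw [e3]
      _ = d * s := by group
  · intro hdd
    obtain ⟨hd, hds⟩ := Subgroup.mem_inf.1 hdd
    refine Subgroup.mem_inf.2 ⟨hd, ?_⟩
    rw [mem_cent_singleton] at hds ⊢
    -- `s * d = d * s`
    have htd : t * d * t⁻¹ ∈ MulAction.stabilizer G a ⊓ MulAction.stabilizer G (t • a) := by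
      constructor
      · show (t * d * t⁻¹) • a = a
        rw [htinv, mul_smul, mul_smul]
        have : d • (t • a) = t • a := hd.2
        rw [this, tta hS]
      · show (t * d * t⁻¹) • (t • a) = t • a
        rw [mul_smul, mul_smul, inv_smul_smul]
        have : d • a = a := hd.1
        rw [this]
    have hkd : t * d * t⁻¹ * d⁻¹ ∈ Cfsg.invertedBy (MulAction.stabilizer G a ⊓ MulAction.stabilizer G (t • a)) t := by
      refine ⟨Subgroup.mul_mem _ htd (Subgroup.inv_mem _ hd), ?_⟩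
      rw [htinv]
      calc t * (t * d * t * d⁻¹) * t = (t * t) * d * t * d⁻¹ * t := by group
        _ = d * t * d⁻¹ * t := by rw [hS.mul_self, one_mul]
        _ = d * t⁻¹ * d⁻¹ * t⁻¹ := by rw [htinv]
        _ = (t * d * t * d⁻¹)⁻¹ := by group
    have hu : t * (t * d * t⁻¹ * d⁻¹) = d * t * d⁻¹ := by
      rw [htinv]
      have : t * (t * d * t * d⁻¹) = (t * t) * d * t * d⁻¹ := by group
      rw [this, hS.mul_self, one_mul]
    have hsd : s * d⁻¹ = d⁻¹ * s := by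
      calc s * d⁻¹ = d⁻¹ * (d * s) * d⁻¹ := by group
        _ = d⁻¹ * (s * d) * d⁻¹ := by rw [← hds]
        _ = d⁻¹ * s := by group
    have h1 : (t * (t * d * t⁻¹ * d⁻¹)) * s * (t * (t * d * t⁻¹ * d⁻¹)) =
        (d * r * d⁻¹)⁻¹ * (t * (t * d * t⁻¹ * d⁻¹)) * (d * r * d⁻¹) := by
      rw [hu]
      calc d * t * d⁻¹ * s * (d * t * d⁻¹) = d * t * (d⁻¹ * s) * d * t * d⁻¹ := by group
        _ = d * t * (s * d⁻¹) * d * t * d⁻¹ := by rw [hsd]
        _ = d * (t * s * t) * d⁻¹ := by group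
        _ = d * (r⁻¹ * t * r) * d⁻¹ := by rw [h]
        _ = (d * r * d⁻¹)⁻¹ * (d * t * d⁻¹) * (d * r * d⁻¹) := by group
    have h2 := struct_inj hS hkd hs (hS.conj_mem d hd.1 r hr) hr h1 h
    calc t * d = (t * d * t⁻¹ * d⁻¹) * d * t := by group
      _ = d * t := by rw [h2, one_mul]

theorem cent_K_eq (hS : Cfsg.IsRankOneSetup G Ω a t Q) :
    (MulAction.stabilizer G a ⊓ MulAction.stabilizer G (t • a)) ⊓ Subgroup.centralizer {t} ⊓
        Subgroup.centralizer (Cfsg.invertedBy (MulAction.stabilizer G a ⊓ MulAction.stabilizer G (t • a)) t) =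
      (MulAction.stabilizer G a ⊓ MulAction.stabilizer G (t • a)) ⊓
        Subgroup.centralizer (Cfsg.involutionsIn (MulAction.stabilizer G a : Set G)) := by
  obtain ⟨p, ⟨hp1, hp2, hp3⟩, -⟩ := structure_eq hS
  have hcent := cent_t_eq_cent_s hS hp1 hp2 hp3
  ext d
  constructor
  · intro hdd
    obtain ⟨hdt, hdK⟩ := Subgroup.mem_inf.1 hdd
    refine Subgroup.mem_inf.2 ⟨(Subgroup.mem_inf.1 hdt).1, ?_⟩
    rw [hcent] at hdt
    have hds : p.1 * d = d * p.1 := mem_cent_singleton.1 (Subgroup.mem_inf.1 hdt).2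
    rw [Subgroup.mem_centralizer_iff]
    intro s' hs'
    obtain ⟨k, hk, hks⟩ := K_surj hS hp1 hs'
    have hdk : k * d = d * k := Subgroup.mem_centralizer_iff.1 hdK k hk
    have hdk' : k⁻¹ * d = d * k⁻¹ := by
      calc k⁻¹ * d = k⁻¹ * (d * k) * k⁻¹ := by group
        _ = k⁻¹ * (k * d) * k⁻¹ := by rw [hdk]
        _ = d * k⁻¹ := by group
    rw [← hks]
    calc k * p.1 * k⁻¹ * d = k * p.1 * (k⁻¹ * d) := by group
      _ = k * (p.1 * d) * k⁻¹ := by rw [hdk']; group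
      _ = (k * d) * p.1 * k⁻¹ := by rw [hds]; group
      _ = d * (k * p.1 * k⁻¹) := by rw [hdk]; group
  · intro hdd
    obtain ⟨hd, hdI⟩ := Subgroup.mem_inf.1 hdd
    have hdI' : ∀ s' ∈ Cfsg.involutionsIn (MulAction.stabilizer G a : Set G), s' * d = d * s' :=
      Subgroup.mem_centralizer_iff.1 hdI
    have hdt : d ∈ (MulAction.stabilizer G a ⊓ MulAction.stabilizer G (t • a)) ⊓ Subgroup.centralizer {t} := by
      rw [hcent]
      exact Subgroup.mem_inf.2 ⟨hd, mem_cent_singleton.2 (hdI' _ hp1)⟩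
    refine Subgroup.mem_inf.2 ⟨hdt, ?_⟩
    have htd : t * d = d * t := mem_cent_singleton.1 (Subgroup.mem_inf.1 hdt).2
    rw [Subgroup.mem_centralizer_iff]
    intro k hk
    have hdkK : d * k * d⁻¹ ∈ Cfsg.invertedBy (MulAction.stabilizer G a ⊓ MulAction.stabilizer G (t • a)) t := by
      refine ⟨Subgroup.mul_mem _ (Subgroup.mul_mem _ hd hk.1) (Subgroup.inv_mem _ hd), ?_⟩
      have htd' : t * d * t⁻¹ = d := by rw [htd]; group
      have : t * (d * k * d⁻¹) * t⁻¹ = (t * d * t⁻¹) * (t * k * t⁻¹) * (t * d * t⁻¹)⁻¹ := by group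
      rw [this, htd', hk.2]; group
    have hks : k * p.1 * k⁻¹ ∈ Cfsg.involutionsIn (MulAction.stabilizer G a : Set G) :=
      ⟨Subgroup.mul_mem _ (Subgroup.mul_mem _ hk.1.1 hp1.1) (Subgroup.inv_mem _ hk.1.1), conj_ne_one hp1.2.1,
        conj_sq_one hp1.2.2⟩
    have h1 : (d * k * d⁻¹) * p.1 * (d * k * d⁻¹)⁻¹ = k * p.1 * k⁻¹ := by
      have e1 : d⁻¹ * p.1 * d = p.1 := by
        calc d⁻¹ * p.1 * d = d⁻¹ * (p.1 * d) := by group
          _ = p.1 := by rw [hdI' _ hp1]; group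
      calc (d * k * d⁻¹) * p.1 * (d * k * d⁻¹)⁻¹ = d * k * (d⁻¹ * p.1 * d) * k⁻¹ * d⁻¹ := by group
        _ = d * (k * p.1 * k⁻¹) * d⁻¹ := by rw [e1]; group
        _ = (k * p.1 * k⁻¹ * d) * d⁻¹ := by rw [hdI' _ hks]
        _ = k * p.1 * k⁻¹ := by group
    have h2 := K_inj hS hp1 hdkK hk h1
    calc k * d = (d * k * d⁻¹) * d := by rw [h2]
      _ = d * k := by group

end Finite

end Cfsg.Agent.Lib.Helper19.RankOne
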