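import Mathlib
import Cfsg.Prelude.Def_LieRecognition
import Cfsg.Agent.Lib.Helper19.RankOne5

set_option autoImplicit false

namespace Cfsg.Agent.Lib.Helper19.RankOne

variable {G Ω : Type*} [Group G] [MulAction G Ω] {a : Ω} {t : G} {Q : Subgroup G}

section Finite

variable [Finite G]

/-- A non-identity element of `D` inverted by `t` centralises no non-identity element of `Q`. -/
theorem K_fpf (hS : Cfsg.IsRankOneSetup G Ω a t Q) {x : G}
    (hx : x ∈ Cfsg.invertedBy (MulAction.stabilizer G a ⊓ MulAction.stabilizer G (t • a)) t) (hx1 : x ≠ 1) :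
    Q ⊓ Subgroup.centralizer {x} = ⊥ := by
  rw [eq_bot_iff]
  intro q hqq
  obtain ⟨hq, hqx⟩ := Subgroup.mem_inf.1 hqq
  rw [Subgroup.mem_bot]
  by_contra hq1
  have hqx' : x * q = q * x := mem_cent_singleton.1 hqx
  have hxa : x • a = a := hx.1.1
  have hxb : x • (t • a) = t • a := hx.1.2
  have hX : ({x} : Set G) ⊆ ((MulAction.stabilizer G a ⊓ MulAction.stabilizer G (t • a) : Subgroup G) : Set G) := by
    intro y hy
    rw [Set.mem_singleton_iff] at hy
    rw [hy]; exact hx.1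
  have hqa : q • a = a := hS.le hq
  have h3 : ∃ b c d : Ω, b ≠ c ∧ b ≠ d ∧ c ≠ d ∧ ∀ y ∈ ({x} : Set G), y • b = b ∧ y • c = c ∧ y • d = d := by
    refine ⟨a, t • a, q • (t • a), (ta_ne hS).symm, ?_, ?_, ?_⟩
    · intro h
      have h' : q • (t • a) = q • a := by rw [← h, hqa]
      exact ta_ne hS (smul_left_cancel q h')
    · intro h
      exact hq1 (Q_free hS hq (ta_ne hS) h.symm)
    · intro y hy
      rw [Set.mem_singleton_iff] at hy
      subst hy
      refine ⟨hxa, hxb, ?_⟩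
      rw [← mul_smul, hqx', mul_smul, hxb]
  have heven := cent_Q_even hS hX h3
  obtain ⟨w, hw⟩ := exists_prime_orderOf_dvd_card' 2 (even_iff_two_dvd.1 heven)
  have hw1 : (w : G) ≠ 1 := by
    intro h
    have : w = 1 := Subtype.ext h
    rw [this, orderOf_one] at hw
    exact absurd hw (by decide)
  have hw2 : (w : G) * (w : G) = 1 := by
    have := pow_orderOf_eq_one w
    rw [hw, pow_two] at this
    exact congrArg Subtype.val this
  have hwQ : (w : G) ∈ Q := (Subgroup.mem_inf.1 w.2).2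
  have hwx : x * (w : G) = (w : G) * x := by
    have := (Subgroup.mem_inf.1 w.2).1
    exact mem_cent_singleton.1 this
  have hwI : (w : G) ∈ Cfsg.involutionsIn (MulAction.stabilizer G a : Set G) := ⟨hS.le hwQ, hw1, hw2⟩
  apply hx1
  apply K_inj hS hwI hx (one_mem_K _)
  rw [hwx]; group

/-- Subsets of `C_D(t)` conjugate in `G` are conjugate in `C_D(t)`. -/
theorem cent_conj (hS : Cfsg.IsRankOneSetup G Ω a t Q) (X : Set G)
    (hX : X ⊆ (((MulAction.stabilizer G a ⊓ MulAction.stabilizer G (t • a)) ⊓ Subgroup.centralizer {t} : Subgroup G) : Set G))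
    (g : G)
    (hY : (fun x => g * x * g⁻¹) '' X ⊆
      (((MulAction.stabilizer G a ⊓ MulAction.stabilizer G (t • a)) ⊓ Subgroup.centralizer {t} : Subgroup G) : Set G)) :
    ∃ v ∈ (MulAction.stabilizer G a ⊓ MulAction.stabilizer G (t • a)) ⊓ Subgroup.centralizer {t},
      (fun x => v * x * v⁻¹) '' X = (fun x => g * x * g⁻¹) '' X := by
  have htinv := t_inv hS
  have hXa : ∀ x ∈ X, x • a = a := fun x hx => (Subgroup.mem_inf.1 (hX hx)).1.1
  have hXb : ∀ x ∈ X, x • (t • a) = t • a := fun x hx => (Subgroup.mem_inf.1 (hX hx)).1.2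
  have hXt : ∀ x ∈ X, t * x = x * t := fun x hx => mem_cent_singleton.1 (Subgroup.mem_inf.1 (hX hx)).2
  have hYa : ∀ x ∈ X, (g * x * g⁻¹) • a = a :=
    fun x hx => (Subgroup.mem_inf.1 (hY ⟨x, hx, rfl⟩)).1.1
  have hYb : ∀ x ∈ X, (g * x * g⁻¹) • (t • a) = t • a :=
    fun x hx => (Subgroup.mem_inf.1 (hY ⟨x, hx, rfl⟩)).1.2
  have hYt : ∀ x ∈ X, t * (g * x * g⁻¹) = (g * x * g⁻¹) * t :=
    fun x hx => mem_cent_singleton.1 (Subgroup.mem_inf.1 (hY ⟨x, hx, rfl⟩)).2
  -- the fixed point of `t`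
  obtain ⟨c, hc⟩ := exists_fixed hS hS.mul_self
  have hca : c ≠ a := by
    intro h; rw [h] at hc; exact ta_ne hS hc
  have hcb : c ≠ t • a := by
    intro h
    have h' : t • (t • a) = t • a := by rw [← h, hc]
    rw [tta hS] at h'
    exact ta_ne hS h'.symm
  have hXc : ∀ x ∈ X, x • c = c := by
    intro x hx
    apply fixed_unique hS hS.ne_one hS.mul_self _ hc
    rw [← mul_smul, hXt x hx, mul_smul, hc]
  have h3 : ∃ b c d : Ω, b ≠ c ∧ b ≠ d ∧ c ≠ d ∧ ∀ x ∈ X, x • b = b ∧ x • c = c ∧ x • d = d :=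
    ⟨a, t • a, c, (ta_ne hS).symm, hca.symm, hcb.symm, fun x hx => ⟨hXa x hx, hXb x hx, hXc x hx⟩⟩
  have hfa : ∀ x ∈ X, x • (g⁻¹ • a) = g⁻¹ • a := by
    intro x hx
    have := hYa x hx
    rw [mul_smul, mul_smul] at this
    exact eq_inv_smul_iff.2 this
  have hfb : ∀ x ∈ X, x • (g⁻¹ • (t • a)) = g⁻¹ • (t • a) := by
    intro x hx
    have := hYb x hx
    rw [mul_smul, mul_smul] at this
    exact eq_inv_smul_iff.2 this
  have hne : g⁻¹ • a ≠ g⁻¹ • (t • a) := fun h => ta_ne hS (smul_left_cancel _ h).symm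
  obtain ⟨n, hn, hna, hnb⟩ := cent_two_trans hS h3 (b₁ := a) (b₂ := t • a) (c₁ := g⁻¹ • a) (c₂ := g⁻¹ • (t • a))
    (fun x hx => ⟨hXa x hx, hXb x hx, hfa x hx, hfb x hx⟩) (ta_ne hS).symm hne
  -- `d = g * n` lies in the two-point stabiliser and conjugates like `g`
  have hd : g * n ∈ MulAction.stabilizer G a ⊓ MulAction.stabilizer G (t • a) := by
    constructor
    · show (g * n) • a = a
      rw [mul_smul, hna, smul_inv_smul]
    · show (g * n) • (t • a) = t • a
      rw [mul_smul, hnb, smul_inv_smul]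
  have hdx : ∀ x ∈ X, (g * n) * x * (g * n)⁻¹ = g * x * g⁻¹ := by
    intro x hx
    have h1 : x * n = n * x := Subgroup.mem_centralizer_iff.1 hn x hx
    calc (g * n) * x * (g * n)⁻¹ = g * (n * x) * n⁻¹ * g⁻¹ := by group
      _ = g * (x * n) * n⁻¹ * g⁻¹ := by rw [h1]
      _ = g * x * g⁻¹ := by group
  -- `t' = d t d⁻¹` interchanges `a` and `t • a` and centralises `Y`
  set d : G := g * n with hddef
  have ht'2 : (d * t * d⁻¹) * (d * t * d⁻¹) = 1 := conj_sq_one hS.mul_self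
  have hda : d • a = a := hd.1
  have hdb : d • (t • a) = t • a := hd.2
  have hda' : d⁻¹ • a = a := by rw [inv_smul_eq_iff, hda]
  have ht'a : (d * t * d⁻¹) • a = t • a := by
    rw [mul_smul, mul_smul, hda', hdb]
  -- `k' = t * t'` is inverted by `t`, lies in `D` and centralises `Y`
  have hk' : t * (d * t * d⁻¹) ∈ Cfsg.invertedBy (MulAction.stabilizer G a ⊓ MulAction.stabilizer G (t • a)) t := by
    refine ⟨⟨?_, ?_⟩, ?_⟩
    · show (t * (d * t * d⁻¹)) • a = a
      rw [mul_smul, ht'a, tta hS]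
    · show (t * (d * t * d⁻¹)) • (t • a) = t • a
      rw [mul_smul]
      have : (d * t * d⁻¹) • (t • a) = a := by
        rw [mul_smul, mul_smul, inv_smul_eq_iff.2 hdb.symm, tta hS, hda]
      rw [this]
    · rw [htinv]
      have e1 : (t * (d * t * d⁻¹))⁻¹ = (d * t * d⁻¹) * t := by
        rw [mul_inv_rev, htinv]
        congr 1
        exact inv_eq_of_mul_eq_one_left ht'2
      rw [e1]
      calc t * (t * (d * t * d⁻¹)) * t = (t * t) * (d * t * d⁻¹) * t := by group
        _ = d * t * d⁻¹ * t := by rw [hS.mul_self, one_mul]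
  have hk'Y : ∀ x ∈ X, (t * (d * t * d⁻¹)) * (g * x * g⁻¹) = (g * x * g⁻¹) * (t * (d * t * d⁻¹)) := by
    intro x hx
    have h1 := hYt x hx
    have h2 : (d * t * d⁻¹) * (g * x * g⁻¹) = (g * x * g⁻¹) * (d * t * d⁻¹) := by
      rw [← hdx x hx]
      calc d * t * d⁻¹ * (d * x * d⁻¹) = d * (t * x) * d⁻¹ := by group
        _ = d * (x * t) * d⁻¹ := by rw [hXt x hx]
        _ = d * x * d⁻¹ * (d * t * d⁻¹) := by group
    calc t * (d * t * d⁻¹) * (g * x * g⁻¹) = t * ((d * t * d⁻¹) * (g * x * g⁻¹)) := by group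
      _ = t * ((g * x * g⁻¹) * (d * t * d⁻¹)) := by rw [h2]
      _ = (t * (g * x * g⁻¹)) * (d * t * d⁻¹) := by group
      _ = (g * x * g⁻¹) * t * (d * t * d⁻¹) := by rw [h1]
      _ = (g * x * g⁻¹) * (t * (d * t * d⁻¹)) := by group
  -- square root of `k'`
  obtain ⟨l, hl⟩ := hS.odd_card
  have h5 : (⟨t * (d * t * d⁻¹), hk'.1⟩ : ↥(MulAction.stabilizer G a ⊓ MulAction.stabilizer G (t • a))) ^
      Nat.card ↥(MulAction.stabilizer G a ⊓ MulAction.stabilizer G (t • a)) = 1 := pow_card_eq_one'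
  rw [hl] at h5
  have h6 : (t * (d * t * d⁻¹)) ^ (2 * l + 1) = 1 := by
    have := congrArg Subtype.val h5
    simpa using this
  set k : G := (t * (d * t * d⁻¹)) ^ (l + 1) with hk
  have hkk : k * k = t * (d * t * d⁻¹) := by
    rw [hk, ← pow_add, show l + 1 + (l + 1) = (2 * l + 1) + 1 by ring, pow_succ, h6, one_mul]
  have hkinv : t * k * t⁻¹ = k⁻¹ := by
    rw [hk, ← conj_pow, hk'.2, inv_pow]
  have hkD : k ∈ MulAction.stabilizer G a ⊓ MulAction.stabilizer G (t • a) := Subgroup.pow_mem _ hk'.1 _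
  have hkY : ∀ x ∈ X, k * (g * x * g⁻¹) = (g * x * g⁻¹) * k := by
    intro x hx
    have : Commute (t * (d * t * d⁻¹)) (g * x * g⁻¹) := hk'Y x hx
    exact (this.pow_left (l + 1)).eq
  -- `v = k * d`
  have htk : t * k = k⁻¹ * t := by
    calc t * k = t * k * t⁻¹ * t := by group
      _ = k⁻¹ * t := by rw [hkinv]
  have hvt : t * (k * d) = (k * d) * t := by
    have e1 : d * t * d⁻¹ = t * (k * k) := by
      rw [hkk, ← mul_assoc, hS.mul_self, one_mul]
    have e2 : d * t = t * (k * k) * d := by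
      calc d * t = (d * t * d⁻¹) * d := by group
        _ = t * (k * k) * d := by rw [e1]
    calc t * (k * d) = (t * k) * d := by group
      _ = k⁻¹ * t * d := by rw [htk]
      _ = k * (k⁻¹ * (k⁻¹ * t)) * d := by group
      _ = k * (k⁻¹ * (t * k)) * d := by rw [htk]
      _ = k * ((k⁻¹ * t) * k) * d := by group
      _ = k * ((t * k) * k) * d := by rw [htk]
      _ = k * (t * (k * k) * d) := by group
      _ = k * (d * t) := by rw [e2]
      _ = (k * d) * t := by group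
  refine ⟨k * d, Subgroup.mem_inf.2 ⟨Subgroup.mul_mem _ hkD hd, mem_cent_singleton.2 hvt⟩, ?_⟩
  apply Set.image_congr
  intro x hx
  show k * d * x * (k * d)⁻¹ = g * x * g⁻¹
  calc k * d * x * (k * d)⁻¹ = k * (d * x * d⁻¹) * k⁻¹ := by group
    _ = k * (g * x * g⁻¹) * k⁻¹ := by rw [hdx x hx]
    _ = (g * x * g⁻¹) * k * k⁻¹ := by rw [hkY x hx]
    _ = g * x * g⁻¹ := by group

end Finite

end Cfsg.Agent.Lib.Helper19.RankOne
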