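import Mathlib
import Cfsg.Prelude.Def_LieRecognition
import Cfsg.Agent.Lib.Helper19.RankOne6
import Cfsg.Agent.S0065

set_option autoImplicit false

namespace Cfsg.Agent.Lib.Helper19.RankOne

variable {G Ω : Type*} [Group G] [MulAction G Ω] {a : Ω} {t : G} {Q : Subgroup G}

theorem inverted_pow {D : Subgroup G} {k : G} (hk : k ∈ Cfsg.invertedBy D t) (m : ℕ) :
    k ^ m ∈ Cfsg.invertedBy D t := by
  refine ⟨pow_mem hk.1 m, ?_⟩
  rw [← conj_pow, hk.2, inv_pow]

section Finite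

variable [Finite G]

/-- Two distinct involutions in the point stabiliser. -/
theorem two_inv_stab (hS : Cfsg.IsRankOneSetup G Ω a t Q)
    (h2 : ∃ x y : G, x ≠ 1 ∧ y ≠ 1 ∧ x ≠ y ∧ x * x = 1 ∧ y * y = 1 ∧ x * y = y * x) :
    ∃ s s' : G, s ∈ Cfsg.involutionsIn (MulAction.stabilizer G a : Set G) ∧
      s' ∈ Cfsg.involutionsIn (MulAction.stabilizer G a : Set G) ∧ s ≠ s' := by
  obtain ⟨x, y, hx1, hy1, hxy, hx2, hy2, hcomm⟩ := h2
  obtain ⟨c, hc⟩ := exists_fixed hS hx2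
  have hyc : x • (y • c) = y • c := by
    rw [← mul_smul, hcomm, mul_smul, hc]
  have hcy : c = y • c := fixed_unique hS hx1 hx2 hc hyc
  obtain ⟨g, hg⟩ := trans hS c a
  have hga : g⁻¹ • a = c := by rw [← hg, inv_smul_smul]
  refine ⟨g * x * g⁻¹, g * y * g⁻¹, ⟨?_, conj_ne_one hx1, conj_sq_one hx2⟩,
    ⟨?_, conj_ne_one hy1, conj_sq_one hy2⟩, ?_⟩
  · show (g * x * g⁻¹) • a = a
    rw [mul_smul, mul_smul, hga, hc, hg]
  · show (g * y * g⁻¹) • a = a
    rw [mul_smul, mul_smul, hga, ← hcy, hg]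
  · intro h
    apply hxy
    have := congrArg (fun z => g⁻¹ * z * g) h
    simpa [mul_assoc] using this

/-- A non-identity element inverted by `t`. -/
theorem exists_K_ne_one (hS : Cfsg.IsRankOneSetup G Ω a t Q)
    (h2 : ∃ x y : G, x ≠ 1 ∧ y ≠ 1 ∧ x ≠ y ∧ x * x = 1 ∧ y * y = 1 ∧ x * y = y * x) :
    ∃ k ∈ Cfsg.invertedBy (MulAction.stabilizer G a ⊓ MulAction.stabilizer G (t • a)) t, k ≠ 1 := by
  obtain ⟨s, s', hs, hs', hne⟩ := two_inv_stab hS h2
  obtain ⟨k, hk, hks⟩ := K_surj hS hs hs'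
  refine ⟨k, hk, ?_⟩
  rintro rfl
  apply hne
  simpa using hks

/-- An element of prime order inverted by `t`. -/
theorem exists_K_prime (hS : Cfsg.IsRankOneSetup G Ω a t Q)
    (h2 : ∃ x y : G, x ≠ 1 ∧ y ≠ 1 ∧ x ≠ y ∧ x * x = 1 ∧ y * y = 1 ∧ x * y = y * x) :
    ∃ k ∈ Cfsg.invertedBy (MulAction.stabilizer G a ⊓ MulAction.stabilizer G (t • a)) t,
      ∃ p : ℕ, p.Prime ∧ orderOf k = p := by
  obtain ⟨k, hk, hk1⟩ := exists_K_ne_one hS h2
  have hpos : 0 < orderOf k := orderOf_pos k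
  have hne1 : orderOf k ≠ 1 := fun h => hk1 (orderOf_eq_one_iff.mp h)
  refine ⟨k ^ (orderOf k / (orderOf k).minFac), inverted_pow hk _, (orderOf k).minFac,
    Nat.minFac_prime hne1, ?_⟩
  exact orderOf_pow_orderOf_div hpos.ne' (Nat.minFac_dvd _)

/-- Conjugation by an element of the point stabiliser, as an automorphism of `Q`. -/
def conjQ (hS : Cfsg.IsRankOneSetup G Ω a t Q) (k : G) (hk : k ∈ MulAction.stabilizer G a) :
    ↥Q ≃* ↥Q where
  toFun q := ⟨k * q * k⁻¹, hS.conj_mem k hk q q.2⟩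
  invFun q := ⟨k⁻¹ * q * k, by
    have := hS.conj_mem k⁻¹ (inv_mem hk) q q.2
    rwa [inv_inv] at this⟩
  left_inv q := Subtype.ext (by simp [mul_assoc])
  right_inv q := Subtype.ext (by simp [mul_assoc])
  map_mul' q q' := Subtype.ext (by simp [mul_assoc])

omit [Finite G] in
theorem conjQ_apply (hS : Cfsg.IsRankOneSetup G Ω a t Q) (k : G) (hk : k ∈ MulAction.stabilizer G a)
    (q : Q) : ((conjQ hS k hk q : Q) : G) = k * q * k⁻¹ := rfl

omit [Finite G] in
theorem conjQ_pow (hS : Cfsg.IsRankOneSetup G Ω a t Q) (k : G) (hk : k ∈ MulAction.stabilizer G a)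
    (m : ℕ) (q : Q) : (((conjQ hS k hk) ^ m) q : G) = k ^ m * q * (k ^ m)⁻¹ := by
  induction m generalizing q with
  | zero => simp
  | succ m ih =>
    rw [pow_succ, MulAut.mul_apply, ih, conjQ_apply, pow_succ]
    simp [mul_assoc]

/-- `Q` is nilpotent, given Thompson's theorem for `Q`. -/
theorem Q_nilpotent_of_thompson (hS : Cfsg.IsRankOneSetup G Ω a t Q)
    (h2 : ∃ x y : G, x ≠ 1 ∧ y ≠ 1 ∧ x ≠ y ∧ x * x = 1 ∧ y * y = 1 ∧ x * y = y * x)
    (hT : ∀ (φ : ↥Q ≃* ↥Q), MonoidHom.FixedPointFree (φ : ↥Q →* ↥Q) → ∀ p : ℕ, p.Prime →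
      orderOf φ = p → Group.IsNilpotent ↥Q) : Group.IsNilpotent ↥Q := by
  obtain ⟨k, hk, p, hp, hord⟩ := exists_K_prime hS h2
  have hkD := hk.1
  have hka : k ∈ MulAction.stabilizer G a := hkD.1
  have hk1 : k ≠ 1 := by
    intro h
    rw [h, orderOf_one] at hord
    exact hp.one_lt.ne hord
  have hfpf := K_fpf hS hk hk1
  have hfix : MonoidHom.FixedPointFree ((conjQ hS k hka : ↥Q ≃* ↥Q) : ↥Q →* ↥Q) := by
    intro q hq
    have hq' : k * (q : G) * k⁻¹ = q := congrArg Subtype.val hq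
    have hmem : (q : G) ∈ Q ⊓ Subgroup.centralizer {k} := by
      refine ⟨q.2, mem_cent_singleton.mpr ?_⟩
      calc k * (q : G) = (k * (q : G) * k⁻¹) * k := by group
        _ = (q : G) * k := by rw [hq']
    rw [hfpf, Subgroup.mem_bot] at hmem
    exact Subtype.ext hmem
  apply hT (conjQ hS k hka) hfix p hp
  have : Fact p.Prime := ⟨hp⟩
  apply orderOf_eq_prime
  · ext q
    rw [conjQ_pow, ← hord, pow_orderOf_eq_one]
    simp
  · intro h1
    obtain ⟨x, hx, hx1⟩ := Q_ne_bot hS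
    apply hx1
    have := hfix ⟨x, hx⟩ (by
      show (conjQ hS k hka) ⟨x, hx⟩ = ⟨x, hx⟩
      rw [h1]; rfl)
    exact congrArg Subtype.val this

/-- Involutions of the point stabiliser are central in `Q` when `Q` is nilpotent. -/
theorem invol_central (hS : Cfsg.IsRankOneSetup G Ω a t Q)
    (hnil : Group.IsNilpotent ↥Q) :
    ∀ s ∈ Cfsg.involutionsIn (MulAction.stabilizer G a : Set G), s ∈ Q ∧ ∀ x ∈ Q, s * x = x * s := by
  -- a central involution
  have hex : ∃ z : Q, z ≠ 1 ∧ z * z = 1 ∧ z ∈ Subgroup.center ↥Q := by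
    have : Fact (Nat.Prime 2) := ⟨Nat.prime_two⟩
    obtain ⟨P⟩ : Nonempty (Sylow 2 ↥Q) := inferInstance
    have h4 := (Group.isNilpotent_of_finite_tfae (G := ↥Q)).out 0 3
    have hPn : (P : Subgroup ↥Q).Normal := h4.mp hnil 2 inferInstance P
    have hPne : (P : Subgroup ↥Q) ≠ ⊥ := by
      apply Sylow.ne_bot_of_dvd_card
      exact even_iff_two_dvd.mp hS.even_card
    have hne := Cfsg.Agent.S0065.result (P : Subgroup ↥Q) hPne
    obtain ⟨z, hz1⟩ := (Subgroup.ne_bot_iff_exists_ne_one).mp hne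
    have hzP : (z : ↥Q) ∈ (P : Subgroup ↥Q) := z.2.1
    have hzZ : (z : ↥Q) ∈ Subgroup.center ↥Q := z.2.2
    have hz1' : (z : ↥Q) ≠ 1 := fun h => hz1 (Subtype.ext h)
    obtain ⟨m, hm⟩ := (IsPGroup.iff_orderOf.mp P.isPGroup') ⟨(z : ↥Q), hzP⟩
    have hm' : orderOf (z : ↥Q) = 2 ^ m := by
      rw [← hm]; exact (Subgroup.orderOf_mk _ _).symm
    have hm0 : m ≠ 0 := by
      rintro rfl
      rw [pow_zero, orderOf_eq_one_iff] at hm'
      exact hz1' hm'
    have h2dvd : 2 ∣ orderOf (z : ↥Q) := by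
      rw [hm']; exact dvd_pow_self 2 hm0
    have hord : orderOf ((z : ↥Q) ^ (orderOf (z : ↥Q) / 2)) = 2 :=
      orderOf_pow_orderOf_div (orderOf_pos _).ne' h2dvd
    refine ⟨(z : ↥Q) ^ (orderOf (z : ↥Q) / 2), ?_, ?_, pow_mem hzZ _⟩
    · intro h
      rw [h, orderOf_one] at hord
      omega
    · rw [← pow_two]
      have := pow_orderOf_eq_one ((z : ↥Q) ^ (orderOf (z : ↥Q) / 2))
      rwa [hord] at this
  obtain ⟨z, hz1, hz2, hzZ⟩ := hex
  have hs₀ : (z : G) ∈ Cfsg.involutionsIn (MulAction.stabilizer G a : Set G) := by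
    refine ⟨hS.le z.2, fun h => hz1 (Subtype.ext h), ?_⟩
    exact congrArg Subtype.val hz2
  have hcomm₀ : ∀ x ∈ Q, (z : G) * x = x * (z : G) := by
    intro x hx
    have := Subgroup.mem_center_iff.mp hzZ ⟨x, hx⟩
    exact (congrArg Subtype.val this).symm
  intro s hs
  refine ⟨inv_mem_Q hS hs.1 hs.2.2, ?_⟩
  obtain ⟨k, hk, hks⟩ := K_surj hS hs₀ hs
  have hka : k ∈ MulAction.stabilizer G a := hk.1.1
  intro x hx
  have hx' : k⁻¹ * x * k ∈ Q := by
    have := hS.conj_mem k⁻¹ (inv_mem hka) x hx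
    rwa [inv_inv] at this
  have h1 := hcomm₀ _ hx'
  rw [← hks]
  calc k * (z : G) * k⁻¹ * x = k * ((z : G) * (k⁻¹ * x * k)) * k⁻¹ := by group
    _ = k * ((k⁻¹ * x * k) * (z : G)) * k⁻¹ := by rw [h1]
    _ = x * (k * (z : G) * k⁻¹) := by group

/-- The full statement on involutions of the point stabiliser. -/
theorem invol_closed (hS : Cfsg.IsRankOneSetup G Ω a t Q)
    (hnil : Group.IsNilpotent ↥Q) :
    (∀ s ∈ Cfsg.involutionsIn (MulAction.stabilizer G a : Set G), s ∈ Q ∧ ∀ x ∈ Q, s * x = x * s) ∧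
      ∀ s ∈ Cfsg.involutionsIn (MulAction.stabilizer G a : Set G),
        ∀ s' ∈ Cfsg.involutionsIn (MulAction.stabilizer G a : Set G),
        s * s' = 1 ∨ s * s' ∈ Cfsg.involutionsIn (MulAction.stabilizer G a : Set G) := by
  have h := invol_central hS hnil
  refine ⟨h, ?_⟩
  intro s hs s' hs'
  by_cases h1 : s * s' = 1
  · exact Or.inl h1
  · right
    refine ⟨mul_mem hs.1 hs'.1, h1, ?_⟩
    have hc := (h s hs).2 s' (h s' hs').1
    calc s * s' * (s * s') = s * (s' * s) * s' := by group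
      _ = s * (s * s') * s' := by rw [hc]
      _ = (s * s) * (s' * s') := by group
      _ = 1 := by rw [hs.2.2, hs'.2.2, one_mul]

/-- Two involutions with a common fixed point commute. -/
theorem invol_comm_of_fix (hS : Cfsg.IsRankOneSetup G Ω a t Q)
    (hnil : Group.IsNilpotent ↥Q) {u v : G} (hu1 : u ≠ 1) (hu2 : u * u = 1) (hv1 : v ≠ 1)
    (hv2 : v * v = 1) {c : Ω} (huc : u • c = c) (hvc : v • c = c) : u * v = v * u := by
  obtain ⟨g, hg⟩ := trans hS c a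
  have hga : g⁻¹ • a = c := by rw [← hg, inv_smul_smul]
  have hu' : g * u * g⁻¹ ∈ Cfsg.involutionsIn (MulAction.stabilizer G a : Set G) := by
    refine ⟨?_, conj_ne_one hu1, conj_sq_one hu2⟩
    show (g * u * g⁻¹) • a = a
    rw [mul_smul, mul_smul, hga, huc, hg]
  have hv' : g * v * g⁻¹ ∈ Cfsg.involutionsIn (MulAction.stabilizer G a : Set G) := by
    refine ⟨?_, conj_ne_one hv1, conj_sq_one hv2⟩
    show (g * v * g⁻¹) • a = a
    rw [mul_smul, mul_smul, hga, hvc, hg]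
  have h := (invol_central hS hnil _ hu').2 _ (invol_central hS hnil _ hv').1
  have := congrArg (fun z => g⁻¹ * z * g) h
  simpa [mul_assoc] using this

end Finite

end Cfsg.Agent.Lib.Helper19.RankOne
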