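import Mathlib
import Cfsg.Prelude.Def_LieRecognition
import Cfsg.Agent.Lib.Helper19.RankOne7

set_option autoImplicit false

namespace Cfsg.Agent.Lib.Helper19.RankOne

/-- A fixed-point-free involution on a finite set forces even cardinality. -/
theorem even_card_of_fpf_invol {α : Type*} (F : Finset α) (σ : α → α)
    (hmem : ∀ c ∈ F, σ c ∈ F) (hinv : ∀ c ∈ F, σ (σ c) = c) (hfpf : ∀ c ∈ F, σ c ≠ c) :
    Even F.card := by
  have h : ∑ _c ∈ F, (1 : ZMod 2) = 0 :=
    Finset.sum_involution (fun c _ => σ c) (fun _ _ => by decide) (fun c hc _ => hfpf c hc)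
      (fun c hc => hmem c hc) (fun c hc => hinv c hc)
  rw [Finset.sum_const, nsmul_eq_mul, mul_one] at h
  exact ZMod.natCast_eq_zero_iff_even.mp h

variable {G Ω : Type*} [Group G] [MulAction G Ω] {a : Ω} {t : G} {Q : Subgroup G}

section Finite

variable [Finite G]

/-- Two involutions whose product is not an involution have no common fixed point. -/
theorem no_common_fix (hS : Cfsg.IsRankOneSetup G Ω a t Q) (hnil : Group.IsNilpotent ↥Q)
    {u v : G} (hu1 : u ≠ 1) (hu2 : u * u = 1) (hv1 : v ≠ 1) (hv2 : v * v = 1)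
    (hx : (u * v) * (u * v) ≠ 1) {c : Ω} (huc : u • c = c) : v • c ≠ c := by
  intro hvc
  apply hx
  have hc := invol_comm_of_fix hS hnil hu1 hu2 hv1 hv2 huc hvc
  calc u * v * (u * v) = u * (v * u) * v := by group
    _ = u * (u * v) * v := by rw [hc]
    _ = (u * u) * (v * v) := by group
    _ = 1 := by rw [hu2, hv2, one_mul]

/-- A product of two involutions which is not an involution is conjugate to `u' * t`. -/
theorem prod_invol_conj (hS : Cfsg.IsRankOneSetup G Ω a t Q) (hnil : Group.IsNilpotent ↥Q)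
    (u v : G) (hu1 : u ≠ 1) (hu2 : u * u = 1) (hv1 : v ≠ 1) (hv2 : v * v = 1)
    (hx : (u * v) * (u * v) ≠ 1) :
    ∃ g : G, ∃ u' ∈ Cfsg.involutionsIn (MulAction.stabilizer G a : Set G),
      g * (u * v) * g⁻¹ = u' * t := by
  obtain ⟨cu, hcu⟩ := exists_fixed hS hu2
  have hvcu := no_common_fix hS hnil hu1 hu2 hv1 hv2 hx hcu
  obtain ⟨g₀, hg₀⟩ := trans hS cu a
  have hg₀a : g₀⁻¹ • a = cu := by rw [← hg₀, inv_smul_smul]
  -- v₁ = g₀ v g₀⁻¹ moves a
  have hv₁a : (g₀ * v * g₀⁻¹) • a ≠ a := by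
    rw [mul_smul, mul_smul, hg₀a]
    intro h
    apply hvcu
    have := congrArg (fun c => g₀⁻¹ • c) h
    simpa [hg₀a] using this
  obtain ⟨q, hq, hqa⟩ := Q_trans hS hv₁a
  have hqstab : q ∈ MulAction.stabilizer G a := hS.le hq
  have hqa' : q • a = a := hqstab
  have hqinv : q⁻¹ • a = a := by
    have := congrArg (fun c => q⁻¹ • c) hqa'
    simpa using this.symm
  -- v₂ = q⁻¹ v₁ q maps a to t • a
  have hv₂a : (q⁻¹ * (g₀ * v * g₀⁻¹) * q) • a = t • a := by
    rw [mul_smul, mul_smul, hqa', ← hqa, inv_smul_smul]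
  have hv₂sq : (q⁻¹ * (g₀ * v * g₀⁻¹) * q) * (q⁻¹ * (g₀ * v * g₀⁻¹) * q) = 1 := by
    have : (q⁻¹ * (g₀ * v * g₀⁻¹) * q) * (q⁻¹ * (g₀ * v * g₀⁻¹) * q) =
        q⁻¹ * g₀ * (v * v) * g₀⁻¹ * q := by group
    rw [this, hv2]
    group
  obtain ⟨k, hk, hkt⟩ := swap_conj hS hv₂sq hv₂a
  have hka : k • a = a := hk.1
  refine ⟨k * q⁻¹ * g₀, (k * q⁻¹ * g₀) * u * (k * q⁻¹ * g₀)⁻¹,
    ⟨?_, conj_ne_one hu1, conj_sq_one hu2⟩, ?_⟩
  · show ((k * q⁻¹ * g₀) * u * (k * q⁻¹ * g₀)⁻¹) • a = a
    have h1 : (k * q⁻¹ * g₀)⁻¹ • a = cu := by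
      rw [mul_inv_rev, mul_inv_rev, inv_inv, mul_smul, mul_smul]
      have hkinv : k⁻¹ • a = a := by
        have := congrArg (fun c => k⁻¹ • c) hka
        simpa using this.symm
      rw [hkinv, hqa', hg₀a]
    rw [mul_smul, h1, mul_smul, hcu, mul_smul, mul_smul, hg₀, hqinv, hka]
  · rw [hkt]
    group

/-- The centraliser of such a product has odd order. -/
theorem prod_invol_cent (hS : Cfsg.IsRankOneSetup G Ω a t Q) (hnil : Group.IsNilpotent ↥Q)
    (u v : G) (hu1 : u ≠ 1) (hu2 : u * u = 1) (hv1 : v ≠ 1) (hv2 : v * v = 1)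
    (hx : (u * v) * (u * v) ≠ 1) : Odd (Nat.card ↥(Subgroup.centralizer {u * v})) := by
  classical
  by_contra hodd
  rw [Nat.not_odd_iff_even, even_iff_two_dvd] at hodd
  have : Fact (Nat.Prime 2) := ⟨Nat.prime_two⟩
  obtain ⟨w, hw⟩ := exists_prime_orderOf_dvd_card' 2 hodd
  have hw1 : (w : G) ≠ 1 := by
    intro h
    have : w = 1 := Subtype.ext h
    rw [this, orderOf_one] at hw
    omega
  have hw2 : (w : G) * (w : G) = 1 := by
    have := pow_orderOf_eq_one w
    rw [hw, pow_two] at this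
    exact congrArg Subtype.val this
  have hwx : (u * v) * (w : G) = (w : G) * (u * v) := mem_cent_singleton.mp w.2
  have := finite_Omega hS
  have := Fintype.ofFinite Ω
  obtain ⟨e, he⟩ := exists_fixed hS hw2
  have hxe : (u * v) • e = e := by
    have h1 : (w : G) • ((u * v) • e) = (u * v) • e := by
      rw [← mul_smul, ← hwx, mul_smul, he]
    exact (fixed_unique hS hw1 hw2 he h1).symm
  set F : Finset Ω := Finset.univ.filter (fun c => (u * v) • c = c) with hF
  have hmemF : ∀ c, c ∈ F ↔ (u * v) • c = c := by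
    intro c
    simp [hF]
  -- F has odd cardinality
  have hFodd : ¬ Even F.card := by
    have h1 : Even (F.erase e).card := by
      apply even_card_of_fpf_invol (F.erase e) (fun c => (w : G) • c)
      · intro c hc
        rw [Finset.mem_erase] at hc ⊢
        refine ⟨?_, ?_⟩
        · intro h
          apply hc.1
          exact fixed_unique hS hw1 hw2 (by
            show (w : G) • c = c
            have h2 : (w : G) • ((w : G) • c) = (w : G) • e := by rw [h]
            rw [← mul_smul, hw2, one_smul, he] at h2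
            rw [h2, he]) he
        · rw [hmemF] at hc ⊢
          rw [← mul_smul, hwx, mul_smul, hc.2]
      · intro c _
        show (w : G) • ((w : G) • c) = c
        rw [← mul_smul, hw2, one_smul]
      · intro c hc h
        rw [Finset.mem_erase] at hc
        exact hc.1 (fixed_unique hS hw1 hw2 h he)
    have heF : e ∈ F := (hmemF e).mpr hxe
    rw [Finset.card_erase_of_mem heF] at h1
    have hpos : 0 < F.card := Finset.card_pos.mpr ⟨e, heF⟩
    intro h2
    rcases h1 with ⟨r, hr⟩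
    rcases h2 with ⟨r', hr'⟩
    omega
  -- u preserves F
  have hux : (u * v) * u = u * (u * v)⁻¹ := by
    have hu' : u⁻¹ = u := inv_eq_of_mul_eq_one_left hu2
    have hv' : v⁻¹ = v := inv_eq_of_mul_eq_one_left hv2
    rw [mul_inv_rev, hu', hv']
    group
  have huF : ∀ c ∈ F, u • c ∈ F := by
    intro c hc
    rw [hmemF] at hc ⊢
    have hc' : (u * v)⁻¹ • c = c := inv_smul_eq_iff.mpr hc.symm
    rw [← mul_smul, hux, mul_smul, hc']
  -- u has a fixed point in F
  have hfix : ∃ f ∈ F, u • f = f := by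
    by_contra hno
    push Not at hno
    apply hFodd
    apply even_card_of_fpf_invol F (fun c => u • c) huF
    · intro c _
      show u • (u • c) = c
      rw [← mul_smul, hu2, one_smul]
    · exact hno
  obtain ⟨f, hfF, huf⟩ := hfix
  rw [hmemF] at hfF
  have hvf : v • f = f := by
    have h1 : u • (v • f) = f := by rw [← mul_smul]; exact hfF
    exact MulAction.injective u (h1.trans huf.symm)
  exact no_common_fix hS hnil hu1 hu2 hv1 hv2 hx huf hvf

end Finite

end Cfsg.Agent.Lib.Helper19.RankOne
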