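import Cfsg.Agent.Lib.Helper19.F4

/-!
# The symplectic group `Sp₄(4)` over the concrete field `F4`

* `ρ'`: the faithful action of `Matrix.symplecticGroup (Fin 2) F4` on the 256 vectors of `F4⁴`,
  the vectors being numbered by `enc`/`dec`.
* `card_le`: the group has order at most `255 * 64 * 15 * 4 = 979200` (images of a symplectic
  basis).
-/

set_option autoImplicit false

namespace Cfsg.Agent.Lib.Helper19.Sp4

open Matrix Equiv MulAction

/-- the index type of the symplectic matrices -/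
abbrev I4 : Type := Fin 2 ⊕ Fin 2

/-- the vectors -/
abbrev V : Type := I4 → F4

/-- the symplectic group `Sp₄(4)` -/
abbrev Γ : Type := Matrix.symplecticGroup (Fin 2) F4

/-- the number of a coordinate -/
def ix : I4 → ℕ
  | .inl i => i.val
  | .inr i => 2 + i.val

/-- the `k`-th base-4 digit -/
def dig (c k : ℕ) : ℕ := Nat.land (Nat.shiftRight c (2 * k)) 3

/-- the vector with number `x` -/
def dec (x : ℕ) : V := fun i => F4.ofCode (dig x (ix i))

/-- the number of a vector -/
def enc (v : V) : ℕ :=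
  F4.code (v (.inl 0)) + 4 * F4.code (v (.inl 1)) + 16 * F4.code (v (.inr 0)) +
    64 * F4.code (v (.inr 1))

/-- the matrix with code `c` -/
def mk4 (c : ℕ) : Matrix I4 I4 F4 := Matrix.of fun i j => F4.ofCode (dig c (4 * ix i + ix j))

theorem enc_lt : ∀ v : V, enc v < 256 := by decide +kernel

theorem dec_enc : ∀ v : V, dec (enc v) = v := by decide +kernel

theorem enc_dec : ∀ x : Fin 256, enc (dec x.val) = x.val := by decide +kernel

/-- the numbering of the vectors -/
def eV : V ≃ Fin 256 where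
  toFun v := ⟨enc v, enc_lt v⟩
  invFun x := dec x.val
  left_inv v := dec_enc v
  right_inv x := Fin.ext (enc_dec x)

/-- the action of the symplectic group on the vectors -/
def ρ : Γ →* Perm V where
  toFun A :=
    { toFun := fun v => A.1 *ᵥ v
      invFun := fun v => (A⁻¹).1 *ᵥ v
      left_inv := fun v => by
        show (A⁻¹).1 *ᵥ (A.1 *ᵥ v) = v
        rw [Matrix.mulVec_mulVec, ← Submonoid.coe_mul, inv_mul_cancel, Submonoid.coe_one,
          Matrix.one_mulVec]
      right_inv := fun v => by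
        show A.1 *ᵥ ((A⁻¹).1 *ᵥ v) = v
        rw [Matrix.mulVec_mulVec, ← Submonoid.coe_mul, mul_inv_cancel, Submonoid.coe_one,
          Matrix.one_mulVec] }
  map_one' := Equiv.ext fun v => by
    show (1 : Γ).1 *ᵥ v = v
    rw [Submonoid.coe_one, Matrix.one_mulVec]
  map_mul' := fun A B => Equiv.ext fun v => by
    show (A * B).1 *ᵥ v = A.1 *ᵥ (B.1 *ᵥ v)
    rw [Matrix.mulVec_mulVec, Submonoid.coe_mul]

theorem ρ_apply (A : Γ) (v : V) : ρ A v = A.1 *ᵥ v := rfl

theorem eq_one_of_fix (A : Matrix I4 I4 F4) (h : ∀ j : I4, A *ᵥ Pi.single j 1 = Pi.single j 1) :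
    A = 1 := by
  ext i j
  have hj := congrFun (h j) i
  rw [Matrix.mulVec_single_one] at hj
  have hj' : A i j = (Pi.single j (1 : F4) : I4 → F4) i := hj
  rw [Matrix.one_apply, hj', Pi.single_apply]

theorem ρ_injective : Function.Injective ρ := by
  rw [injective_iff_map_eq_one]
  intro A hA
  apply Subtype.ext
  rw [Submonoid.coe_one]
  apply eq_one_of_fix
  intro j
  have := congrArg (fun g : Perm V => g (Pi.single j 1)) hA
  simpa [ρ_apply] using this

/-- the action of the symplectic group on the numbers of the vectors -/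
def ρ' : Γ →* Perm (Fin 256) := (eV.permCongrHom.toMonoidHom).comp ρ

theorem ρ'_injective : Function.Injective ρ' := by
  intro A B h
  apply ρ_injective
  exact eV.permCongrHom.injective h

theorem ρ'_apply (A : Γ) (x : Fin 256) : (ρ' A x).val = enc (A.1 *ᵥ dec x.val) := rfl

/-! ### The order of the symplectic group -/

/-- the symplectic form -/
def ω (x y : V) : F4 := x ⬝ᵥ (J (Fin 2) F4 *ᵥ y)

theorem ω_apply (A : Γ) (x y : V) : ω (A.1 *ᵥ x) (A.1 *ᵥ y) = ω x y := by
  unfold ω
  have h := SymplecticGroup.mem_iff'.mp A.2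
  rw [Matrix.mulVec_mulVec, ← Matrix.vecMul_transpose, ← Matrix.dotProduct_mulVec,
    Matrix.mulVec_mulVec, ← Matrix.mul_assoc, h]

/-- Upper bound from an orbit: the images of `x` under `K` lie in `S`. -/
theorem orbit_upper {X : Type*} (K : Subgroup (Perm X)) [Finite K] (x : X) (S : Finset X)
    (hS : ∀ g ∈ K, g x ∈ S) :
    Nat.card K ≤ S.card * Nat.card (K ⊓ stabilizer (Perm X) x : Subgroup (Perm X)) := by
  classical
  let R : X → Perm X := fun y => if h : ∃ r ∈ K, r x = y then Classical.choose h else 1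
  have hR : ∀ g : K, R (g.1 x) ∈ K ∧ R (g.1 x) x = g.1 x := by
    intro g
    have h : ∃ r ∈ K, r x = g.1 x := ⟨g.1, g.2, rfl⟩
    simp only [R, dif_pos h]
    exact Classical.choose_spec h
  let F : K → S × (K ⊓ stabilizer (Perm X) x : Subgroup (Perm X)) := fun g =>
    (⟨g.1 x, hS g.1 g.2⟩, ⟨(R (g.1 x))⁻¹ * g.1,
      Subgroup.mem_inf.mpr ⟨mul_mem (inv_mem (hR g).1) g.2, by
        rw [mem_stabilizer_iff, Perm.smul_def, Perm.mul_apply, Perm.inv_eq_iff_eq]
        exact (hR g).2.symm⟩⟩)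
  have hF : Function.Injective F := by
    intro g g' h
    have h1 : g.1 x = g'.1 x := congrArg (fun p => (p.1 : X)) h
    have h2 : (R (g.1 x))⁻¹ * g.1 = (R (g'.1 x))⁻¹ * g'.1 :=
      congrArg (fun p => (p.2 : Perm X)) h
    rw [← h1] at h2
    exact Subtype.ext (mul_left_cancel h2)
  have hfin : Finite (K ⊓ stabilizer (Perm X) x : Subgroup (Perm X)) :=
    Finite.of_injective (Subgroup.inclusion (inf_le_left : K ⊓ stabilizer (Perm X) x ≤ K))
      (Subgroup.inclusion_injective _)
  have hS' : Nat.card S = S.card := by rw [Nat.card_eq_fintype_card, Fintype.card_coe]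
  have := Nat.card_le_card_of_injective F hF
  rwa [Nat.card_prod, hS'] at this

/-- a symplectic basis -/
def e1 : V := Pi.single (Sum.inl 0) 1
/-- a symplectic basis -/
def f1 : V := Pi.single (Sum.inr 0) 1
/-- a symplectic basis -/
def e2 : V := Pi.single (Sum.inl 1) 1
/-- a symplectic basis -/
def f2 : V := Pi.single (Sum.inr 1) 1

/-- the possible images of `e1` -/
def S1 : Finset V := Finset.univ.filter (fun w => w ≠ 0)
/-- the possible images of `f1` when `e1` is fixed -/
def S2 : Finset V := Finset.univ.filter (fun w => ω e1 w = ω e1 f1)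
/-- the possible images of `e2` when `e1`, `f1` are fixed -/
def S3 : Finset V :=
  Finset.univ.filter (fun w => w ≠ 0 ∧ ω e1 w = ω e1 e2 ∧ ω f1 w = ω f1 e2)
/-- the possible images of `f2` when `e1`, `f1`, `e2` are fixed -/
def S4 : Finset V :=
  Finset.univ.filter (fun w => ω e1 w = ω e1 f2 ∧ ω f1 w = ω f1 f2 ∧ ω e2 w = ω e2 f2)

theorem card_S1 : S1.card = 255 := by decide +kernel
theorem card_S2 : S2.card = 64 := by decide +kernel
theorem card_S3 : S3.card = 15 := by decide +kernel
theorem card_S4 : S4.card = 4 := by decide +kernel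

theorem e1_ne : e1 ≠ 0 := by decide +kernel
theorem e2_ne : e2 ≠ 0 := by decide +kernel

/-- The symplectic group `Sp₄(4)` has order at most `979200`. -/
theorem card_le : Nat.card Γ ≤ 979200 := by
  have hmem : ∀ g ∈ ρ.range, ∃ A : Γ, ∀ v, g v = A.1 *ᵥ v := by
    rintro g ⟨A, rfl⟩
    exact ⟨A, fun v => rfl⟩
  have hne : ∀ g ∈ ρ.range, ∀ v : V, v ≠ 0 → g v ≠ 0 := by
    intro g hg v hv h0
    obtain ⟨A, hA⟩ := hmem g hg
    apply hv
    apply g.injective
    rw [h0, hA, Matrix.mulVec_zero]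
  have hω : ∀ g ∈ ρ.range, ∀ x y : V, ω (g x) (g y) = ω x y := by
    intro g hg x y
    obtain ⟨A, hA⟩ := hmem g hg
    rw [hA, hA, ω_apply]
  set K0 : Subgroup (Perm V) := ρ.range with hK0
  set K1 : Subgroup (Perm V) := K0 ⊓ stabilizer (Perm V) e1 with hK1
  set K2 : Subgroup (Perm V) := K1 ⊓ stabilizer (Perm V) f1 with hK2
  set K3 : Subgroup (Perm V) := K2 ⊓ stabilizer (Perm V) e2 with hK3
  set K4 : Subgroup (Perm V) := K3 ⊓ stabilizer (Perm V) f2 with hK4
  have fix1 : ∀ g ∈ K1, g ∈ K0 ∧ g e1 = e1 := by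
    intro g hg
    obtain ⟨h0, h1⟩ := Subgroup.mem_inf.mp hg
    exact ⟨h0, by rwa [mem_stabilizer_iff, Perm.smul_def] at h1⟩
  have fix2 : ∀ g ∈ K2, g ∈ K0 ∧ g e1 = e1 ∧ g f1 = f1 := by
    intro g hg
    obtain ⟨h0, h1⟩ := Subgroup.mem_inf.mp hg
    exact ⟨(fix1 g h0).1, (fix1 g h0).2, by rwa [mem_stabilizer_iff, Perm.smul_def] at h1⟩
  have fix3 : ∀ g ∈ K3, g ∈ K0 ∧ g e1 = e1 ∧ g f1 = f1 ∧ g e2 = e2 := by
    intro g hg
    obtain ⟨h0, h1⟩ := Subgroup.mem_inf.mp hg
    exact ⟨(fix2 g h0).1, (fix2 g h0).2.1, (fix2 g h0).2.2,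
      by rwa [mem_stabilizer_iff, Perm.smul_def] at h1⟩
  have fix4 : ∀ g ∈ K4, g ∈ K0 ∧ g e1 = e1 ∧ g f1 = f1 ∧ g e2 = e2 ∧ g f2 = f2 := by
    intro g hg
    obtain ⟨h0, h1⟩ := Subgroup.mem_inf.mp hg
    exact ⟨(fix3 g h0).1, (fix3 g h0).2.1, (fix3 g h0).2.2.1, (fix3 g h0).2.2.2,
      by rwa [mem_stabilizer_iff, Perm.smul_def] at h1⟩
  have c0 : Nat.card K0 ≤ S1.card * Nat.card K1 := by
    apply orbit_upper K0 e1 S1
    intro g hg
    exact Finset.mem_filter.mpr ⟨Finset.mem_univ _, hne g hg e1 e1_ne⟩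
  have c1 : Nat.card K1 ≤ S2.card * Nat.card K2 := by
    apply orbit_upper K1 f1 S2
    intro g hg
    obtain ⟨h0, h1⟩ := fix1 g hg
    refine Finset.mem_filter.mpr ⟨Finset.mem_univ _, ?_⟩
    have := hω g h0 e1 f1
    rwa [h1] at this
  have c2 : Nat.card K2 ≤ S3.card * Nat.card K3 := by
    apply orbit_upper K2 e2 S3
    intro g hg
    obtain ⟨h0, h1, h2⟩ := fix2 g hg
    refine Finset.mem_filter.mpr ⟨Finset.mem_univ _, hne g h0 e2 e2_ne, ?_, ?_⟩
    · have := hω g h0 e1 e2
      rwa [h1] at this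
    · have := hω g h0 f1 e2
      rwa [h2] at this
  have c3 : Nat.card K3 ≤ S4.card * Nat.card K4 := by
    apply orbit_upper K3 f2 S4
    intro g hg
    obtain ⟨h0, h1, h2, h3⟩ := fix3 g hg
    refine Finset.mem_filter.mpr ⟨Finset.mem_univ _, ?_, ?_, ?_⟩
    · have := hω g h0 e1 f2
      rwa [h1] at this
    · have := hω g h0 f1 f2
      rwa [h2] at this
    · have := hω g h0 e2 f2
      rwa [h3] at this
  have c4 : Nat.card K4 = 1 := by
    have hbot : K4 = ⊥ := by
      rw [eq_bot_iff]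
      intro g hg
      obtain ⟨h0, h1, h2, h3, h4⟩ := fix4 g hg
      obtain ⟨A, rfl⟩ := h0
      have hA : A.1 = 1 := by
        apply eq_one_of_fix
        rintro (j | j)
        · fin_cases j
          · exact h1
          · exact h3
        · fin_cases j
          · exact h2
          · exact h4
      have hA1 : A = 1 := Subtype.ext (by rw [hA, Submonoid.coe_one])
      rw [hA1, map_one]
      exact Subgroup.mem_bot.mpr rfl
    rw [hbot]
    exact Subgroup.card_bot
  have hcard : Nat.card Γ ≤ Nat.card K0 :=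
    Nat.card_le_card_of_injective ρ.rangeRestrict
      (fun A B h => ρ_injective (congrArg Subtype.val h))
  rw [card_S1] at c0
  rw [card_S2] at c1
  rw [card_S3] at c2
  rw [card_S4, c4] at c3
  omega

end Cfsg.Agent.Lib.Helper19.Sp4
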