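import Cfsg.Agent.Lib.Helper19.Sp4F4
import Cfsg.Agent.Lib.Helper19.Sp4Data
import Cfsg.Agent.Lib.Helper19.HeMain

/-!
# A subgroup of the Held group on 2058 points isomorphic to `Sp₄(4)`

Five involutions `tN i` of the 2058 points (words in the generators of the Held group, fixing the
point 0) and five involutions `tS i` of the 256 vectors of `F4⁴` (the actions of five symplectic
matrices) satisfy the same relators `relsQ`; coset-table certificates show that any five
involutions satisfying `relsQ` generate a group of order at most `979200`, and orbit certificates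
show that both quintuples generate groups of order at least `979200`.  Hence the two groups are
isomorphic (to the diagonal subgroup of the product), and the second one is `Sp₄(4)`, whose order
is at most `979200`.
-/

set_option autoImplicit false

namespace Cfsg.Agent.Lib.Helper19.Sp4

open Equiv MulAction
open Cfsg.Agent.Lib.Helper19
open Cfsg.Agent.Lib.Helper19.Cox (L L_mono mem_L L_zero)
open Cfsg.Agent.Lib.Helper19.RC (allBelow allBelow_iff)
open Cfsg.Agent.Lib.Helper19.FP (tg16)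

/-- the five involutions of the 256 vectors -/
def tS (i : ℕ) : Perm (Fin 256) := PS.perm PS_ok i

/-- the five involutions of the 2058 points -/
def tN (i : ℕ) : Perm (Fin 2058) := PN.perm PN_ok i

theorem htS : ∀ i, tS i * tS i = 1 := PS.perm_mul_self PS_ok

theorem htN : ∀ i, tN i * tN i = 1 := PN.perm_mul_self PN_ok

theorem relS : ∀ w ∈ relsQ, (w.map tS).prod = 1 := PS.rel_eq_one PS_ok relsQ relsS_ok

theorem relN : ∀ w ∈ relsQ, (w.map tN).prod = 1 := PN.rel_eq_one PN_ok relsQ relsN_ok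

/-! ### The upper bound, in any group -/

/-- Five involutions satisfying the relators `relsQ` generate a group of order at most `979200`. -/
theorem upper {G : Type*} [Group G] (t : ℕ → G) (ht : ∀ i, t i * t i = 1)
    (hr : ∀ w ∈ relsQ, (w.map t).prod = 1) : Finite (L t 5) ∧ Nat.card (L t 5) ≤ 979200 := by
  have hrel : ∀ r, ((relsQ.getD r []).map t).prod = 1 := by
    intro r
    by_cases hlt : r < relsQ.length
    · rw [List.getD_eq_getElem _ _ hlt]
      exact hr _ (List.getElem_mem hlt)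
    · rw [List.getD_eq_default _ _ (Nat.le_of_not_lt hlt)]
      simp
  have : Finite (L t 0) := by rw [L_zero]; infer_instance
  have h0 : Nat.card (L t 0) = 1 := by rw [L_zero]; exact Subgroup.card_bot
  obtain ⟨f1, h1⟩ : Finite (L t 1) ∧ Nat.card (L t 1) ≤ C1.N * Nat.card (L t 0) :=
    RC.step_upper t C1 0 rfl C1_check ht hrel
  have := f1
  obtain ⟨f2, h2⟩ : Finite (L t 2) ∧ Nat.card (L t 2) ≤ C2.N * Nat.card (L t 1) :=
    RC.step_upper t C2 1 rfl C2_check ht hrel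
  have := f2
  obtain ⟨f3, h3⟩ : Finite (L t 3) ∧ Nat.card (L t 3) ≤ C3.N * Nat.card (L t 2) :=
    RC.step_upper t C3 2 rfl C3_check ht hrel
  have := f3
  obtain ⟨f4, h4⟩ : Finite (L t 4) ∧ Nat.card (L t 4) ≤ C4.N * Nat.card (L t 3) :=
    RC.step_upper t C4 3 rfl C4_check ht hrel
  have := f4
  obtain ⟨f5, h5⟩ : Finite (L t 5) ∧ Nat.card (L t 5) ≤ C5.N * Nat.card (L t 4) :=
    RC.step_upper t C5 4 rfl C5_check ht hrel
  have e1 : C1.N = 2 := rfl
  have e2 : C2.N = 10 := rfl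
  have e3 : C3.N = 6 := rfl
  have e4 : C4.N = 32 := rfl
  have e5 : C5.N = 255 := rfl
  rw [e1, h0] at h1
  rw [e2] at h2
  rw [e3] at h3
  rw [e4] at h4
  rw [e5] at h5
  exact ⟨f5, by omega⟩

/-- Two quintuples of involutions satisfying `relsQ` and generating groups of order at least
`979200` generate isomorphic groups. -/
theorem iso_of_models {G₁ G₂ : Type*} [Group G₁] [Group G₂] (t₁ : ℕ → G₁) (t₂ : ℕ → G₂)
    (h₁ : ∀ i, t₁ i * t₁ i = 1) (h₂ : ∀ i, t₂ i * t₂ i = 1)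
    (r₁ : ∀ w ∈ relsQ, (w.map t₁).prod = 1) (r₂ : ∀ w ∈ relsQ, (w.map t₂).prod = 1)
    (c₁ : 979200 ≤ Nat.card (L t₁ 5)) (c₂ : 979200 ≤ Nat.card (L t₂ 5)) :
    Nonempty (L t₁ 5 ≃* L t₂ 5) := by
  let t : ℕ → G₁ × G₂ := fun i => (t₁ i, t₂ i)
  have ht : ∀ i, t i * t i = 1 := fun i => Prod.ext (h₁ i) (h₂ i)
  have hprod : ∀ w : List ℕ, (w.map t).prod = ((w.map t₁).prod, (w.map t₂).prod) := by
    intro w
    induction w with
    | nil => rfl
    | cons a l ih =>
      rw [List.map_cons, List.prod_cons, ih]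
      rfl
  have hr : ∀ w ∈ relsQ, (w.map t).prod = 1 := fun w hw => by
    rw [hprod, r₁ w hw, r₂ w hw]
    rfl
  obtain ⟨hfin, hle⟩ := upper t ht hr
  have := hfin
  have m1 : (L t 5).map (MonoidHom.fst G₁ G₂) = L t₁ 5 := by
    unfold L
    rw [MonoidHom.map_closure]
    congr 1
    ext y
    constructor
    · rintro ⟨_, ⟨i, hi, rfl⟩, rfl⟩
      exact ⟨i, hi, rfl⟩
    · rintro ⟨i, hi, rfl⟩
      exact ⟨t i, ⟨i, hi, rfl⟩, rfl⟩
  have m2 : (L t 5).map (MonoidHom.snd G₁ G₂) = L t₂ 5 := by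
    unfold L
    rw [MonoidHom.map_closure]
    congr 1
    ext y
    constructor
    · rintro ⟨_, ⟨i, hi, rfl⟩, rfl⟩
      exact ⟨i, hi, rfl⟩
    · rintro ⟨i, hi, rfl⟩
      exact ⟨t i, ⟨i, hi, rfl⟩, rfl⟩
  have b1 : Function.Bijective ((MonoidHom.fst G₁ G₂).subgroupMap (L t 5)) :=
    ((MonoidHom.fst G₁ G₂).subgroupMap_surjective (L t 5)).bijective_of_nat_card_le
      (by rw [m1]; omega)
  have b2 : Function.Bijective ((MonoidHom.snd G₁ G₂).subgroupMap (L t 5)) :=
    ((MonoidHom.snd G₁ G₂).subgroupMap_surjective (L t 5)).bijective_of_nat_card_le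
      (by rw [m2]; omega)
  let E1 : L t 5 ≃* (L t 5).map (MonoidHom.fst G₁ G₂) := MulEquiv.ofBijective _ b1
  let E2 : L t 5 ≃* (L t 5).map (MonoidHom.snd G₁ G₂) := MulEquiv.ofBijective _ b2
  exact ⟨(MulEquiv.subgroupCongr m1).symm.trans
    (E1.symm.trans (E2.trans (MulEquiv.subgroupCongr m2)))⟩

/-! ### The lower bounds -/

/-- a point of `Fin 256` -/
def ptS (x : ℕ) (h : x < 256 := by norm_num) : Fin 256 := ⟨x, h⟩

/-- a point of `Fin 2058` -/
def ptN (x : ℕ) (h : x < 2058 := by norm_num) : Fin 2058 := ⟨x, h⟩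

theorem genS_mem (k : ℕ) : ∀ j < k, (([j] : List ℕ).map tS).prod ∈ L tS k := by
  intro j hj
  simp only [List.map_cons, List.map_nil, List.prod_cons, List.prod_nil, mul_one]
  exact mem_L tS hj

theorem genN_mem (k : ℕ) : ∀ j < k, (([j] : List ℕ).map tN).prod ∈ L tN k := by
  intro j hj
  simp only [List.map_cons, List.map_nil, List.prod_cons, List.prod_nil, mul_one]
  exact mem_L tN hj

/-- stabiliser chain on the 256 vectors -/
def KS1 : Subgroup (Perm (Fin 256)) := L tS 5 ⊓ stabilizer (Perm (Fin 256)) (ptS 1)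
/-- stabiliser chain on the 256 vectors -/
def KS2 : Subgroup (Perm (Fin 256)) := KS1 ⊓ stabilizer (Perm (Fin 256)) (ptS 16)
/-- stabiliser chain on the 256 vectors -/
def KS3 : Subgroup (Perm (Fin 256)) := KS2 ⊓ stabilizer (Perm (Fin 256)) (ptS 4)

theorem wokS {w : List ℕ} (h : PS.wok w = true) : ∀ i ∈ w, i < 5 := (PS.wok_iff w).mp h

theorem wokN {w : List ℕ} (h : PN.wok w = true) : ∀ i ∈ w, i < 5 := (PN.wok_iff w).mp h

theorem lowS0 : 255 * Nat.card KS1 ≤ Nat.card (L tS 5) :=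
  FP.orbit_lower (L tS 5) (ptS 1) 255 (fun c => tg16 tOS0 c)
    (PS.orb_inj _ _ _ _ _ _ _ _ orbS0)
    (PS.orb_reach PS_ok _ _ _ _ _ _ _ _ orbS0 (L tS 5) (genS_mem 5) (ptS 1) rfl)

theorem kS1_mem : ∀ j < 3, ((wS1.getD j []).map tS).prod ∈ KS1 := by
  intro j _
  have hk := wS1_ok
  simp only [List.all_eq_true, Bool.and_eq_true, Nat.beq_eq] at hk
  by_cases hlt : j < wS1.length
  · rw [List.getD_eq_getElem _ _ hlt]
    obtain ⟨h1, h2⟩ := hk _ (List.getElem_mem hlt)
    exact Subgroup.mem_inf.mpr ⟨PS.prod_mem_L PS_ok _ 5 (wokS h1),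
      PS.prod_mem_stab PS_ok _ h1 (ptS 1) h2⟩
  · rw [List.getD_eq_default _ _ (Nat.le_of_not_lt hlt)]
    simp only [List.map_nil, List.prod_nil]
    exact one_mem _

theorem lowS1 : 64 * Nat.card KS2 ≤ Nat.card KS1 :=
  FP.orbit_lower KS1 (ptS 16) 64 (fun c => tg16 tOS1 c)
    (PS.orb_inj _ _ _ _ _ _ _ _ orbS1)
    (PS.orb_reach PS_ok _ _ _ _ _ _ _ _ orbS1 KS1 kS1_mem (ptS 16) rfl)

theorem kS2_mem : ∀ j < 2, ((wS2.getD j []).map tS).prod ∈ KS2 := by
  intro j _
  have hk := wS2_ok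
  simp only [List.all_eq_true, Bool.and_eq_true, Nat.beq_eq] at hk
  by_cases hlt : j < wS2.length
  · rw [List.getD_eq_getElem _ _ hlt]
    obtain ⟨⟨h1, h2⟩, h3⟩ := hk _ (List.getElem_mem hlt)
    exact Subgroup.mem_inf.mpr ⟨Subgroup.mem_inf.mpr ⟨PS.prod_mem_L PS_ok _ 5 (wokS h1),
      PS.prod_mem_stab PS_ok _ h1 (ptS 1) h2⟩, PS.prod_mem_stab PS_ok _ h1 (ptS 16) h3⟩
  · rw [List.getD_eq_default _ _ (Nat.le_of_not_lt hlt)]
    simp only [List.map_nil, List.prod_nil]
    exact one_mem _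

theorem lowS2 : 15 * Nat.card KS3 ≤ Nat.card KS2 :=
  FP.orbit_lower KS2 (ptS 4) 15 (fun c => tg16 tOS2 c)
    (PS.orb_inj _ _ _ _ _ _ _ _ orbS2)
    (PS.orb_reach PS_ok _ _ _ _ _ _ _ _ orbS2 KS2 kS2_mem (ptS 4) rfl)

theorem kS3_mem : ∀ j < 2, ((wS3.getD j []).map tS).prod ∈ KS3 := by
  intro j _
  have hk := wS3_ok
  simp only [List.all_eq_true, Bool.and_eq_true, Nat.beq_eq] at hk
  by_cases hlt : j < wS3.length
  · rw [List.getD_eq_getElem _ _ hlt]
    obtain ⟨⟨⟨h1, h2⟩, h3⟩, h4⟩ := hk _ (List.getElem_mem hlt)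
    exact Subgroup.mem_inf.mpr ⟨Subgroup.mem_inf.mpr ⟨Subgroup.mem_inf.mpr
      ⟨PS.prod_mem_L PS_ok _ 5 (wokS h1), PS.prod_mem_stab PS_ok _ h1 (ptS 1) h2⟩,
      PS.prod_mem_stab PS_ok _ h1 (ptS 16) h3⟩, PS.prod_mem_stab PS_ok _ h1 (ptS 4) h4⟩
  · rw [List.getD_eq_default _ _ (Nat.le_of_not_lt hlt)]
    simp only [List.map_nil, List.prod_nil]
    exact one_mem _

theorem lowS3 : 4 ≤ Nat.card KS3 := by
  have h := FP.orbit_lower KS3 (ptS 64) 4 (fun c => tg16 tOS3 c)
    (PS.orb_inj _ _ _ _ _ _ _ _ orbS3)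
    (PS.orb_reach PS_ok _ _ _ _ _ _ _ _ orbS3 KS3 kS3_mem (ptS 64) rfl)
  have hpos : 0 < Nat.card
      (KS3 ⊓ stabilizer (Perm (Fin 256)) (ptS 64) : Subgroup (Perm (Fin 256))) := Nat.card_pos
  calc 4 = 4 * 1 := rfl
    _ ≤ 4 * Nat.card
      (KS3 ⊓ stabilizer (Perm (Fin 256)) (ptS 64) : Subgroup (Perm (Fin 256))) :=
      Nat.mul_le_mul_left _ hpos
    _ ≤ Nat.card KS3 := h

theorem lowerS : 979200 ≤ Nat.card (L tS 5) := by
  have h0 := lowS0
  have h1 := lowS1
  have h2 := lowS2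
  have h3 := lowS3
  omega

/-- stabiliser chain on the 2058 points -/
def KN1 : Subgroup (Perm (Fin 2058)) := L tN 5 ⊓ stabilizer (Perm (Fin 2058)) (ptN 1)
/-- stabiliser chain on the 2058 points -/
def KN2 : Subgroup (Perm (Fin 2058)) := KN1 ⊓ stabilizer (Perm (Fin 2058)) (ptN 15)

theorem lowN0 : 1360 * Nat.card KN1 ≤ Nat.card (L tN 5) :=
  FP.orbit_lower (L tN 5) (ptN 1) 1360 (fun c => tg16 tON0 c)
    (PN.orb_inj _ _ _ _ _ _ _ _ orbN0)
    (PN.orb_reach PN_ok _ _ _ _ _ _ _ _ orbN0 (L tN 5) (genN_mem 5) (ptN 1) rfl)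

theorem kN1_mem : ∀ j < 2, ((wN1.getD j []).map tN).prod ∈ KN1 := by
  intro j _
  have hk := wN1_ok
  simp only [List.all_eq_true, Bool.and_eq_true, Nat.beq_eq] at hk
  by_cases hlt : j < wN1.length
  · rw [List.getD_eq_getElem _ _ hlt]
    obtain ⟨h1, h2⟩ := hk _ (List.getElem_mem hlt)
    exact Subgroup.mem_inf.mpr ⟨PN.prod_mem_L PN_ok _ 5 (wokN h1),
      PN.prod_mem_stab PN_ok _ h1 (ptN 1) h2⟩
  · rw [List.getD_eq_default _ _ (Nat.le_of_not_lt hlt)]
    simp only [List.map_nil, List.prod_nil]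
    exact one_mem _

theorem lowN1 : 360 * Nat.card KN2 ≤ Nat.card KN1 :=
  FP.orbit_lower KN1 (ptN 15) 360 (fun c => tg16 tON1 c)
    (PN.orb_inj _ _ _ _ _ _ _ _ orbN1)
    (PN.orb_reach PN_ok _ _ _ _ _ _ _ _ orbN1 KN1 kN1_mem (ptN 15) rfl)

theorem kN2_mem : ∀ j < 1, ((wN2.getD j []).map tN).prod ∈ KN2 := by
  intro j _
  have hk := wN2_ok
  simp only [List.all_eq_true, Bool.and_eq_true, Nat.beq_eq] at hk
  by_cases hlt : j < wN2.length
  · rw [List.getD_eq_getElem _ _ hlt]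
    obtain ⟨⟨h1, h2⟩, h3⟩ := hk _ (List.getElem_mem hlt)
    exact Subgroup.mem_inf.mpr ⟨Subgroup.mem_inf.mpr ⟨PN.prod_mem_L PN_ok _ 5 (wokN h1),
      PN.prod_mem_stab PN_ok _ h1 (ptN 1) h2⟩, PN.prod_mem_stab PN_ok _ h1 (ptN 15) h3⟩
  · rw [List.getD_eq_default _ _ (Nat.le_of_not_lt hlt)]
    simp only [List.map_nil, List.prod_nil]
    exact one_mem _

theorem lowN2 : 2 ≤ Nat.card KN2 := by
  have h := FP.orbit_lower KN2 (ptN 34) 2 (fun c => tg16 tON2 c)
    (PN.orb_inj _ _ _ _ _ _ _ _ orbN2)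
    (PN.orb_reach PN_ok _ _ _ _ _ _ _ _ orbN2 KN2 kN2_mem (ptN 34) rfl)
  have hpos : 0 < Nat.card
      (KN2 ⊓ stabilizer (Perm (Fin 2058)) (ptN 34) : Subgroup (Perm (Fin 2058))) := Nat.card_pos
  calc 2 = 2 * 1 := rfl
    _ ≤ 2 * Nat.card
      (KN2 ⊓ stabilizer (Perm (Fin 2058)) (ptN 34) : Subgroup (Perm (Fin 2058))) :=
      Nat.mul_le_mul_left _ hpos
    _ ≤ Nat.card KN2 := h

theorem lowerN : 979200 ≤ Nat.card (L tN 5) := by
  have h0 := lowN0
  have h1 := lowN1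
  have h2 := lowN2
  omega

/-- The five involutions of the 2058 points generate a group of order `979200`. -/
theorem card_N : Nat.card (L tN 5) = 979200 :=
  le_antisymm (upper tN htN relN).2 lowerN

/-! ### The symplectic group -/

/-- the five symplectic matrices -/
def mA (i : ℕ) : Matrix I4 I4 F4 := mk4 (mc i)

theorem mA_mem : ∀ i : Fin 5, mA i.val * Matrix.J (Fin 2) F4 * (mA i.val).transpose =
    Matrix.J (Fin 2) F4 := by decide +kernel

theorem mA_act : ∀ i : Fin 5, ∀ x : Fin 256, enc (Matrix.mulVec (mA i.val) (dec x.val)) =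
    PS.π i.val x.val := by decide +kernel

theorem tS_mem_range (i : ℕ) (hi : i < 5) : tS i ∈ ρ'.range := by
  refine ⟨⟨mA i, SymplecticGroup.mem_iff.mpr (mA_mem ⟨i, hi⟩)⟩, ?_⟩
  ext x
  rw [ρ'_apply]
  show enc (Matrix.mulVec (mA i) (dec x.val)) = PS.act i x.val
  rw [mA_act ⟨i, hi⟩ x]
  unfold FP.PData.act
  have h1 : i < PS.n := hi
  have h2 : x.val < PS.d := x.2
  simp only [h1, h2, if_true]

/-- The five involutions of the 256 vectors generate the image of the symplectic group. -/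
theorem LS_eq : L tS 5 = ρ'.range := by
  have hle : L tS 5 ≤ ρ'.range := by
    unfold L
    rw [Subgroup.closure_le]
    rintro g ⟨i, hi, rfl⟩
    exact tS_mem_range i hi
  apply Subgroup.eq_of_le_of_card_ge hle
  have h1 : Nat.card ρ'.range = Nat.card Γ :=
    (Nat.card_congr (MonoidHom.ofInjective ρ'_injective).toEquiv).symm
  rw [h1]
  exact le_trans card_le lowerS

/-- The subgroup generated by the five involutions of the 2058 points is isomorphic to the
symplectic group `Sp₄(4)`. -/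
theorem iso_N : Nonempty (L tN 5 ≃* Matrix.symplecticGroup (Fin 2) F4) := by
  obtain ⟨e⟩ := iso_of_models tN tS htN htS relN relS lowerN lowerS
  exact ⟨e.trans ((MulEquiv.subgroupCongr LS_eq).trans
    (MonoidHom.ofInjective ρ'_injective).symm)⟩

/-! ### The link with the Held group -/

/-- the Held group on 2058 points -/
def GH : Subgroup (Perm (Fin 2058)) := L HeG.s 7

/-- the stabiliser of the point 0 in the Held group -/
def StH : Subgroup (Perm (Fin 2058)) := HeG.K1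

/-- the generators of the Held group as permutations of `Fin 2058` -/
def sH (i : ℕ) : Perm (Fin 2058) := HeG.s i

theorem tN_val (i : ℕ) (hi : i < 5) (x : Fin 2058) : (tN i x).val = PN.π i x.val := by
  show PN.act i x.val = PN.π i x.val
  unfold FP.PData.act
  have h3 : i < PN.n := hi
  have h4 : x.val < PN.d := x.2
  simp only [h3, h4, if_true]

theorem tN_eq (i : ℕ) (hi : i < 5) : tN i = ((nw.getD i []).map sH).prod := by
  have h := (allBelow_iff _ _).mp nw_ok i hi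
  simp only [Bool.and_eq_true, allBelow_iff, Nat.beq_eq] at h
  obtain ⟨h1, h2⟩ := h
  apply Equiv.ext
  intro x
  apply Fin.ext
  have e1 : ((((nw.getD i []).map sH).prod : Perm (Fin 2058)) x).val =
      HeG.P.app (nw.getD i []) x.val := HeG.P.prod_val HeG.P_ok _ h1 x
  exact (tN_val i hi x).trans ((h2 x.val x.2).symm.trans e1.symm)

theorem fix0 : ∀ i < 5, PN.π i 0 = 0 := by decide +kernel

theorem tN_mem (i : ℕ) (hi : i < 5) : tN i ∈ StH := by
  have h := (allBelow_iff _ _).mp nw_ok i hi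
  simp only [Bool.and_eq_true, allBelow_iff, Nat.beq_eq] at h
  have hmem : ((nw.getD i []).map sH).prod ∈ GH :=
    HeG.P.prod_mem_L HeG.P_ok _ 7 (HeG.wok_lt h.1)
  have hmem' : tN i ∈ GH := (congrArg (fun g => g ∈ GH) (tN_eq i hi)).mpr hmem
  refine Subgroup.mem_inf.mpr ⟨hmem', ?_⟩
  have hfix : tN i (0 : Fin 2058) = (0 : Fin 2058) := by
    apply Fin.ext
    exact (tN_val i hi (0 : Fin 2058)).trans (fix0 i hi)
  show tN i ∈ stabilizer (Perm (Fin 2058)) (0 : Fin 2058)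
  exact (mem_stabilizer_iff).mpr hfix

/-- The subgroup lies in the stabiliser of the point 0 in the Held group. -/
theorem LN_le : L tN 5 ≤ StH :=
  (Subgroup.closure_le StH).mpr (by
    rintro g ⟨i, hi, rfl⟩
    exact tN_mem i hi)

end Cfsg.Agent.Lib.Helper19.Sp4
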