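import Cfsg.Agent.Lib.Helper19.Sp4Main
import Cfsg.Agent.Lib.Helper19.HeIso
import Cfsg.Agent.Lib.Helper56.TCCox

/-!
# The symplectic group `Sp₄(4)` inside the presented Held group

The five involutions `c, d, e, f, y⁻¹ e y` with `y = (bcde)^7` of the presented Held group
generate a subgroup of the subgroup `H = ⟨a, c, d, e, f, (ab)^2, (bcde)^7⟩` that is isomorphic
to `Sp₄(4)`; as `H` has index 2058, it has index 2 in `H`.
-/

set_option autoImplicit false

namespace Cfsg.Agent.Lib.Helper19.Sp4P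

open Cfsg.Spor
open Cfsg.Agent.Lib.Helper56.TC (ew ew_cons ew_nil ew_append ew_rep)
open Cfsg.Agent.Lib.Helper19.Cox (L mem_L)
open Cfsg.Agent.Lib.Helper19.HePres
open Cfsg.Agent.Lib.Helper19.Sp4
open Cfsg.Agent.Lib.Helper19.RC (allBelow allBelow_iff)
open Cfsg.Agent.Lib.Helper19
open Equiv

/-- the subgroup `H` of the presented Held group -/
def HP : Subgroup (PresentedGroup R) :=
  (Subgroup.closure ({He.a, He.c, He.d, He.e, He.f, (He.a * He.b) ^ 2,
    (He.b * He.c * He.d * He.e) ^ 7} : Set (FreeGroup He.Gen))).map (PresentedGroup.mk R)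

/-- the five involutions, in the presented group -/
noncomputable def nP (i : ℕ) : PresentedGroup R := ew gP (nw.getD i [])

/-- the evaluation homomorphism, with values in the permutations of `Fin 2058` -/
noncomputable def φ' : PresentedGroup R →* Perm (Fin 2058) := φ

theorem φ'_injective : Function.Injective φ' := HeIso.φ_injective

theorem φ'_nP (i : ℕ) (hi : i < 5) : φ' (nP i) = tN i := by
  have h := (allBelow_iff _ _).mp nw_ok i hi
  simp only [Bool.and_eq_true, allBelow_iff, Nat.beq_eq] at h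
  have h1 : φ (ew gP (nw.getD i [])) = ((nw.getD i []).map HeG.s).prod :=
    φ_ew _ (HeG.wok_lt h.1)
  exact h1.trans (tN_eq i hi).symm

theorem gen_mem (x : FreeGroup He.Gen)
    (hx : x ∈ ({He.a, He.c, He.d, He.e, He.f, (He.a * He.b) ^ 2,
    (He.b * He.c * He.d * He.e) ^ 7} : Set (FreeGroup He.Gen))) : PresentedGroup.mk R x ∈ HP :=
  Subgroup.mem_map_of_mem _ (Subgroup.subset_closure hx)

theorem c_mem : gP 2 ∈ HP := gen_mem He.c (by simp)
theorem d_mem : gP 3 ∈ HP := gen_mem He.d (by simp)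
theorem e_mem : gP 4 ∈ HP := gen_mem He.e (by simp)
theorem f_mem : gP 5 ∈ HP := gen_mem He.f (by simp)

theorem y_mem : ew gP (List.replicate 7 [1, 2, 3, 4]).flatten ∈ HP := by
  rw [ew_rep]
  have h : ew gP [1, 2, 3, 4] = PresentedGroup.mk R (He.b * He.c * He.d * He.e) := by
    rw [ew_cons, ew_cons, ew_cons, ew_cons, ew_nil, mul_one, map_mul, map_mul, map_mul,
      mul_assoc, mul_assoc]
    rfl
  rw [h, ← map_pow]
  exact gen_mem _ (by simp)

theorem nw4 : nw.getD 4 [] = (List.replicate 7 [1, 2, 3, 4]).flatten.reverse ++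
    ([4] ++ (List.replicate 7 [1, 2, 3, 4]).flatten) := by decide

theorem nP_mem (i : ℕ) (hi : i < 5) : nP i ∈ HP := by
  unfold nP
  interval_cases i
  · show ew gP [2] ∈ HP
    rw [ew_cons, ew_nil, mul_one]
    exact c_mem
  · show ew gP [3] ∈ HP
    rw [ew_cons, ew_nil, mul_one]
    exact d_mem
  · show ew gP [4] ∈ HP
    rw [ew_cons, ew_nil, mul_one]
    exact e_mem
  · show ew gP [5] ∈ HP
    rw [ew_cons, ew_nil, mul_one]
    exact f_mem
  · rw [nw4, ew_append, ew_append, ew_rev, ew_cons, ew_nil, mul_one]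
    exact HP.mul_mem (HP.inv_mem y_mem) (HP.mul_mem e_mem y_mem)

theorem LnP_le : L nP 5 ≤ HP :=
  (Subgroup.closure_le HP).mpr (by
    rintro g ⟨i, hi, rfl⟩
    exact nP_mem i hi)

theorem map_LnP : (L nP 5).map φ' = L tN 5 := by
  unfold L
  rw [MonoidHom.map_closure]
  congr 1
  ext y
  constructor
  · rintro ⟨_, ⟨i, hi, rfl⟩, rfl⟩
    exact ⟨i, hi, (φ'_nP i hi).symm⟩
  · rintro ⟨i, hi, rfl⟩
    exact ⟨nP i, ⟨i, hi, rfl⟩, φ'_nP i hi⟩

/-- the subgroup generated by the five involutions is isomorphic to the subgroup of the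
permutations of the 2058 points that their images generate -/
noncomputable def eL : L nP 5 ≃* L tN 5 :=
  ((L nP 5).equivMapOfInjective φ' φ'_injective).trans (MulEquiv.subgroupCongr map_LnP)

theorem arith (a b : ℕ) (h1 : a * 2058 = 4030387200) (h2 : 979200 * b = a) : b = 2 := by
  omega

theorem final (hidx : HP.index = 2058) : ∃ (N : Subgroup HP) (K : Type) (_ : Field K)
    (_ : Fintype K), N.Normal ∧ N.index = 2 ∧ Fintype.card K = 4 ∧
    Nonempty (N ≃* Matrix.symplecticGroup (Fin 2) K) := by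
  let e1 : (L nP 5).subgroupOf HP ≃* L nP 5 := Subgroup.subgroupOfEquivOfLe LnP_le
  have hcN : Nat.card ((L nP 5).subgroupOf HP) = 979200 := by
    rw [Nat.card_congr (e1.trans eL).toEquiv]
    exact card_N
  have h1 := Subgroup.card_mul_index HP
  rw [hidx, main.2] at h1
  have h2 := Subgroup.card_mul_index ((L nP 5).subgroupOf HP)
  rw [hcN] at h2
  have hi2 : ((L nP 5).subgroupOf HP).index = 2 := arith _ _ h1 h2
  obtain ⟨e3⟩ := iso_N
  exact ⟨(L nP 5).subgroupOf HP, F4, inferInstance, inferInstance,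
    Subgroup.normal_of_index_eq_two hi2, hi2, F4.card, ⟨(e1.trans eL).trans e3⟩⟩

end Cfsg.Agent.Lib.Helper19.Sp4P
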